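import Cfsg.Agent.Lib.Helper45.AutOut1

/-!
# `posPres_of_perm`
-/

set_option autoImplicit false

namespace Cfsg.Agent.Lib.Helper45

open Cfsg.Lie Matrix Cfsg.Agent.Lib.Helper23 Cfsg.Agent.Lib.Helper22 Cfsg.Agent.Lib.Helper8
open AutAbs

/-- over a finite field, mapping a root subgroup into another one means mapping it onto it -/
theorem mp_of_into {D : ChevalleyDatum} {F : Type*} [Field F] [Finite F]
    (hD : D ∈ [chevG2, chevB2, chevD4, chevF4, chevE6, chevE7, chevE8]) (hA : AddFact D F)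
    {θ : ↥(D.group F) ≃* ↥(D.group F)} {r s : ℕ} (hr : r < D.nroots)
    (h : ∀ t : F, (θ ⟨hA.X r t, hA.X_mem_group _ _⟩ : GL D.Idx F) ∈ D.rootSubgroup F s) :
    Mp θ (sG (D.rootSubgroup F r)) (sG (D.rootSubgroup F s)) := by
  obtain ⟨P, n0, ι, S⟩ := sys_of_mem' hD hA
  have h1 : ∀ t : F, ∃ u : F, θ (xG hA r t) = xG hA s u := by
    intro t
    obtain ⟨u, e⟩ := (hA.mem_rootSubgroup_iff _ _).1 (h t)
    exact ⟨u, Subtype.ext e⟩
  choose f hf using h1
  exact S.mp_of_fun (Finite.surjective_of_injective (S.fun_inj hr hf)) hf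

theorem posPres_of_perm {F : Type*} [Field F] [Finite F] (D : ChevalleyDatum)
    (hD : D ∈ [chevG2, chevB2, chevD4, chevF4, chevE6, chevE7, chevE8]) (hA : AddFact D F)
    (θ : ↥(D.group F) ≃* ↥(D.group F)) (π : Equiv.Perm (Fin D.rank))
    (h1 : ∀ (i : Fin D.rank) (t : F), (θ ⟨hA.X (D.simple i) t, hA.X_mem_group _ _⟩ : GL D.Idx F) ∈
      D.rootSubgroup F (D.simple (π i)))
    (h2 : ∀ (i : Fin D.rank) (t : F), (θ ⟨hA.X (D.neg (D.simple i)) t, hA.X_mem_group _ _⟩ : GL D.Idx F) ∈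
      D.rootSubgroup F (D.neg (D.simple (π i)))) :
    (∀ u : ↥(D.group F), (u : GL D.Idx F) ∈ D.posUnipotent F → (θ u : GL D.Idx F) ∈ D.posUnipotent F) ∧
    (∀ u : ↥(D.group F), (u : GL D.Idx F) ∈ D.negUnipotent F → (θ u : GL D.Idx F) ∈ D.negUnipotent F) := by
  have hR := (bundle_of_mem F hD).hR
  have hρ : ∀ i : Fin D.rank,
      Mp θ (sG (D.rootSubgroup F (D.simple i))) (sG (D.rootSubgroup F (D.simple (π i)))) ∧
      Mp θ (sG (D.rootSubgroup F (D.neg (D.simple i)))) (sG (D.rootSubgroup F (D.neg (D.simple (π i))))) :=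
    fun i => ⟨mp_of_into hD hA (hR.simple_lt i.2) (h1 i),
      mp_of_into hD hA (hR.neg_lt (hR.simple_lt i.2)) (h2 i)⟩
  exact ⟨map_pos_le hD hρ, map_neg_le hD hρ⟩

end Cfsg.Agent.Lib.Helper45
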