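import Cfsg.Agent.Lib.Helper45.TwistTabD4
import Cfsg.Agent.Lib.Helper45.TwistE6
import Cfsg.Agent.Lib.Helper45.TwistSetup
import Cfsg.Agent.Lib.Helper22.ChevGrD4

/-!
# The group `³D₄(q)` as a twisted group in the sense of `TwistGraph.lean`
-/

set_option autoImplicit false

namespace Cfsg.Agent.Lib.Helper45

open Cfsg.Lie Matrix Cfsg.Agent.Lib.Helper23 Cfsg.Agent.Lib.Helper22 Cfsg.Agent.Lib.Helper8

theorem compat_triple {F : Type*} {c : ℕ → F → F} {ρ' : ℕ → ℕ} {r₁ r₂ r₃ : ℕ} (h₁ : ρ' r₁ = r₃)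
    (h₂ : ρ' r₂ = r₁) (h₃ : ρ' r₃ = r₂) (τ : ℕ → F) :
    Compat c ρ' [r₁, r₂, r₃] τ ↔
      τ r₁ = c r₃ (τ r₃) ∧ τ r₂ = c r₁ (τ r₁) ∧ τ r₃ = c r₂ (τ r₂) := by
  simp [Compat, h₁, h₂, h₃]

theorem basesD4 : (orbsD4.map (fun ω => ω.map chevD4.simple) ++
    orbsD4.map fun ω => ω.map fun i => chevD4.neg (chevD4.simple i)) =
    [[14], [18, 13, 12], [9], [5, 10, 11]] := by decide +kernel

section
variable {K : Type*} [Field K]

theorem twistedD4_eq (hA : AddFact chevD4 K) {q : ℕ} (φ : K →+* K) (hφ : ∀ t, φ t = t ^ q)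
    (hqq : ∀ t : K, ((t ^ q) ^ q) ^ q = t) :
    twistedD4 K q = Subgroup.closure (twGens hA (fun r t => (gamD4 r : K) * φ t) rhoInvD4
      (orbsD4.map (fun ω => ω.map chevD4.simple) ++
        orbsD4.map fun ω => ω.map fun i => chevD4.neg (chevD4.simple i))) := by
  unfold twistedD4 ChevalleyDatum.genSubgroup
  congr 1
  rw [basesD4]
  have hs : ∀ r, rhoInvD4 r = r → gamD4 r = 1 → ∀ τ : ℕ → K,
      Compat (fun r t => (gamD4 r : K) * φ t) rhoInvD4 [r] τ ↔ τ r ^ q = τ r := by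
    intro r h1 h2 τ
    rw [compat_single h1]
    simp only [h2, hφ, Int.cast_one, one_mul]
    exact eq_comm
  have hp : ∀ r₁ r₂ r₃, rhoInvD4 r₁ = r₃ → rhoInvD4 r₂ = r₁ → rhoInvD4 r₃ = r₂ → gamD4 r₁ = 1 →
      gamD4 r₂ = 1 → gamD4 r₃ = 1 →
      ∀ τ : ℕ → K, Compat (fun r t => (gamD4 r : K) * φ t) rhoInvD4 [r₁, r₂, r₃] τ ↔
        τ r₂ = τ r₁ ^ q ∧ τ r₃ = τ r₁ ^ (q ^ 2) := by
    intro r₁ r₂ r₃ h1 h2 h3 h4 h5 h6 τ
    rw [compat_triple h1 h2 h3]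
    simp only [h4, h5, h6, hφ, Int.cast_one, one_mul]
    constructor
    · rintro ⟨_, h, h'⟩
      exact ⟨h, by rw [h', h, ← pow_mul, sq]⟩
    · rintro ⟨h, h'⟩
      have e : τ r₁ ^ (q ^ 2) = (τ r₁ ^ q) ^ q := by rw [← pow_mul, sq]
      exact ⟨by rw [h', e, hqq], h, by rw [h', h, e]⟩
  ext g
  simp only [twGens, Set.mem_ofPred_eq, hA.eq_W_iff]
  constructor
  · rintro ⟨w, hw, rfl⟩
    rcases hw with ⟨t, ht, r, hr, rfl⟩ | ⟨t, rs, hrs, rfl⟩
    · refine ⟨[r], ?_, fun _ => t, ?_, rfl⟩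
      · simp only [List.mem_cons, List.not_mem_nil, or_false] at hr
        rcases hr with rfl | rfl <;> simp [d4p2, d4m2]
      · simp only [List.mem_cons, List.not_mem_nil, or_false] at hr
        rcases hr with rfl | rfl
        · exact (hs _ rfl rfl _).2 ht
        · exact (hs _ rfl rfl _).2 ht
    · refine ⟨[rs.1, rs.2.1, rs.2.2], ?_,
        fun a => if a = rs.1 then t else if a = rs.2.1 then t ^ q else t ^ (q ^ 2), ?_, ?_⟩
      · simp only [List.mem_cons, List.not_mem_nil, or_false] at hrs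
        rcases hrs with rfl | rfl <;> simp [d4p1, d4p3, d4p4, d4m1, d4m3, d4m4]
      · simp only [List.mem_cons, List.not_mem_nil, or_false] at hrs
        rcases hrs with rfl | rfl
        · exact (hp 18 13 12 rfl rfl rfl rfl rfl rfl _).2 (by simp [d4p1, d4p3, d4p4])
        · exact (hp 5 10 11 rfl rfl rfl rfl rfl rfl _).2 (by simp [d4m1, d4m3, d4m4])
      · simp only [List.mem_cons, List.not_mem_nil, or_false] at hrs
        rcases hrs with rfl | rfl <;> simp [wL, d4p1, d4p3, d4p4, d4m1, d4m3, d4m4]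
  · rintro ⟨β, hβ, τ, hτ, rfl⟩
    simp only [List.mem_cons, List.not_mem_nil, or_false] at hβ
    rcases hβ with rfl | rfl | rfl | rfl
    · exact ⟨_, Or.inl ⟨τ 14, (hs _ rfl rfl _).1 hτ, 14, by simp [d4p2], rfl⟩, rfl⟩
    · refine ⟨_, Or.inr ⟨τ 18, (18, 13, 12), by simp [d4p1, d4p3, d4p4], rfl⟩, ?_⟩
      obtain ⟨h1, h2⟩ := (hp 18 13 12 rfl rfl rfl rfl rfl rfl _).1 hτ
      rw [← h1, ← h2]; rfl
    · exact ⟨_, Or.inl ⟨τ 9, (hs _ rfl rfl _).1 hτ, 9, by simp [d4m2], rfl⟩, rfl⟩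
    · refine ⟨_, Or.inr ⟨τ 5, (5, 10, 11), by simp [d4m1, d4m3, d4m4], rfl⟩, ?_⟩
      obtain ⟨h1, h2⟩ := (hp 5 10 11 rfl rfl rfl rfl rfl rfl _).1 hτ
      rw [← h1, ← h2]; rfl

end

theorem memD4 : chevD4 ∈ [chevG2, chevB2, chevD4, chevF4, chevE6, chevE7, chevE8] := by simp

set_option maxRecDepth 100000 in
theorem rhoD4_eq : ∀ s < 24, rhoD40 s = rhoD4 s ∧ gamD40 s = gamD4 s := by decide +kernel

variable {K : Type*} [Field K] [Fintype K]

/-- The twisted group `³D₄(q)` fits into the general setup. -/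
theorem d4_setup {q : ℕ} (hq : IsPrimePow q) (hK : Fintype.card K = q ^ 3) :
    ∃ (σ : GL chevD4.Idx K → GL chevD4.Idx K) (φ : K →+* K), (∀ t, φ t = t ^ q) ∧
      TwSetup chevD4 K (bundle_of_mem K memD4) σ rhoD4 rhoInvD4
        (fun r t => (gamD4 r : K) * φ t) orbsD4 certD4 (twistedD4 K q) := by
  obtain ⟨φ, hφ, hsurj⟩ := exists_frob hq hK
  obtain ⟨G⟩ := graphConjD40 (bundle_of_mem K memD4).hA
  have hqq : ∀ t : K, ((t ^ q) ^ q) ^ q = t := by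
    intro t
    rw [← pow_mul, ← pow_mul]
    have : q * (q * q) = q ^ 3 := by ring
    rw [this, ← hK, FiniteField.pow_card]
  refine ⟨twSigma chevD4 G.P φ, φ, hφ, twSetup_graph _ memD4 graphTabD4 ?_ φ hsurj twTabD4 gamOneD4
    (twistedD4_eq _ φ hφ hqq)⟩
  intro r hr t
  rw [G.conj r hr, (rhoD4_eq r hr).1, (rhoD4_eq r hr).2]

end Cfsg.Agent.Lib.Helper45
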