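import Cfsg.Agent.Lib.Helper22.OF4Defs
import Cfsg.Agent.Lib.Helper23.TwAutP
import Cfsg.Agent.Lib.Helper31.OF4N0

/-! ladder OF4, rung OPP -/

set_option autoImplicit false

namespace Cfsg.Agent.Lib.Helper22.OF4
open Cfsg.Lie Matrix Cfsg.Agent.Lib.Helper22 Cfsg.Agent.Lib.Helper23 Cfsg.Agent.Lib.Helper45
open Cfsg.Agent.Lib.Helper45.AutAbs Cfsg.Agent.Lib.Helper23.TwAut

theorem opp_mp_of_finite {G : Type*} [Group G] [Finite G] (θ : G ≃* G) (L : Subgroup G)
    (h : ∀ g ∈ L, θ g ∈ L) : Mp θ L L := by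
  intro g
  refine ⟨fun hg => ?_, h g⟩
  let f : L → L := fun l => ⟨θ l, h l l.2⟩
  have hf : Function.Injective f := fun a c e => Subtype.ext (θ.injective (congrArg Subtype.val e))
  obtain ⟨l, hl⟩ := Finite.surjective_of_injective hf ⟨θ g, hg⟩
  have : θ l = θ g := congrArg Subtype.val hl
  rw [← θ.injective this]
  exact l.2

/-- a conjugate of an element of `U` lying in `B` lies in `U` -/
theorem opp_conj_pos {D : ChevalleyDatum} {F : Type*} [Field F] (b : Bundle D F) (hev : D.nroots % 2 = 0)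
    {g y : GL D.Idx F} (hy : y ∈ D.posUnipotent F) (hx : g * y * g⁻¹ ∈ D.borelSubgroup F) :
    g * y * g⁻¹ ∈ D.posUnipotent F := by
  obtain ⟨c, hc, k, hk, e⟩ := (b.hA.mem_borel_iff b.hT).1 hx
  have hun : (((c * k : GL D.Idx F) : Matrix D.Idx D.Idx F) - 1) ^ (D.nroots + 1) = 0 := by
    rw [← e]
    have e2 : ((g * y * g⁻¹ : GL D.Idx F) : Matrix D.Idx D.Idx F) - 1 =
        (g : Matrix D.Idx D.Idx F) * ((y : Matrix D.Idx D.Idx F) - 1) *
          ((g⁻¹ : GL D.Idx F) : Matrix D.Idx D.Idx F) := by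
      rw [mul_sub, sub_mul, mul_one, ← Units.val_mul, ← Units.val_mul, ← Units.val_mul, mul_inv_cancel]
      rfl
    have e3 : ∀ j : ℕ, ((g : Matrix D.Idx D.Idx F) * ((y : Matrix D.Idx D.Idx F) - 1) *
        ((g⁻¹ : GL D.Idx F) : Matrix D.Idx D.Idx F)) ^ j =
        (g : Matrix D.Idx D.Idx F) * ((y : Matrix D.Idx D.Idx F) - 1) ^ j *
          ((g⁻¹ : GL D.Idx F) : Matrix D.Idx D.Idx F) := by
      intro j
      induction j with
      | zero =>
        rw [pow_zero, pow_zero, mul_one, ← Units.val_mul, mul_inv_cancel]; rfl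
      | succ j ih =>
        rw [pow_succ, ih, pow_succ]
        have : ((g⁻¹ : GL D.Idx F) : Matrix D.Idx D.Idx F) * (g : Matrix D.Idx D.Idx F) = 1 := by
          rw [← Units.val_mul, inv_mul_cancel]; rfl
        calc _ = (g : Matrix D.Idx D.Idx F) * ((y : Matrix D.Idx D.Idx F) - 1) ^ j *
              (((g⁻¹ : GL D.Idx F) : Matrix D.Idx D.Idx F) * (g : Matrix D.Idx D.Idx F)) *
              ((y : Matrix D.Idx D.Idx F) - 1) * ((g⁻¹ : GL D.Idx F) : Matrix D.Idx D.Idx F) := by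
                simp only [mul_assoc]
          _ = _ := by rw [this, mul_one]; simp only [mul_assoc]
    rw [e2, e3, b.hA.pos_sub_one_pow b.hG hy (Nat.lt_succ_self _)]
    simp
  have hk1 := b.hA.diag_eq_one_of_unipotent b.hT b.hG hev hc hk hun
  rw [e, hk1, mul_one]
  exact hc

variable {K : Type*} [Field K] [CharP K 2] [Fintype K] {m : ℕ} (hK : Fintype.card K = 2 ^ (2 * m + 1))
  (b : Bundle chevF4 K) (α : ↥(chevF4.group K) ≃* ↥(chevF4.group K))
  (hα : ∀ r < 48, ∀ t : K,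
    (α ⟨b.hA.X r t, b.hA.X_mem_group r t⟩ : GL chevF4.Idx K) = b.hA.X (isoRhoF4 r) (t ^ isoLamF4 r))

include hK hα in
/-- [OPP] -/
theorem f4_opp (n : ↥(twistedF4 K (2 ^ m))) (hn : n ∈ NN K m)
    (h : ∀ u ∈ UU K m, n * u * n⁻¹ ∈ UU K m → u = 1) : Mp (cj n) (UU K m) (VV K m) := by
  have hS := sharpBN_of_mem K memF4
  have hF := f4_fixBN hK b α hα
  have hnN : (n : GL chevF4.Idx K) ∈ chevF4.monomialSubgroup K := mem_sT.1 hn
  have step : ∀ u ∈ UU K m, n * u * n⁻¹ ∈ VV K m := by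
    intro u hu
    have huU : (u : GL chevF4.Idx K) ∈ chevF4.posUnipotent K := mem_sT.1 hu
    obtain ⟨x, hx, hx1, u'', hu'', hu''1, e⟩ := hF.key hS (g := (n : GL chevF4.Idx K) * u)
      (mul_mem n.2 u.2) hnN n.2 ⟨1, one_mem _, u, AddFact.pos_le_borel huU, by rw [one_mul]⟩
    have hyU : u * (⟨u'', hu''1⟩ : ↥(twistedF4 K (2 ^ m)))⁻¹ ∈ UU K m :=
      mem_sT.2 (mul_mem huU (inv_mem (hS.Um_le _ hu'')))
    have hxy : (n : GL chevF4.Idx K) * ((u : GL chevF4.Idx K) * u''⁻¹) * (n : GL chevF4.Idx K)⁻¹ = x := by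
      calc (n : GL chevF4.Idx K) * ((u : GL chevF4.Idx K) * u''⁻¹) * (n : GL chevF4.Idx K)⁻¹
          = ((n : GL chevF4.Idx K) * u) * u''⁻¹ * (n : GL chevF4.Idx K)⁻¹ := by group
        _ = x := by rw [e]; group
    have hc : n * (u * (⟨u'', hu''1⟩ : ↥(twistedF4 K (2 ^ m)))⁻¹) * n⁻¹ ∈ UU K m := by
      apply mem_sT.2
      show (n : GL chevF4.Idx K) * ((u : GL chevF4.Idx K) * u''⁻¹) * (n : GL chevF4.Idx K)⁻¹ ∈ _
      exact opp_conj_pos b (by decide +kernel) (mul_mem huU (inv_mem (hS.Um_le _ hu''))) (by rw [hxy]; exact hx)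
    have hy1 := h _ hyU hc
    have hu2 : u = ⟨u'', hu''1⟩ := mul_inv_eq_one.1 hy1
    apply mem_sT.2
    show (n : GL chevF4.Idx K) * (u : GL chevF4.Idx K) * (n : GL chevF4.Idx K)⁻¹ ∈ _
    rw [hu2]
    exact conj_Umin_le_neg b.hA _ hu''
  obtain ⟨n0, -, h0, -, -⟩ := f4_n0 (m := m) b
  have hfin := opp_mp_of_finite (cj (n0 * n)) (UU K m) (fun g hg => by
    have : cj (n0 * n) g = cj n0 (n * g * n⁻¹) := by
      simp only [cj_apply]; group
    rw [this]
    exact (h0 _).2 (step g hg))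
  intro g
  rw [← hfin g, ← h0 (cj n g)]
  have : cj (n0 * n) g = cj n0 (cj n g) := by
    simp only [cj_apply]; group
  rw [this]

end Cfsg.Agent.Lib.Helper22.OF4
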