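import Cfsg.Agent.Lib.Helper45.TwistWeyl
import Cfsg.Agent.Lib.Helper45.TwistAsm

/-!
# The Weyl group of a twisted group: Coxeter matrix from table checks
-/

set_option autoImplicit false

namespace Cfsg.Agent.Lib.Helper45

open Cfsg.Lie Matrix Cfsg.Agent.Lib.Helper23 Cfsg.Agent.Lib.Helper22 Cfsg.Agent.Lib.Helper8

variable {D : ChevalleyDatum} {F : Type*} [Field F]

/-- table facts on the words `(ω_i ω_j)^t` -/
structure TwCox (D : ChevalleyDatum) {n : ℕ} (orb : Fin n → List ℕ) (M : CoxeterMatrix (Fin n)) :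
    Prop where
  pos : ∀ i j, 0 < M i j
  one : ∀ i j : Fin n, ∀ r < D.nroots, D.IsPosRoot r →
    D.IsPosRoot (wact D (List.replicate (M i j) (orb i ++ orb j)).flatten r)
  ne : ∀ i j : Fin n, ∀ t : Fin (M i j), 0 < t.val → ∃ r < D.nroots, D.IsPosRoot r ∧
    D.IsNegRoot (wact D (List.replicate t.val (orb i ++ orb j)).flatten r)

theorem mem_replicate_flatten {n t : ℕ} {w : List ℕ} (hw : ∀ i ∈ w, i < n) :
    ∀ k ∈ (List.replicate t w).flatten, k < n := by
  intro k hk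
  rw [List.mem_flatten] at hk
  obtain ⟨l, hl, hkl⟩ := hk
  rw [List.eq_of_mem_replicate hl] at hkl
  exact hw k hkl

theorem acts_pow (b : Bundle D F) {m : GL D.Idx F} {w : List ℕ} (h : Acts D F m (wact D w))
    (hw : ∀ i ∈ w, i < D.rank) (t : ℕ) :
    Acts D F (m ^ t) (wact D (List.replicate t w).flatten) := by
  induction t with
  | zero =>
    intro r _
    simp only [pow_zero, List.replicate_zero, List.flatten_nil, wact_nil]
    have : (MulAut.conj (1 : GL D.Idx F)).toMonoidHom = MonoidHom.id _ := by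
      apply MonoidHom.ext; intro x; simp
    rw [this, Subgroup.map_id]
  | succ t ih =>
    rw [pow_succ']
    refine (h.mul ih fun r hr => b.hR.wact_lt (mem_replicate_flatten hw) hr).congr fun r _ => ?_
    rw [List.replicate_succ, List.flatten_cons, wact_append]
    rfl

section
variable (b : Bundle D F) {G1 : Subgroup (GL D.Idx F)} {P : Cfsg.BNPair ↥G1}
  {orbs : List (List ℕ)} {rep h₀ : List ℕ → GL D.Idx F}
  (hPB : P.B = (D.borelSubgroup F ⊓ G1).subgroupOf G1)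
  (hPS : P.S = {s : ↥G1 | (s : GL D.Idx F) ∈ {s | ∃ ω ∈ orbs, s = rep ω}})
  (hrank : ∀ ω ∈ orbs, ∀ i ∈ ω, i < D.rank)
  (hh₀ : ∀ ω ∈ orbs, h₀ ω ∈ D.diagonalSubgroup F)
  (hrep : ∀ ω ∈ orbs, rep ω = b.hA.nword ω * h₀ ω)
  (hrepG : ∀ ω ∈ orbs, rep ω ∈ G1)

include b hPB hPS hrank hh₀ hrep hrepG in
theorem tw_weyl {n : ℕ} (orb : Fin n → List ℕ) (horb1 : ∀ i, orb i ∈ orbs)
    (horb2 : ∀ ω ∈ orbs, ∃ i, orb i = ω) {M : CoxeterMatrix (Fin n)} (hM : TwCox D orb M) :
    ∃ σ : Fin n ≃ P.S, (∀ i, (((σ i : P.S) : ↥G1) : GL D.Idx F) = rep (orb i)) ∧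
      (∀ i, sg P (σ i) * sg P (σ i) = 1) ∧ (∀ w, ∃ L, wp (fun i => sg P (σ i)) L = w) ∧
      ExCond (fun i => sg P (σ i)) ∧ (∀ i j, orderOf (sg P (σ i) * sg P (σ j)) = M i j) := by
  have hact : ∀ i j, Acts D F (rep (orb i) * rep (orb j)) (wact D (orb i ++ orb j)) := by
    intro i j
    refine ((acts_rep b (hrank _ (horb1 i)) (hh₀ _ (horb1 i)) (hrep _ (horb1 i))).mul
      (acts_rep b (hrank _ (horb1 j)) (hh₀ _ (horb1 j)) (hrep _ (horb1 j)))
      fun r hr => b.hR.wact_lt (hrank _ (horb1 j)) hr).congr fun r _ => ?_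
    rw [wact_append]; rfl
  have hw : ∀ i j, ∀ k ∈ orb i ++ orb j, k < D.rank := by
    intro i j k hk
    rcases List.mem_append.1 hk with h | h
    · exact hrank _ (horb1 i) k h
    · exact hrank _ (horb1 j) k h
  have hN : ∀ i, rep (orb i) ∈ D.monomialSubgroup F := by
    intro i
    rw [hrep _ (horb1 i)]
    exact mul_mem (b.hA.nword_mem_mono b.hR (hrank _ (horb1 i)))
      (AddFact.diag_le_mono (hh₀ _ (horb1 i)))
  refine fix_weyl hPB hPS (fun i => rep (orb i)) ?_ (fun i => hrepG _ (horb1 i)) M hM.pos ?_ ?_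
  · ext s
    constructor
    · rintro ⟨ω, hω, rfl⟩
      obtain ⟨i, rfl⟩ := horb2 ω hω
      exact ⟨i, rfl⟩
    · rintro ⟨i, rfl⟩
      exact ⟨_, horb1 i, rfl⟩
  · intro i j
    exact AddFact.diag_le_borel ((acts_pow b (hact i j) (hw i j) _).mem_diag b
      (pow_mem (mul_mem (hN i) (hN j)) _) fun r hr => hM.one i j r hr.1 hr)
  · intro i j t ht0 ht
    obtain ⟨r, _, hpos, hneg⟩ := hM.ne i j ⟨t, ht⟩ ht0
    exact (acts_pow b (hact i j) (hw i j) t).not_mem_borel b hpos hneg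

end

end Cfsg.Agent.Lib.Helper45
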