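import Cfsg.Agent.Lib.Helper22.UAll
import Cfsg.Agent.Lib.Helper23.ChevAll

/-!
# Table facts on `D.commTerms` for the Steinberg presentation (rungs T1–T4 for helper23)
-/

set_option autoImplicit false
set_option maxRecDepth 1000000
set_option maxHeartbeats 0

namespace Cfsg.Agent.Lib.Helper45

open Cfsg.Lie Cfsg.Agent.Lib.Helper22 Cfsg.Agent.Lib.Helper23

/-- (T1) the roots in the commutator formula of two positive roots are positive of larger index -/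
theorem commTerms_pos {D : ChevalleyDatum}
    (hD : D ∈ [chevG2, chevB2, chevD4, chevF4, chevE6, chevE7, chevE8]) :
    ∀ a b, D.IsPosRoot a → D.IsPosRoot b → a ≠ b →
      ∀ c ∈ D.commTerms a b, D.IsPosRoot c.1 ∧ a < c.1 ∧ b < c.1 := by
  obtain ⟨T, LV, ct, V, hsz, hU, hct, hs, _⟩ := exists_uTab hD
  intro a b ha hb hab c hc
  have hpos := isPosRoot_iff V hs
  rw [commTerms_eq, chainEntry_eq_ceF V hsz, ← hct] at hc
  have ha' := (hpos a).1 ha
  have hb' := (hpos b).1 hb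
  rw [← V.hn] at ha' hb'
  have := c1Chk_iff.1 (hU.hc1 a ha'.1 ha'.2) b hb'.1 hb'.2 hab c hc
  refine ⟨(hpos _).2 ?_, this.1, this.2.1⟩
  rw [← V.hn]
  exact ⟨this.2.2, by omega⟩

/-- row check for (T2) -/
noncomputable def c2Chk (ct : ℕ → ℕ → List (ℕ × ℤ × ℕ × ℕ)) (h a : ℕ) : Bool :=
  allBelow h fun b => Bool.rec (decide (∀ c ∈ ct a b, c.1 < a ∧ c.1 < b)) true (Nat.beq a b)

theorem c2Chk_iff {ct : ℕ → ℕ → List (ℕ × ℤ × ℕ × ℕ)} {h a : ℕ} : c2Chk ct h a = true ↔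
    ∀ b < h, a ≠ b → ∀ c ∈ ct a b, c.1 < a ∧ c.1 < b := by
  unfold c2Chk
  rw [allBelow_iff]
  simp only [brec_or, Nat.beq_eq, decide_eq_true_eq]
  constructor
  · intro H b hb h2
    rcases H b hb with h3 | h3
    · exact absurd h3 h2
    · exact h3
  · intro H b hb
    by_cases h2 : a = b
    · exact Or.inl h2
    · exact Or.inr (H b hb h2)

/-- check for (T3): `p` a fundamental root, `s` positive -/
noncomputable def c3Chk (ct : ℕ → ℕ → List (ℕ × ℤ × ℕ × ℕ)) (n h p : ℕ) : Bool :=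
  allRange h h fun s => Bool.rec
    ((ct (n - 1 - p) s).all fun c => decide (n ≤ 2 * c.1 ∧ c.1 < n ∧ c.1 ≠ p)) true (Nat.beq s p)

theorem c3Chk_iff {ct : ℕ → ℕ → List (ℕ × ℤ × ℕ × ℕ)} {n h p : ℕ} : c3Chk ct n h p = true ↔
    ∀ s, h ≤ s → s < h + h → s ≠ p → ∀ c ∈ ct (n - 1 - p) s, n ≤ 2 * c.1 ∧ c.1 < n ∧ c.1 ≠ p := by
  unfold c3Chk
  rw [allRange_iff]
  simp only [brec_or, Nat.beq_eq, List.all_eq_true, decide_eq_true_eq]
  constructor
  · intro H s h1 h2 h3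
    rcases H s h1 h2 with h4 | h4
    · exact absurd h4 h3
    · exact h4
  · intro H s h1 h2
    by_cases h3 : s = p
    · exact Or.inl h3
    · exact Or.inr (H s h1 h2 h3)

/-- check for (T4): `p` a fundamental root, `s` negative -/
noncomputable def c4Chk (ct : ℕ → ℕ → List (ℕ × ℤ × ℕ × ℕ)) (n h p : ℕ) : Bool :=
  allBelow h fun s => Bool.rec
    ((ct p s).all fun c => decide (2 * c.1 < n ∧ c.1 ≠ n - 1 - p)) true (Nat.beq s (n - 1 - p))

theorem c4Chk_iff {ct : ℕ → ℕ → List (ℕ × ℤ × ℕ × ℕ)} {n h p : ℕ} : c4Chk ct n h p = true ↔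
    ∀ s < h, s ≠ n - 1 - p → ∀ c ∈ ct p s, 2 * c.1 < n ∧ c.1 ≠ n - 1 - p := by
  unfold c4Chk
  rw [allBelow_iff]
  simp only [brec_or, Nat.beq_eq, List.all_eq_true, decide_eq_true_eq]
  constructor
  · intro H s h1 h3
    rcases H s h1 with h4 | h4
    · exact absurd h4 h3
    · exact h4
  · intro H s h1
    by_cases h3 : s = n - 1 - p
    · exact Or.inl h3
    · exact Or.inr (H s h1 h3)

/-- the table facts (T2)–(T4) -/
structure StTabOK (T : Tb) (SI h : ℕ) (ct : ℕ → ℕ → List (ℕ × ℤ × ℕ × ℕ)) : Prop where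
  hh : T.n = h + h
  h2 : ∀ a < h, c2Chk ct h a = true
  h3 : ∀ i < T.l, c3Chk ct T.n h (sLook SI i) = true
  h4 : ∀ i < T.l, c4Chk ct T.n h (sLook SI i) = true

/-- the statements (T2)–(T4) -/
structure StFacts (D : ChevalleyDatum) : Prop where
  t2 : ∀ a b, D.IsNegRoot a → D.IsNegRoot b → a ≠ b →
    ∀ c ∈ D.commTerms a b, D.IsNegRoot c.1 ∧ c.1 < a ∧ c.1 < b
  t3 : ∀ i < D.rank, ∀ s, D.IsPosRoot s → s ≠ D.simple i →
    ∀ c ∈ D.commTerms (D.neg (D.simple i)) s, D.IsPosRoot c.1 ∧ c.1 ≠ D.simple i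
  t4 : ∀ i < D.rank, ∀ s, D.IsNegRoot s → s ≠ D.neg (D.simple i) →
    ∀ c ∈ D.commTerms (D.simple i) s, D.IsNegRoot c.1 ∧ c.1 ≠ D.neg (D.simple i)

theorem StTabOK.facts {T : Tb} {NT SI h : ℕ} {ct : ℕ → ℕ → List (ℕ × ℤ × ℕ × ℕ)}
    {D : ChevalleyDatum} (hS : StTabOK T SI h ct) (V : T.Valid D) (W : NValid T NT SI D)
    (Fr : FastRoot T NT SI D) (hsz : D.chain.size = T.n)
    (hct : ∀ r s, ct r s = commTermsOf (ceF T) r s) : StFacts D := by
  have hn := V.hn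
  have hl := V.hl
  have hh := hS.hh
  have hP : ∀ r, D.IsPosRoot r → r < T.n ∧ T.n ≤ 2 * r := by
    intro r hr
    have h1 : r < T.n := hn ▸ hr.1
    exact ⟨h1, (Fr.half r h1).1.1 hr⟩
  have hN : ∀ r, D.IsNegRoot r → r < T.n ∧ 2 * r < T.n := by
    intro r hr
    have h1 : r < T.n := hn ▸ hr.1
    exact ⟨h1, (Fr.half r h1).2.1 hr⟩
  have hcT : ∀ r s, D.commTerms r s = ct r s := by
    intro r s
    rw [commTerms_eq, chainEntry_eq_ceF V hsz, ← hct]
  refine ⟨?_, ?_, ?_⟩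
  · intro a b ha hb hab c hc
    rw [hcT] at hc
    obtain ⟨a1, a2⟩ := hN a ha
    obtain ⟨b1, b2⟩ := hN b hb
    have := c2Chk_iff.1 (hS.h2 a (by omega)) b (by omega) hab c hc
    refine ⟨(Fr.half c.1 (by omega)).2.2 (by omega), this.1, this.2⟩
  · intro i hi s hs hsp c hc
    have hi' : i < T.l := hl ▸ hi
    obtain ⟨e1, e2⟩ := W.hs i hi'
    rw [hcT, e1, V.neg_eq' e2] at hc
    rw [e1] at hsp ⊢
    obtain ⟨s1, s2⟩ := hP s hs
    have := c3Chk_iff.1 (hS.h3 i hi') s (by omega) (by omega) hsp c hc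
    exact ⟨(Fr.half c.1 this.2.1).1.2 this.1, this.2.2⟩
  · intro i hi s hs hsp c hc
    have hi' : i < T.l := hl ▸ hi
    obtain ⟨e1, e2⟩ := W.hs i hi'
    rw [hcT, e1] at hc
    rw [e1, V.neg_eq' e2] at hsp ⊢
    obtain ⟨s1, s2⟩ := hN s hs
    have := c4Chk_iff.1 (hS.h4 i hi') s (by omega) hsp c hc
    exact ⟨(Fr.half c.1 (by omega)).2.2 this.1, this.2⟩

theorem stTabG2 : StTabOK tbG2 Helper23.siG2 6 (commTermsOf (ceF tbG2)) where
  hh := rfl
  h2 := allBelow_iff.1 (by decide +kernel)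
  h3 := allBelow_iff.1 (by decide +kernel)
  h4 := allBelow_iff.1 (by decide +kernel)

theorem stTabB2 : StTabOK tbB2 Helper23.siB2 4 (commTermsOf (ceF tbB2)) where
  hh := rfl
  h2 := allBelow_iff.1 (by decide +kernel)
  h3 := allBelow_iff.1 (by decide +kernel)
  h4 := allBelow_iff.1 (by decide +kernel)

theorem stTabD4 : StTabOK tbD4 Helper23.siD4 12 (ct1 tbD4) where
  hh := rfl
  h2 := allBelow_iff.1 (by decide +kernel)
  h3 := allBelow_iff.1 (by decide +kernel)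
  h4 := allBelow_iff.1 (by decide +kernel)

theorem stTabF4 : StTabOK tbF4 Helper23.siF4 24 (commTermsOf (ceF tbF4)) where
  hh := rfl
  h2 := allBelow_iff.1 (by decide +kernel)
  h3 := allBelow_iff.1 (by decide +kernel)
  h4 := allBelow_iff.1 (by decide +kernel)

theorem stTabE6 : StTabOK tbE6 Helper23.siE6 36 (ct1 tbE6) where
  hh := rfl
  h2 := allBelow_iff.1 (by decide +kernel)
  h3 := allBelow_iff.1 (by decide +kernel)
  h4 := allBelow_iff.1 (by decide +kernel)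

theorem stTabE7 : StTabOK tbE7 Helper23.siE7 63 (ct1 tbE7) where
  hh := rfl
  h2 := allBelow_iff.1 (by decide +kernel)
  h3 := allBelow_iff.1 (by decide +kernel)
  h4 := allBelow_iff.1 (by decide +kernel)

theorem stTabE8 : StTabOK tbE8 Helper23.siE8 120 (ct1 tbE8) where
  hh := rfl
  h2 := allBelow_iff.1 (by decide +kernel)
  h3 := allBelow_iff.1 (by decide +kernel)
  h4 := allBelow_iff.1 (by decide +kernel)

theorem stFacts_of_mem {D : ChevalleyDatum}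
    (hD : D ∈ [chevG2, chevB2, chevD4, chevF4, chevE6, chevE7, chevE8]) : StFacts D := by
  simp only [List.mem_cons, List.not_mem_nil, or_false] at hD
  rcases hD with rfl | rfl | rfl | rfl | rfl | rfl | rfl
  · exact stTabG2.facts tbG2_valid ntG2_valid ntG2_fast hszG2 (fun _ _ => rfl)
  · exact stTabB2.facts tbB2_valid ntB2_valid ntB2_fast hszB2 (fun _ _ => rfl)
  · exact stTabD4.facts tbD4_valid ntD4_valid ntD4_fast hszD4 (ct1_eq tbD4 rfl)
  · exact stTabF4.facts tbF4_valid ntF4_valid ntF4_fast hszF4 (fun _ _ => rfl)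
  · exact stTabE6.facts tbE6_valid ntE6_valid ntE6_fast hszE6 (ct1_eq tbE6 rfl)
  · exact stTabE7.facts tbE7_valid ntE7_valid ntE7_fast hszE7 (ct1_eq tbE7 rfl)
  · exact stTabE8.facts tbE8_valid ntE8_valid ntE8_fast hszE8 (ct1_eq tbE8 rfl)

/-- (T2) -/
theorem commTerms_neg {D : ChevalleyDatum}
    (hD : D ∈ [chevG2, chevB2, chevD4, chevF4, chevE6, chevE7, chevE8]) :
    ∀ a b, D.IsNegRoot a → D.IsNegRoot b → a ≠ b →
      ∀ c ∈ D.commTerms a b, D.IsNegRoot c.1 ∧ c.1 < a ∧ c.1 < b := (stFacts_of_mem hD).t2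

/-- (T3) -/
theorem commTerms_ns_pos {D : ChevalleyDatum}
    (hD : D ∈ [chevG2, chevB2, chevD4, chevF4, chevE6, chevE7, chevE8]) :
    ∀ i < D.rank, ∀ s, D.IsPosRoot s → s ≠ D.simple i →
      ∀ c ∈ D.commTerms (D.neg (D.simple i)) s, D.IsPosRoot c.1 ∧ c.1 ≠ D.simple i :=
  (stFacts_of_mem hD).t3

/-- (T4) -/
theorem commTerms_s_neg {D : ChevalleyDatum}
    (hD : D ∈ [chevG2, chevB2, chevD4, chevF4, chevE6, chevE7, chevE8]) :
    ∀ i < D.rank, ∀ s, D.IsNegRoot s → s ≠ D.neg (D.simple i) →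
      ∀ c ∈ D.commTerms (D.simple i) s, D.IsNegRoot c.1 ∧ c.1 ≠ D.neg (D.simple i) :=
  (stFacts_of_mem hD).t4

end Cfsg.Agent.Lib.Helper45
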