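import Mathlib
import Cfsg.Prelude.Def_LieChev
import Cfsg.Prelude.Def_LieTypes
import Cfsg.Prelude.Def_ChevB2
import Cfsg.Prelude.Def_ChevStructure

/-!
# Rung T5 for helper23's Steinberg presentation cluster: each fundamental root element is a factor of
a commutator formula not involving `±p`, compatibly with the reflection in `p`.
-/

set_option autoImplicit false
set_option maxRecDepth 1000000
set_option maxHeartbeats 0

namespace Cfsg.Agent.Lib.Helper45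

open Cfsg.Lie

/-- the statement of (T5) for one fundamental root -/
def A3 (D : ChevalleyDatum) (i : ℕ) : Prop :=
  ∃ (a b j : ℕ) (C C' : ℤ) (T1 T2 T1' T2' : List (ℕ × ℤ × ℕ × ℕ)),
    a < D.nroots ∧ b < D.nroots ∧ b ≠ a ∧ b ≠ D.neg a ∧ a ≠ D.simple i ∧ a ≠ D.neg (D.simple i) ∧
    b ≠ D.simple i ∧ b ≠ D.neg (D.simple i) ∧ (C = 1 ∨ C = -1) ∧
    D.commTerms a b = T1 ++ (D.simple i, C, 1, j) :: T2 ∧
    D.commTerms (D.reflectRoot i a) (D.reflectRoot i b) = T1' ++ (D.neg (D.simple i), C', 1, j) :: T2' ∧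
    T1'.map (fun c => (c.1, c.2.2)) = T1.map (fun c => (D.reflectRoot i c.1, c.2.2)) ∧
    T2'.map (fun c => (c.1, c.2.2)) = T2.map (fun c => (D.reflectRoot i c.1, c.2.2)) ∧
    (∀ c ∈ T1 ++ T2, D.IsPosRoot c.1 ∧ c.1 ≠ D.simple i) ∧ ((D.commTerms a b).map (·.1)).Nodup

theorem a3G2_0 : A3 chevG2 0 :=
  ⟨5, 8, 1, 1, -1, [], [(9, -1, 1, 2), (11, 1, 1, 3), (10, 2, 2, 3)], [], [(8, 1, 1, 2), (11, 1, 1, 3), (6, -2, 2, 3)], by decide +kernel⟩

theorem a3G2_1 : A3 chevG2 1 :=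
  ⟨1, 11, 1, -1, -1, [], [], [], [], by decide +kernel⟩

theorem a3G2 : ∀ i < chevG2.rank, A3 chevG2 i := by
  intro i hi
  have hi' : i < 2 := hi
  interval_cases i
  · exact a3G2_0
  · exact a3G2_1

theorem a3B2_0 : A3 chevB2 0 :=
  ⟨3, 6, 1, 1, -1, [], [(7, 1, 1, 2)], [], [(4, 1, 1, 2)], by decide +kernel⟩

theorem a3B2_1 : A3 chevB2 1 :=
  ⟨7, 2, 2, -1, 1, [(6, -1, 1, 1)], [], [(5, 1, 1, 1)], [], by decide +kernel⟩

theorem a3B2 : ∀ i < chevB2.rank, A3 chevB2 i := by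
  intro i hi
  have hi' : i < 2 := hi
  interval_cases i
  · exact a3B2_0
  · exact a3B2_1

theorem a3D4_0 : A3 chevD4 0 :=
  ⟨6, 22, 1, 1, 1, [], [], [], [], by decide +kernel⟩

theorem a3D4_1 : A3 chevD4 1 :=
  ⟨1, 23, 1, -1, -1, [], [], [], [], by decide +kernel⟩

theorem a3D4_2 : A3 chevD4 2 :=
  ⟨3, 22, 1, -1, -1, [], [], [], [], by decide +kernel⟩

theorem a3D4_3 : A3 chevD4 3 :=
  ⟨2, 22, 1, -1, -1, [], [], [], [], by decide +kernel⟩

theorem a3D4 : ∀ i < chevD4.rank, A3 chevD4 i := by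
  intro i hi
  have hi' : i < 4 := hi
  interval_cases i
  · exact a3D4_0
  · exact a3D4_1
  · exact a3D4_2
  · exact a3D4_3

theorem a3F4_0 : A3 chevF4 0 :=
  ⟨7, 44, 1, -1, -1, [], [], [], [], by decide +kernel⟩

theorem a3F4_1 : A3 chevF4 1 :=
  ⟨4, 44, 1, -1, -1, [], [(45, -1, 1, 2)], [], [(43, -1, 1, 2)], by decide +kernel⟩

theorem a3F4_2 : A3 chevF4 2 :=
  ⟨2, 46, 1, -1, -1, [], [], [], [], by decide +kernel⟩

theorem a3F4_3 : A3 chevF4 3 :=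
  ⟨1, 47, 1, -1, -1, [], [], [], [], by decide +kernel⟩

theorem a3F4 : ∀ i < chevF4.rank, A3 chevF4 i := by
  intro i hi
  have hi' : i < 4 := hi
  interval_cases i
  · exact a3F4_0
  · exact a3F4_1
  · exact a3F4_2
  · exact a3F4_3

theorem a3E6_0 : A3 chevE6 0 :=
  ⟨16, 66, 1, 1, 1, [], [], [], [], by decide +kernel⟩

theorem a3E6_1 : A3 chevE6 1 :=
  ⟨1, 71, 1, -1, -1, [], [], [], [], by decide +kernel⟩

theorem a3E6_2 : A3 chevE6 2 :=
  ⟨5, 69, 1, -1, -1, [], [], [], [], by decide +kernel⟩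

theorem a3E6_3 : A3 chevE6 3 :=
  ⟨2, 70, 1, -1, -1, [], [], [], [], by decide +kernel⟩

theorem a3E6_4 : A3 chevE6 4 :=
  ⟨3, 69, 1, -1, -1, [], [], [], [], by decide +kernel⟩

theorem a3E6_5 : A3 chevE6 5 :=
  ⟨4, 68, 1, -1, -1, [], [], [], [], by decide +kernel⟩

theorem a3E6 : ∀ i < chevE6.rank, A3 chevE6 i := by
  intro i hi
  have hi' : i < 6 := hi
  interval_cases i
  · exact a3E6_0
  · exact a3E6_1
  · exact a3E6_2
  · exact a3E6_3
  · exact a3E6_4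
  · exact a3E6_5

theorem a3E7_0 : A3 chevE7 0 :=
  ⟨1, 125, 1, -1, -1, [], [], [], [], by decide +kernel⟩

theorem a3E7_1 : A3 chevE7 1 :=
  ⟨7, 122, 1, -1, -1, [], [], [], [], by decide +kernel⟩

theorem a3E7_2 : A3 chevE7 2 :=
  ⟨2, 124, 1, -1, -1, [], [], [], [], by decide +kernel⟩

theorem a3E7_3 : A3 chevE7 3 :=
  ⟨3, 123, 1, -1, -1, [], [], [], [], by decide +kernel⟩

theorem a3E7_4 : A3 chevE7 4 :=
  ⟨4, 122, 1, -1, -1, [], [], [], [], by decide +kernel⟩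

theorem a3E7_5 : A3 chevE7 5 :=
  ⟨5, 121, 1, -1, -1, [], [], [], [], by decide +kernel⟩

theorem a3E7_6 : A3 chevE7 6 :=
  ⟨6, 120, 1, -1, -1, [], [], [], [], by decide +kernel⟩

theorem a3E7 : ∀ i < chevE7.rank, A3 chevE7 i := by
  intro i hi
  have hi' : i < 7 := hi
  interval_cases i
  · exact a3E7_0
  · exact a3E7_1
  · exact a3E7_2
  · exact a3E7_3
  · exact a3E7_4
  · exact a3E7_5
  · exact a3E7_6

theorem a3E8_0 : A3 chevE8 0 :=
  ⟨14, 233, 1, -1, -1, [], [], [], [], by decide +kernel⟩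

theorem a3E8_1 : A3 chevE8 1 :=
  ⟨7, 234, 1, -1, -1, [], [], [], [], by decide +kernel⟩

theorem a3E8_2 : A3 chevE8 2 :=
  ⟨6, 234, 1, -1, -1, [], [], [], [], by decide +kernel⟩

theorem a3E8_3 : A3 chevE8 3 :=
  ⟨5, 235, 1, -1, -1, [], [], [], [], by decide +kernel⟩

theorem a3E8_4 : A3 chevE8 4 :=
  ⟨4, 236, 1, -1, -1, [], [], [], [], by decide +kernel⟩

theorem a3E8_5 : A3 chevE8 5 :=
  ⟨3, 237, 1, -1, -1, [], [], [], [], by decide +kernel⟩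

theorem a3E8_6 : A3 chevE8 6 :=
  ⟨2, 238, 1, -1, -1, [], [], [], [], by decide +kernel⟩

theorem a3E8_7 : A3 chevE8 7 :=
  ⟨1, 239, 1, -1, -1, [], [], [], [], by decide +kernel⟩

theorem a3E8 : ∀ i < chevE8.rank, A3 chevE8 i := by
  intro i hi
  have hi' : i < 8 := hi
  interval_cases i
  · exact a3E8_0
  · exact a3E8_1
  · exact a3E8_2
  · exact a3E8_3
  · exact a3E8_4
  · exact a3E8_5
  · exact a3E8_6
  · exact a3E8_7

/-- (T5) -/
theorem exists_a3 {D : ChevalleyDatum}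
    (hD : D ∈ [chevG2, chevB2, chevD4, chevF4, chevE6, chevE7, chevE8]) :
    ∀ i < D.rank, ∃ (a b j : ℕ) (C C' : ℤ) (T1 T2 T1' T2' : List (ℕ × ℤ × ℕ × ℕ)),
      a < D.nroots ∧ b < D.nroots ∧ b ≠ a ∧ b ≠ D.neg a ∧ a ≠ D.simple i ∧ a ≠ D.neg (D.simple i) ∧
      b ≠ D.simple i ∧ b ≠ D.neg (D.simple i) ∧ (C = 1 ∨ C = -1) ∧
      D.commTerms a b = T1 ++ (D.simple i, C, 1, j) :: T2 ∧
      D.commTerms (D.reflectRoot i a) (D.reflectRoot i b) =
        T1' ++ (D.neg (D.simple i), C', 1, j) :: T2' ∧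
      T1'.map (fun c => (c.1, c.2.2)) = T1.map (fun c => (D.reflectRoot i c.1, c.2.2)) ∧
      T2'.map (fun c => (c.1, c.2.2)) = T2.map (fun c => (D.reflectRoot i c.1, c.2.2)) ∧
      (∀ c ∈ T1 ++ T2, D.IsPosRoot c.1 ∧ c.1 ≠ D.simple i) ∧
      ((D.commTerms a b).map (·.1)).Nodup := by
  simp only [List.mem_cons, List.not_mem_nil, or_false] at hD
  rcases hD with rfl | rfl | rfl | rfl | rfl | rfl | rfl
  · exact a3G2
  · exact a3B2
  · exact a3D4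
  · exact a3F4
  · exact a3E6
  · exact a3E7
  · exact a3E8

end Cfsg.Agent.Lib.Helper45
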