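import Cfsg.Agent.Lib.Helper22.UAll
import Cfsg.Agent.Lib.Helper23.ChevAll
import Cfsg.Prelude.Def_ChevAutomorphisms

/-!
# Table facts on the pairing of roots (rungs U1, U2 for helper23)
-/

set_option autoImplicit false
set_option maxRecDepth 1000000
set_option maxHeartbeats 0

namespace Cfsg.Agent.Lib.Helper45

open Cfsg.Lie Cfsg.Agent.Lib.Helper22 Cfsg.Agent.Lib.Helper23

/-- the pairing `⟨s, r^∨⟩` from the number-coded tables -/
noncomputable def prF (T : Tb) (r s : ℕ) : ℤ :=
  Nat.rec 0 (fun i ih => ih + dc (coLook T.l T.CO r i) * -dc (caLook T.n T.CA i s)) T.l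

theorem sum_range_rec (f : ℕ → ℤ) (n : ℕ) :
    ((List.range n).map f).sum = Nat.rec 0 (fun i ih => ih + f i) n := by
  induction n with
  | zero => rfl
  | succ n ih => rw [List.range_succ, List.map_append, List.sum_append, ih]; simp

theorem pairing_eq_prF {T : Tb} {D : ChevalleyDatum} (V : T.Valid D) {r s : ℕ} (hr : r < T.n)
    (hs : s < T.n) : D.pairing r s = prF T r s := by
  unfold ChevalleyDatum.pairing prF
  rw [← sum_range_rec, ← V.hl]
  congr 1
  apply List.map_congr_left
  intro i hi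
  rw [V.co_eq (List.mem_range.1 hi) hr, V.cartan_eq (List.mem_range.1 hi) hs]

theorem sum_lin (l : List ℕ) (x y : ℤ) (f g c : ℕ → ℤ) :
    (l.map fun i => (x * f i + y * g i) * c i).sum =
      x * (l.map fun i => f i * c i).sum + y * (l.map fun i => g i * c i).sum := by
  induction l with
  | nil => simp
  | cons a l ih => simp only [List.map_cons, List.sum_cons, ih]; ring

noncomputable def abChk (A B : ℤ) : Bool :=
  decide (A = 0 ∨ (A = 2 ∧ B = 1) ∨ (A = -2 ∧ B = -1) ∨
    ((A = 1 ∨ A = -1 ∨ A = 3 ∨ A = -3) ∧ (A * B = 1 ∨ A * B = 2 ∨ A * B = 3)))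

noncomputable def sepChk (T : Tb) (a : ℕ) : Bool :=
  Bool.rec false (allBelow T.n fun b => Bool.rec (Bool.rec (abChk (prF T b a) (prF T a b)) true
    (Nat.beq (Nat.add a b) (Nat.sub T.n 1))) true (Nat.beq b a)) (decide (prF T a a = 2))

noncomputable def anyBelow (N : ℕ) (f : ℕ → Bool) : Bool :=
  Nat.rec false (fun k ih => Bool.rec ih true (f k)) N

theorem anyBelow_iff {N : ℕ} {f : ℕ → Bool} : anyBelow N f = true ↔ ∃ k < N, f k = true := by
  induction N with
  | zero => simp [anyBelow]
  | succ N ih =>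
    have : anyBelow (N + 1) f = Bool.rec (anyBelow N f) true (f N) := rfl
    rw [this, brec_or, ih]
    constructor
    · rintro (h | ⟨k, hk, h⟩)
      · exact ⟨N, Nat.lt_succ_self N, h⟩
      · exact ⟨k, Nat.lt_succ_of_lt hk, h⟩
    · rintro ⟨k, hk, h⟩
      rcases Nat.lt_succ_iff_lt_or_eq.1 hk with h' | rfl
      · exact Or.inr ⟨k, h', h⟩
      · exact Or.inl h

noncomputable def primChk (T : Tb) (a : ℕ) : Bool := anyBelow T.n fun b => decide (prF T b a = 1)

theorem sep_of_chk {T : Tb} {D : ChevalleyDatum} (V : T.Valid D)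
    (hc : allBelow T.n (sepChk T) = true) {a b : ℕ} (ha : a < D.nroots) (hb : b < D.nroots)
    (h1 : b ≠ a) (h2 : b ≠ D.neg a) :
    ∃ m : ℕ → ℤ, ((List.range D.rank).map fun i => m i * D.cartan i a).sum = 0 ∧
      (((List.range D.rank).map fun i => m i * D.cartan i b).sum = 1 ∨
        ((List.range D.rank).map fun i => m i * D.cartan i b).sum = 2 ∨
        ((List.range D.rank).map fun i => m i * D.cartan i b).sum = 3) := by
  rw [← V.hn] at ha hb
  rw [V.neg_eq' ha] at h2
  have key : ∀ r < T.n, prF T r r = 2 ∧ ∀ s < T.n, s ≠ r → r + s ≠ T.n - 1 →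
      abChk (prF T s r) (prF T r s) = true := by
    intro r hr
    have h := allBelow_iff.1 hc r hr
    unfold sepChk at h
    rw [brec_and, allBelow_iff] at h
    refine ⟨of_decide_eq_true h.1, fun s hs e1 e2 => ?_⟩
    have h3 := h.2 s hs
    rw [brec_or, brec_or] at h3
    rcases h3 with h3 | h3 | h3
    · exact absurd (Nat.eq_of_beq_eq_true h3) e1
    · exact absurd (Nat.eq_of_beq_eq_true h3) e2
    · exact h3
  have hA := (key a ha).2 b hb h1 (by omega)
  have haa := (key a ha).1
  have hbb := (key b hb).1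
  rw [← pairing_eq_prF V hb ha, ← pairing_eq_prF V ha hb] at hA
  rw [← pairing_eq_prF V ha ha] at haa
  rw [← pairing_eq_prF V hb hb] at hbb
  unfold abChk at hA
  have hA' := of_decide_eq_true hA
  have hw : ∀ x y : ℤ, ∀ s, ((List.range D.rank).map fun i =>
      (x * (D.coroot.getD b #[]).getD i 0 + y * (D.coroot.getD a #[]).getD i 0) *
        D.cartan i s).sum = x * D.pairing b s + y * D.pairing a s := fun x y s => sum_lin _ _ _ _ _ _
  rcases hA' with h | ⟨h, h'⟩ | ⟨h, h'⟩ | ⟨h, h'⟩
  · refine ⟨_, (hw 1 0 a).trans ?_, Or.inr (Or.inl ((hw 1 0 b).trans ?_))⟩ <;> omega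
  · refine ⟨_, (hw 1 (-1) a).trans ?_, Or.inl ((hw 1 (-1) b).trans ?_)⟩ <;> omega
  · refine ⟨_, (hw 1 1 a).trans ?_, Or.inl ((hw 1 1 b).trans ?_)⟩ <;> omega
  · have e1 : (2 : ℤ) * D.pairing b a + -D.pairing b a * D.pairing a a = 0 := by rw [haa]; ring
    have e2 : (2 : ℤ) * D.pairing b b + -D.pairing b a * D.pairing a b =
        4 - D.pairing b a * D.pairing a b := by rw [hbb]; ring
    refine ⟨_, (hw 2 (-D.pairing b a) a).trans e1, ?_⟩
    rw [hw 2 (-D.pairing b a) b, e2]
    rcases h' with h' | h' | h' <;> rw [h'] <;> simp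

theorem prim_of_chk {T : Tb} {D : ChevalleyDatum} (V : T.Valid D)
    (hc : allBelow T.n (primChk T) = true) {a : ℕ} (ha : a < D.nroots) :
    ∃ m : ℕ → ℤ, ((List.range D.rank).map fun i => m i * D.cartan i a).sum = 1 := by
  rw [← V.hn] at ha
  have h := allBelow_iff.1 hc a ha
  unfold primChk at h
  obtain ⟨b, hb, h1⟩ := anyBelow_iff.1 h
  have h2 := of_decide_eq_true h1
  rw [← pairing_eq_prF V hb ha] at h2
  exact ⟨fun i => (D.coroot.getD b #[]).getD i 0, h2⟩

theorem sepG2 : allBelow tbG2.n (sepChk tbG2) = true := by decide +kernel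
theorem sepB2 : allBelow tbB2.n (sepChk tbB2) = true := by decide +kernel
theorem sepD4 : allBelow tbD4.n (sepChk tbD4) = true := by decide +kernel
theorem sepF4 : allBelow tbF4.n (sepChk tbF4) = true := by decide +kernel
theorem sepE6 : allBelow tbE6.n (sepChk tbE6) = true := by decide +kernel
theorem sepE7 : allBelow tbE7.n (sepChk tbE7) = true := by decide +kernel
theorem sepE8 : allBelow tbE8.n (sepChk tbE8) = true := by decide +kernel

theorem primG2 : allBelow tbG2.n (primChk tbG2) = true := by decide +kernel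
theorem primD4 : allBelow tbD4.n (primChk tbD4) = true := by decide +kernel
theorem primF4 : allBelow tbF4.n (primChk tbF4) = true := by decide +kernel
theorem primE6 : allBelow tbE6.n (primChk tbE6) = true := by decide +kernel
theorem primE7 : allBelow tbE7.n (primChk tbE7) = true := by decide +kernel
theorem primE8 : allBelow tbE8.n (primChk tbE8) = true := by decide +kernel

/-- (U1) -/
theorem exists_sep {D : ChevalleyDatum}
    (hD : D ∈ [chevG2, chevB2, chevD4, chevF4, chevE6, chevE7, chevE8]) {a b : ℕ}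
    (ha : a < D.nroots) (hb : b < D.nroots) (h1 : b ≠ a) (h2 : b ≠ D.neg a) :
    ∃ m : ℕ → ℤ, ((List.range D.rank).map fun i => m i * D.cartan i a).sum = 0 ∧
      (((List.range D.rank).map fun i => m i * D.cartan i b).sum = 1 ∨
        ((List.range D.rank).map fun i => m i * D.cartan i b).sum = 2 ∨
        ((List.range D.rank).map fun i => m i * D.cartan i b).sum = 3) := by
  simp only [List.mem_cons, List.not_mem_nil, or_false] at hD
  rcases hD with rfl | rfl | rfl | rfl | rfl | rfl | rfl
  · exact sep_of_chk tbG2_valid sepG2 ha hb h1 h2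
  · exact sep_of_chk tbB2_valid sepB2 ha hb h1 h2
  · exact sep_of_chk tbD4_valid sepD4 ha hb h1 h2
  · exact sep_of_chk tbF4_valid sepF4 ha hb h1 h2
  · exact sep_of_chk tbE6_valid sepE6 ha hb h1 h2
  · exact sep_of_chk tbE7_valid sepE7 ha hb h1 h2
  · exact sep_of_chk tbE8_valid sepE8 ha hb h1 h2

/-- (U2) -/
theorem exists_prim {D : ChevalleyDatum}
    (hD : D ∈ [chevG2, chevD4, chevF4, chevE6, chevE7, chevE8]) {a : ℕ} (ha : a < D.nroots) :
    ∃ m : ℕ → ℤ, ((List.range D.rank).map fun i => m i * D.cartan i a).sum = 1 := by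
  simp only [List.mem_cons, List.not_mem_nil, or_false] at hD
  rcases hD with rfl | rfl | rfl | rfl | rfl | rfl
  · exact prim_of_chk tbG2_valid primG2 ha
  · exact prim_of_chk tbD4_valid primD4 ha
  · exact prim_of_chk tbF4_valid primF4 ha
  · exact prim_of_chk tbE6_valid primE6 ha
  · exact prim_of_chk tbE7_valid primE7 ha
  · exact prim_of_chk tbE8_valid primE8 ha

end Cfsg.Agent.Lib.Helper45
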