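import Cfsg.Agent.Lib.Helper45.StTab

/-!
# Weyl-equivariance of the roots of `D.commTerms` (rung U3 for helper23)
-/

set_option autoImplicit false
set_option maxRecDepth 1000000
set_option maxHeartbeats 0

namespace Cfsg.Agent.Lib.Helper45

open Cfsg.Lie Cfsg.Agent.Lib.Helper22 Cfsg.Agent.Lib.Helper23

/-- row check: the roots occurring in `commTerms a b` are permuted by the fundamental
reflections -/
noncomputable def eqvChk (ct : ℕ → ℕ → List (ℕ × ℤ × ℕ × ℕ)) (n l NT a : ℕ) : Bool :=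
  allBelow n fun b => (ct a b).all fun c =>
    Bool.rec false (allBelow l fun i =>
      (ct (nTgt n NT i a) (nTgt n NT i b)).any fun c' => Nat.beq c'.1 (nTgt n NT i c.1))
      (Nat.blt c.1 n)

theorem eqvChk_iff {ct : ℕ → ℕ → List (ℕ × ℤ × ℕ × ℕ)} {n l NT a : ℕ} :
    eqvChk ct n l NT a = true ↔ ∀ b < n, ∀ c ∈ ct a b, c.1 < n ∧ ∀ i < l,
      ∃ c' ∈ ct (nTgt n NT i a) (nTgt n NT i b), c'.1 = nTgt n NT i c.1 := by
  unfold eqvChk
  rw [allBelow_iff]
  simp only [List.all_eq_true, brec_and, allBelow_iff, List.any_eq_true, Nat.beq_eq, Nat.blt_eq]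

/-- the roots of the commutator formula are permuted by the fundamental reflections -/
structure EqvFacts (D : ChevalleyDatum) : Prop where
  lt : ∀ a < D.nroots, ∀ b < D.nroots, ∀ c ∈ D.commTerms a b, c.1 < D.nroots
  eqv : ∀ i < D.rank, ∀ a < D.nroots, ∀ b < D.nroots, ∀ c ∈ D.commTerms a b,
    ∃ c' ∈ D.commTerms (D.reflectRoot i a) (D.reflectRoot i b), c'.1 = D.reflectRoot i c.1

theorem eqvFacts_of_chk {T : Tb} {NT SI : ℕ} {ct : ℕ → ℕ → List (ℕ × ℤ × ℕ × ℕ)}
    {D : ChevalleyDatum} (V : T.Valid D) (Fa : NFacts T NT SI D) (hsz : D.chain.size = T.n)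
    (hct : ∀ r s, ct r s = commTermsOf (ceF T) r s)
    (hc : allBelow T.n (eqvChk ct T.n T.l NT) = true) : EqvFacts D := by
  have hcT : ∀ r s, D.commTerms r s = ct r s := by
    intro r s
    rw [commTerms_eq, chainEntry_eq_ceF V hsz, ← hct]
  have key := fun a ha => eqvChk_iff.1 (allBelow_iff.1 hc a ha)
  refine ⟨?_, ?_⟩
  · intro a ha b hb c hc'
    rw [← V.hn] at ha hb ⊢
    rw [hcT] at hc'
    exact (key a ha b hb c hc').1
  · intro i hi a ha b hb c hc'
    rw [← V.hn] at ha hb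
    rw [← V.hl] at hi
    rw [hcT] at hc'
    obtain ⟨h1, h2⟩ := key a ha b hb c hc'
    rw [Fa.refl i hi a ha, Fa.refl i hi b hb, Fa.refl i hi c.1 h1, hcT]
    exact h2 i hi

theorem EqvFacts.wact {D : ChevalleyDatum} (hE : EqvFacts D) (hR : RootFacts D) {l : List ℕ}
    (hl : ∀ i ∈ l, i < D.rank) {a b : ℕ} (ha : a < D.nroots) (hb : b < D.nroots) :
    ∀ c ∈ D.commTerms a b,
      ∃ c' ∈ D.commTerms (Helper23.wact D l a) (Helper23.wact D l b),
        c'.1 = Helper23.wact D l c.1 := by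
  induction l with
  | nil => intro c hc; exact ⟨c, hc, rfl⟩
  | cons i l ih =>
    intro c hc
    have hl' : ∀ j ∈ l, j < D.rank := fun j hj => hl j (by simp [hj])
    obtain ⟨c', hc', e⟩ := ih hl' c hc
    obtain ⟨c'', hc'', e'⟩ := hE.eqv i (hl i (by simp)) _ (hR.wact_lt hl' ha) _
      (hR.wact_lt hl' hb) c' hc'
    exact ⟨c'', hc'', by rw [e', e]; rfl⟩

theorem eqvG2 : allBelow tbG2.n (eqvChk (commTermsOf (ceF tbG2)) tbG2.n tbG2.l ntG2) = true := by
  decide +kernel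
theorem eqvB2 : allBelow tbB2.n (eqvChk (commTermsOf (ceF tbB2)) tbB2.n tbB2.l ntB2) = true := by
  decide +kernel
theorem eqvD4 : allBelow tbD4.n (eqvChk (ct1 tbD4) tbD4.n tbD4.l ntD4) = true := by
  decide +kernel
theorem eqvF4 : allBelow tbF4.n (eqvChk (commTermsOf (ceF tbF4)) tbF4.n tbF4.l ntF4) = true := by
  decide +kernel
theorem eqvE6 : allBelow tbE6.n (eqvChk (ct1 tbE6) tbE6.n tbE6.l ntE6) = true := by
  decide +kernel
theorem eqvE7 : allBelow tbE7.n (eqvChk (ct1 tbE7) tbE7.n tbE7.l ntE7) = true := by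
  decide +kernel
theorem eqvE8 : allBelow tbE8.n (eqvChk (ct1 tbE8) tbE8.n tbE8.l ntE8) = true := by
  decide +kernel

theorem eqvFacts_of_mem {D : ChevalleyDatum}
    (hD : D ∈ [chevG2, chevB2, chevD4, chevF4, chevE6, chevE7, chevE8]) : EqvFacts D := by
  simp only [List.mem_cons, List.not_mem_nil, or_false] at hD
  rcases hD with rfl | rfl | rfl | rfl | rfl | rfl | rfl
  · exact eqvFacts_of_chk tbG2_valid ntG2_facts hszG2 (fun _ _ => rfl) eqvG2
  · exact eqvFacts_of_chk tbB2_valid ntB2_facts hszB2 (fun _ _ => rfl) eqvB2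
  · exact eqvFacts_of_chk tbD4_valid ntD4_facts hszD4 (ct1_eq tbD4 rfl) eqvD4
  · exact eqvFacts_of_chk tbF4_valid ntF4_facts hszF4 (fun _ _ => rfl) eqvF4
  · exact eqvFacts_of_chk tbE6_valid ntE6_facts hszE6 (ct1_eq tbE6 rfl) eqvE6
  · exact eqvFacts_of_chk tbE7_valid ntE7_facts hszE7 (ct1_eq tbE7 rfl) eqvE7
  · exact eqvFacts_of_chk tbE8_valid ntE8_facts hszE8 (ct1_eq tbE8 rfl) eqvE8

/-- the roots of `commTerms a b` are carried by `w` to roots of `commTerms (w a) (w b)` -/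
theorem terms_wact {D : ChevalleyDatum}
    (hD : D ∈ [chevG2, chevB2, chevD4, chevF4, chevE6, chevE7, chevE8]) {l : List ℕ}
    (hl : ∀ i ∈ l, i < D.rank) {a b : ℕ} (ha : a < D.nroots) (hb : b < D.nroots) :
    ∀ c ∈ D.commTerms a b,
      ∃ c' ∈ D.commTerms (Helper23.wact D l a) (Helper23.wact D l b),
        c'.1 = Helper23.wact D l c.1 :=
  (eqvFacts_of_mem hD).wact (rootFacts_of_mem hD) hl ha hb

/-- the roots of `commTerms a b` are roots -/
theorem terms_lt {D : ChevalleyDatum}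
    (hD : D ∈ [chevG2, chevB2, chevD4, chevF4, chevE6, chevE7, chevE8]) {a b : ℕ}
    (ha : a < D.nroots) (hb : b < D.nroots) : ∀ c ∈ D.commTerms a b, c.1 < D.nroots :=
  (eqvFacts_of_mem hD).lt a ha b hb

/-- (U3) -/
theorem terms_pos {D : ChevalleyDatum}
    (hD : D ∈ [chevG2, chevB2, chevD4, chevF4, chevE6, chevE7, chevE8]) {l : List ℕ}
    (hl : ∀ i ∈ l, i < D.rank) {a b : ℕ} (ha : a < D.nroots) (hb : b < D.nroots)
    (h1 : b ≠ a) (_h2 : b ≠ D.neg a) (hpa : D.IsPosRoot (Helper23.wact D l a))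
    (hpb : D.IsPosRoot (Helper23.wact D l b)) :
    ∀ c ∈ D.commTerms a b, D.IsPosRoot (Helper23.wact D l c.1) := by
  intro c hc
  have hR := rootFacts_of_mem hD
  obtain ⟨c', hc', e⟩ := terms_wact hD hl ha hb c hc
  have hne : Helper23.wact D l a ≠ Helper23.wact D l b := by
    intro h
    apply h1
    rw [← hR.wact_reverse hl hb, ← h, hR.wact_reverse hl ha]
  rw [← e]
  exact (commTerms_pos hD _ _ hpa hpb hne c' hc').1

end Cfsg.Agent.Lib.Helper45
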