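import Cfsg.Agent.Lib.Helper23.ChevN
import Cfsg.Agent.Lib.Helper23.AddOf
import Cfsg.Agent.Lib.Helper23.AllRoot
import Cfsg.Agent.S1031
import Cfsg.Agent.S1025

set_option autoImplicit false

namespace Cfsg.Agent.Lib.Helper45

open Cfsg.Lie Cfsg.Agent.Lib.Helper23

section gen
variable {D : ChevalleyDatum} {F : Type*} [Field F] (hA : AddFact D F) (hR : RootFacts D)
  (H : Subgroup (GL D.Idx F))

/-- the root subgroup `X_s` lies in `H` -/
def InS (s : ℕ) : Prop := ∀ t : F, hA.X s t ∈ H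

variable (hC : ∀ i < D.rank, ∀ s < D.nroots, ∃ η : ℤ, (η = 1 ∨ η = -1) ∧ ∀ t : F,
    D.nMat F (D.simple i) 1 * D.x F s t =
      D.x F (D.reflectRoot i s) ((η : F) * t) * D.nMat F (D.simple i) 1)
  (hH : D.monomialSubgroup F ≤ H)

include hR hC hH

theorem inS_refl {i s : ℕ} (hi : i < D.rank) (hs : s < D.nroots) (h : InS hA H s) :
    InS hA H (D.reflectRoot i s) := by
  intro t
  obtain ⟨η, hη, hc⟩ := hC i hi s hs
  have hn : hA.nG (D.simple i) 1 ∈ H := hH (hA.nG_one_mem_mono (hR.simple_lt hi))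
  have key : hA.X (D.reflectRoot i s) t =
      hA.nG (D.simple i) 1 * hA.X s ((η : F) * t) * (hA.nG (D.simple i) 1)⁻¹ := by
    rw [eq_mul_inv_iff_mul_eq]
    apply Units.ext
    simp only [Units.val_mul, AddFact.coe_X, AddFact.coe_nG]
    rw [hc]
    congr 2
    rcases hη with rfl | rfl <;> simp
  rw [key]
  exact mul_mem (mul_mem hn (h _)) (inv_mem hn)

theorem inS_wact {w : List ℕ} (hw : ∀ i ∈ w, i < D.rank) {s : ℕ} (hs : s < D.nroots)
    (h : InS hA H s) : InS hA H (wact D w s) := by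
  induction w with
  | nil => exact h
  | cons i w ih =>
    have hw' : ∀ j ∈ w, j < D.rank := fun j hj => hw j (by simp [hj])
    rw [wact_cons]
    exact inS_refl hA hR H hC hH (hw i (by simp)) (hR.wact_lt hw' hs) (ih hw')

theorem group_le_of_simple (h : ∀ j < D.rank, InS hA H (D.simple j)) : D.group F ≤ H := by
  rw [hA.group_eq, Subgroup.closure_le]
  rintro g ⟨r, t, hr, rfl⟩
  obtain ⟨w, j, hw, hj, rfl⟩ := hR.exists_word r hr
  exact inS_wact hA hR H hC hH hw (hR.simple_lt hj) (h j hj) t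

omit hR hC hH in
theorem inS_of_rootSubgroup {s : ℕ} (h : D.rootSubgroup F s ≤ H) : InS hA H s :=
  fun t => h (hA.X_mem_rootSubgroup s t)

omit hR hC hH in
/-- one-term commutator formula with an invertible constant -/
theorem inS_of_comm {r s k : ℕ} {c : ℤ} (hc : (c : F) ≠ 0) (hr : InS hA H r) (hs : InS hA H s)
    (hT : D.commTerms r s = [(k, c, 1, 1)])
    (hcomm : ∀ t u : F, D.x F s u * D.x F r t = D.x F r t * D.x F s u * D.wordMat F (D.commWord F r s t u)) :
    InS hA H k := by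
  intro v
  have h1 := hcomm (-1) (v / c)
  have h2 : D.commWord F r s (-1) (v / c) = [(k, v)] := by
    simp only [ChevalleyDatum.commWord, hT, List.map_cons, List.map_nil]
    congr 2
    field_simp
    
  rw [h2] at h1
  have h3 : hA.X k v = (hA.X r (-1) * hA.X s (v / c))⁻¹ * (hA.X s (v / c) * hA.X r (-1)) := by
    rw [eq_inv_mul_iff_mul_eq]
    apply Units.ext
    simp only [Units.val_mul, AddFact.coe_X]
    rw [h1, wordMat_def]
    simp
  rw [h3]
  exact mul_mem (inv_mem (mul_mem (hr _) (hs _))) (mul_mem (hs _) (hr _))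

end gen

end Cfsg.Agent.Lib.Helper45
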