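import Mathlib
import Cfsg.Agent.Lib.Helper45.ReflMain

/-! Certificates for the Coxeter group of type B2 (generated tables, checked by the kernel). -/

set_option autoImplicit false

namespace Cfsg.Agent.Lib.Helper45

open LData

/-- Cartan data of type B2 -/
def B2X : LData 2 where
  AT := [[2,-2],
  [-1,2]]
  dl := [1,2]
  diag := by decide
  dpos := by decide
  symm := by decide
  len := by decide

/-- positive roots of type B2 (packed) -/
def B2P : List ℕ := [8384, 8257, 8385, 8386]

set_option maxRecDepth 100000 in
theorem B2_rs : B2X.RSCheckC B2P := by decide +kernel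

set_option maxRecDepth 100000 in
theorem B2_m : B2X.MCheck (CoxeterMatrix.B 2) := by decide +kernel

set_option maxRecDepth 100000 in
theorem B2_cox : B2X.CoxCheck 4 := by decide +kernel

theorem B2_conn : B2X.ConnCheck ![0,0] 0 := by decide +kernel

set_option maxRecDepth 100000 in
theorem B2_neg : B2X.NegCheck 2 := by decide +kernel

end Cfsg.Agent.Lib.Helper45
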