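import Mathlib
import Cfsg.Agent.Lib.Helper45.ReflMain
import Cfsg.Agent.Lib.Helper45.CoxB2

/-! Certificates for the Coxeter group of type B2 (order) (generated tables, checked by the kernel). -/

set_option autoImplicit false

namespace Cfsg.Agent.Lib.Helper45

open LData

/-- orbit number 0 in the chain of type B2 (packed) -/
def B2O0 : List ℕ := [8126, 8128, 8384, 8386]

/-- orbit number 1 in the chain of type B2 (packed) -/
def B2O1 : List ℕ := [8257, 8385]

/-- orbit-stabiliser chain of type B2 -/
def B2chain : List (List ℤ × List ℤ × List ℕ) := [(([1,5] : List ℤ), ([2,1] : List ℤ), B2O0),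
 (([1,3] : List ℤ), ([1,1] : List ℤ), B2O1)]

set_option maxRecDepth 100000 in
theorem B2_chain : B2X.ChainCheckC (List.finRange 2) B2chain := by decide +kernel

theorem B2_card : Nat.card ((CoxeterMatrix.B 2)).Group = 8 := by
  rw [B2X.card_group B2_rs B2_m B2_chain]
  decide +kernel

end Cfsg.Agent.Lib.Helper45
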