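import Mathlib
import Cfsg.Agent.Lib.Helper45.ReflLenComp
import Cfsg.Agent.Lib.Helper45.CoxB2Card

/-! Poincaré series of the Coxeter group of type B2 (generated certificates). -/

set_option autoImplicit false

namespace Cfsg.Agent.Lib.Helper45

open LData
open Cfsg.Agent.Lib.Helper8 (wp ExCond)

/-- levels of orbit number 0 of type B2 -/
def B2L0 : List (List ℕ) := [[8384],
  [8128],
  [8126]]

/-- levels of orbit number 1 of type B2 -/
def B2L1 : List (List ℕ) := [[8257]]

/-- all levels of type B2 -/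
def B2levels : List (List (List ℕ)) := [B2L0, B2L1]

set_option maxRecDepth 100000 in
theorem B2_levels : B2X.PChainCheck (List.finRange 2) B2chain B2levels := by decide +kernel

theorem B2_sizes : B2levels.map (fun Lv => Lv.map List.length) = [[1, 1, 1], [1]] := by decide +kernel

theorem B2_poly (q : ℤ) : (q - 1) ^ 2 * ((1 + 1 * q ^ 1 + 1 * q ^ 2 + 1 * q ^ 3) * (1 + 1 * q ^ 1)) = (q ^ 2 - 1) * (q ^ 4 - 1) := by ring

/-- Poincaré series of type B2: `(q-1)^l ∑_w q^l(w) = ∏ (q^d_i - 1)`. -/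
theorem B2_gwt {W : Type*} [Group W] (f : Fin 2 → W) (hinv : ∀ i, f i * f i = 1)
    (hgen : ∀ w, ∃ L, wp f L = w) (hex : ExCond f)
    (hM : ∀ i j, orderOf (f i * f j) = (CoxeterMatrix.B 2) i j) (q : ℕ) (hq : 1 ≤ q) :
    (q - 1) ^ 2 * gwt f q = (q ^ 2 - 1) * (q ^ 4 - 1) := by
  rw [B2X.gwt_eq B2_rs B2_m B2_chain B2_levels rfl f hinv hgen hex hM q]
  have h1 : (B2levels.map fun Lv => 1 + szSum q 1 (Lv.map List.length)) =
      ((B2levels.map (fun Lv => Lv.map List.length)).map fun s => 1 + szSum q 1 s) := by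
    rw [List.map_map]; rfl
  rw [h1, B2_sizes]
  simp only [List.map_cons, List.map_nil, List.prod_cons, List.prod_nil, szSum, mul_one, add_zero,
    Nat.reduceAdd]
  have hp : ∀ k : ℕ, 1 ≤ q ^ k := fun k => Nat.one_le_pow _ _ hq
  zify [hq, hp]
  have := B2_poly (q : ℤ)
  linear_combination this

end Cfsg.Agent.Lib.Helper45
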