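import Mathlib
import Cfsg.Agent.Lib.Helper45.ReflMain
import Cfsg.Prelude.Def_ChevStructure

/-! Certificates for the Coxeter group of type D4 (generated tables, checked by the kernel). -/

set_option autoImplicit false

namespace Cfsg.Agent.Lib.Helper45

open LData

/-- Cartan data of type D4 -/
def D4X : LData 4 where
  AT := [[2,-1,0,0],
  [-1,2,-1,-1],
  [0,-1,2,0],
  [0,-1,0,2]]
  dl := [1,1,1,1]
  diag := by decide
  dpos := by decide
  symm := by decide
  len := by decide

/-- positive roots of type D4 (packed) -/
def D4P : List ℕ := [137371712, 135290944, 135274688, 135274561, 137371840,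
  135291072, 135274689, 137388224, 137371841, 135291073,
  137388225, 137388353]

set_option maxRecDepth 100000 in
theorem D4_rs : D4X.RSCheckC D4P := by decide +kernel

set_option maxRecDepth 100000 in
theorem D4_m : D4X.MCheck Cfsg.Lie.coxeterD4 := by decide +kernel

set_option maxRecDepth 100000 in
theorem D4_cox : D4X.CoxCheck 6 := by decide +kernel

theorem D4_conn : D4X.ConnCheck ![0,0,1,1] 0 := by decide +kernel

set_option maxRecDepth 100000 in
theorem D4_neg : D4X.NegCheck 3 := by decide +kernel

end Cfsg.Agent.Lib.Helper45
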