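import Mathlib
import Cfsg.Agent.Lib.Helper45.ReflMain
import Cfsg.Agent.Lib.Helper45.CoxD4

/-! Certificates for the Coxeter group of type D4 (order) (generated tables, checked by the kernel). -/

set_option autoImplicit false

namespace Cfsg.Agent.Lib.Helper45

open LData

/-- orbit number 0 in the chain of type D4 (packed) -/
def D4O0 : List ℕ := [133160766, 133160768, 133161024, 133193792, 137355328,
  137388096, 137388352, 137388354]

/-- orbit number 1 in the chain of type D4 (packed) -/
def D4O1 : List ℕ := [133177409, 137371713, 137371969, 137404737]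

/-- orbit number 2 in the chain of type D4 (packed) -/
def D4O2 : List ℕ := [135291073, 137388225, 137388353]

/-- orbit number 3 in the chain of type D4 (packed) -/
def D4O3 : List ℕ := [135291201, 139485505]

/-- orbit-stabiliser chain of type D4 -/
def D4chain : List (List ℤ × List ℤ × List ℕ) := [(([1,5,25,125] : List ℤ), ([2,2,1,1] : List ℤ), D4O0),
 (([1,5,25,125] : List ℤ), ([1,2,2,1] : List ℤ), D4O1),
 (([1,5,25,125] : List ℤ), ([1,2,1,1] : List ℤ), D4O2),
 (([1,5,25,125] : List ℤ), ([1,2,1,2] : List ℤ), D4O3)]

set_option maxRecDepth 100000 in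
theorem D4_chain : D4X.ChainCheckC (List.finRange 4) D4chain := by decide +kernel

theorem D4_card : Nat.card (Cfsg.Lie.coxeterD4).Group = 192 := by
  rw [D4X.card_group D4_rs D4_m D4_chain]
  decide +kernel

end Cfsg.Agent.Lib.Helper45
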