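import Mathlib
import Cfsg.Agent.Lib.Helper45.ReflLenComp
import Cfsg.Agent.Lib.Helper45.CoxD4Card

/-! Poincaré series of the Coxeter group of type D4 (generated certificates). -/

set_option autoImplicit false

namespace Cfsg.Agent.Lib.Helper45

open LData
open Cfsg.Agent.Lib.Helper8 (wp ExCond)

/-- levels of orbit number 0 of type D4 -/
def D4L0 : List (List ℕ) := [[137388352],
  [137388096],
  [137355328, 133193792],
  [133161024],
  [133160768],
  [133160766]]

/-- levels of orbit number 1 of type D4 -/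
def D4L1 : List (List ℕ) := [[137371969],
  [137371713],
  [133177409]]

/-- levels of orbit number 2 of type D4 -/
def D4L2 : List (List ℕ) := [[137388225],
  [135291073]]

/-- levels of orbit number 3 of type D4 -/
def D4L3 : List (List ℕ) := [[135291201]]

/-- all levels of type D4 -/
def D4levels : List (List (List ℕ)) := [D4L0, D4L1, D4L2, D4L3]

set_option maxRecDepth 100000 in
theorem D4_levels : D4X.PChainCheck (List.finRange 4) D4chain D4levels := by decide +kernel

theorem D4_sizes : D4levels.map (fun Lv => Lv.map List.length) = [[1, 1, 2, 1, 1, 1], [1, 1, 1], [1, 1], [1]] := by decide +kernel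

theorem D4_poly (q : ℤ) : (q - 1) ^ 4 * ((1 + 1 * q ^ 1 + 1 * q ^ 2 + 2 * q ^ 3 + 1 * q ^ 4 + 1 * q ^ 5 + 1 * q ^ 6) * (1 + 1 * q ^ 1 + 1 * q ^ 2 + 1 * q ^ 3) * (1 + 1 * q ^ 1 + 1 * q ^ 2) * (1 + 1 * q ^ 1)) = (q ^ 2 - 1) * (q ^ 4 - 1) * (q ^ 4 - 1) * (q ^ 6 - 1) := by ring

/-- Poincaré series of type D4: `(q-1)^l ∑_w q^l(w) = ∏ (q^d_i - 1)`. -/
theorem D4_gwt {W : Type*} [Group W] (f : Fin 4 → W) (hinv : ∀ i, f i * f i = 1)
    (hgen : ∀ w, ∃ L, wp f L = w) (hex : ExCond f)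
    (hM : ∀ i j, orderOf (f i * f j) = Cfsg.Lie.coxeterD4 i j) (q : ℕ) (hq : 1 ≤ q) :
    (q - 1) ^ 4 * gwt f q = (q ^ 2 - 1) * (q ^ 4 - 1) * (q ^ 4 - 1) * (q ^ 6 - 1) := by
  rw [D4X.gwt_eq D4_rs D4_m D4_chain D4_levels rfl f hinv hgen hex hM q]
  have h1 : (D4levels.map fun Lv => 1 + szSum q 1 (Lv.map List.length)) =
      ((D4levels.map (fun Lv => Lv.map List.length)).map fun s => 1 + szSum q 1 s) := by
    rw [List.map_map]; rfl
  rw [h1, D4_sizes]
  simp only [List.map_cons, List.map_nil, List.prod_cons, List.prod_nil, szSum, mul_one, add_zero,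
    Nat.reduceAdd]
  have hp : ∀ k : ℕ, 1 ≤ q ^ k := fun k => Nat.one_le_pow _ _ hq
  zify [hq, hp]
  have := D4_poly (q : ℤ)
  linear_combination this

end Cfsg.Agent.Lib.Helper45
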