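import Mathlib
import Cfsg.Agent.Lib.Helper45.ReflMain

/-! Certificates for the Coxeter group of type E6 (generated tables, checked by the kernel). -/

set_option autoImplicit false

namespace Cfsg.Agent.Lib.Helper45

open LData

/-- Cartan data of type E6 -/
def E6X : LData 6 where
  AT := [[2,0,-1,0,0,0],
  [0,2,0,-1,0,0],
  [-1,0,2,-1,0,0],
  [0,-1,-1,2,-1,0],
  [0,0,0,-1,2,-1],
  [0,0,0,0,-1,2]]
  dl := [1,1,1,1,1,1]
  diag := by decide
  dpos := by decide
  symm := by decide
  len := by decide

/-- positive roots of type E6 (packed) -/
def E6P : List ℕ := [2250698137664, 2216606834752, 2216340496448, 2216338415680, 2216338399424,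
  2216338399297, 2250966573120, 2216608931904, 2216340512832, 2216340496576,
  2216338415681, 2250968670272, 2216608948288, 2216608932032, 2216340512960,
  2216340512833, 2250968686656, 2250968670400, 2216608948416, 2216608948289,
  2216340512961, 2250968686784, 2216611045568, 2250968686657, 2216608948417,
  2250970783936, 2250968686785, 2216611045569, 2251239219392, 2250970783937,
  2216611061953, 2251239219393, 2250970800321, 2251239235777, 2251241332929,
  2251241333057]

set_option maxRecDepth 100000 in
theorem E6_rs : E6X.RSCheckC E6P := by decide +kernel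

set_option maxRecDepth 100000 in
theorem E6_m : E6X.MCheck CoxeterMatrix.E₆ := by decide +kernel

set_option maxRecDepth 100000 in
theorem E6_cox : E6X.CoxCheck 12 := by decide +kernel

theorem E6_conn : E6X.ConnCheck ![0,3,0,2,3,4] 0 := by decide +kernel

theorem E6_noNeg : E6X.NoNegCheck 3 [4,3,5,6,4,2] := by decide +kernel

end Cfsg.Agent.Lib.Helper45
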