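import Mathlib
import Cfsg.Agent.Lib.Helper45.ReflMain
import Cfsg.Agent.Lib.Helper45.CoxE6

/-! Certificates for the Coxeter group of type E6 (order) (generated tables, checked by the kernel). -/

set_option autoImplicit false

namespace Cfsg.Agent.Lib.Helper45

open LData

/-- orbit number 0 in the chain of type E6 (packed) -/
def E6O0 : List ℕ := [2146532515516, 2146532515519, 2146532564671, 2146538856127, 2146538856511,
  2147344162495, 2147344162879, 2147350454335, 2147350503487, 2147350503490,
  2250423377599, 2250423377983, 2250429669439, 2250429718591, 2250429718594,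
  2251234975807, 2251235024959, 2251235024962, 2251241316415, 2251241316418,
  2251241316799, 2251241316802, 2251241365570, 2251241365954, 2251247657410,
  2252052963778, 2355132178882]

/-- orbit number 1 in the chain of type E6 (packed) -/
def E6O1 : List ℕ := [2285326295102, 2285326295105, 2285326344257, 2285332635713, 2285332636097,
  2286137942081, 2286137942465, 2286144233921, 2286144283073, 2286144283076]

/-- orbit number 2 in the chain of type E6 (packed) -/
def E6O2 : List ℕ := [2355132178885, 2355132228037, 2355138519493, 2355138519877, 2355943825861,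
  2355943826245, 2355950117701, 2355950166853]

/-- orbit number 3 in the chain of type E6 (packed) -/
def E6O3 : List ℕ := [2250970800321, 2251239235777, 2251241332929, 2251241333057]

/-- orbit number 4 in the chain of type E6 (packed) -/
def E6O4 : List ℕ := [2285873734082, 2286142169538, 2286144266690]

/-- orbit number 5 in the chain of type E6 (packed) -/
def E6O5 : List ℕ := [2390041436996, 2390846743364]

/-- orbit-stabiliser chain of type E6 -/
def E6chain : List (List ℤ × List ℤ × List ℕ) := [(([1,13,169,2197,28561,371293] : List ℤ), ([2,3,4,6,5,4] : List ℤ), E6O0),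
 (([1,13,169,2197,28561,371293] : List ℤ), ([4,3,5,6,4,2] : List ℤ), E6O1),
 (([1,25,625,15625,390625,9765625] : List ℤ), ([5,6,10,12,8,4] : List ℤ), E6O2),
 (([1,7,49,343,2401,16807] : List ℤ), ([1,2,2,3,2,1] : List ℤ), E6O3),
 (([1,13,169,2197,28561,371293] : List ℤ), ([2,3,4,6,4,2] : List ℤ), E6O4),
 (([1,25,625,15625,390625,9765625] : List ℤ), ([4,6,8,12,10,5] : List ℤ), E6O5)]

set_option maxRecDepth 100000 in
theorem E6_chain : E6X.ChainCheckC (List.finRange 6) E6chain := by decide +kernel

theorem E6_card : Nat.card (CoxeterMatrix.E₆).Group = 51840 := by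
  rw [E6X.card_group E6_rs E6_m E6_chain]
  decide +kernel

end Cfsg.Agent.Lib.Helper45
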