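import Mathlib
import Cfsg.Agent.Lib.Helper45.ReflMain

/-! Certificates for the Coxeter group of type E7 (generated tables, checked by the kernel). -/

set_option autoImplicit false

namespace Cfsg.Agent.Lib.Helper45

open LData

/-- Cartan data of type E7 -/
def E7X : LData 7 where
  AT := [[2,0,-1,0,0,0,0],
  [0,2,0,-1,0,0,0],
  [-1,0,2,-1,0,0,0],
  [0,-1,-1,2,-1,0,0],
  [0,0,0,-1,2,-1,0],
  [0,0,0,0,-1,2,-1],
  [0,0,0,0,0,-1,2]]
  dl := [1,1,1,1,1,1,1]
  diag := by decide
  dpos := by decide
  symm := by decide
  len := by decide

/-- positive roots of type E7 (packed) -/
def E7P : List ℕ := [288089361621056, 283725674848320, 283691583545408, 283691317207104, 283691315126336,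
  283691315110080, 283691315109953, 288123721359424, 283725943283776, 283691585642560,
  283691317223488, 283691317207232, 283691315126337, 288123989794880, 283725945380928,
  283691585658944, 283691585642688, 283691317223616, 283691317223489, 288123991892032,
  283725945397312, 283725945381056, 283691585659072, 283691585658945, 283691317223617,
  288123991908416, 288123991892160, 283725945397440, 283691587756224, 283725945397313,
  283691585659073, 288123991908544, 283725947494592, 288123991908417, 283725945397441,
  283691587756225, 288123994005696, 283726215930048, 288123991908545, 283725947494593,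
  283691587772609, 288124262441152, 288123994005697, 283726215930049, 283725947510977,
  288158622179520, 288124262441153, 288123994022081, 283726215946433, 288158622179521,
  288124262457537, 283726218043585, 288158622195905, 288124264554689, 283726218043713,
  288158624293057, 288124264554817, 288158892728513, 288158624293185, 288158892728641,
  288158894825793, 288158894842177, 288158894842178]

set_option maxRecDepth 100000 in
theorem E7_rs : E7X.RSCheckC E7P := by decide +kernel

set_option maxRecDepth 100000 in
theorem E7_m : E7X.MCheck CoxeterMatrix.E₇ := by decide +kernel

set_option maxRecDepth 100000 in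
theorem E7_cox : E7X.CoxCheck 18 := by decide +kernel

theorem E7_conn : E7X.ConnCheck ![0,3,0,2,3,4,5] 0 := by decide +kernel

set_option maxRecDepth 100000 in
theorem E7_neg : E7X.NegCheck 9 := by decide +kernel

end Cfsg.Agent.Lib.Helper45
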