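import Mathlib
import Cfsg.Agent.Lib.Helper45.ReflMain
import Cfsg.Agent.Lib.Helper45.CoxE7

/-! Certificates for the Coxeter group of type E7 (order) (generated tables, checked by the kernel). -/

set_option autoImplicit false

namespace Cfsg.Agent.Lib.Helper45

open LData

/-- orbit number 0 in the chain of type E7 (packed) -/
def E7O0 : List ℕ := [270358381797054, 279154474819262, 279223194295998, 279223731166910, 279223735361214,
  279223735361470, 279223735393982, 279223735393984, 279223735394238, 279223735394240,
  279223739588542, 279223739588544, 279223739621312, 279224276459454, 279224276459456,
  279224276492224, 279224280686528, 279224280686784, 279292995936190, 279292995936192,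
  279292995968960, 279293000163264, 279293000163520, 279293537034176, 279293537034432,
  279293541228736, 279293541261504, 279293541261506, 288089088958398, 288089088958400,
  288089088991168, 288089093185472, 288089093185728, 288089630056384, 288089630056640,
  288089634250944, 288089634283712, 288089634283714, 288158349533120, 288158349533376,
  288158353727680, 288158353760448, 288158353760450, 288158890598592, 288158890631360,
  288158890631362, 288158894825664, 288158894825666, 288158894825920, 288158894825922,
  288158894858434, 288158894858690, 288158899052994, 288159435923906, 288228155400642,
  297024248422850]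

/-- orbit number 1 in the chain of type E7 (packed) -/
def E7O1 : List ℕ := [292556668690624, 292556668690625, 292556668707009, 292556670804161, 292556670804289,
  292556939239617, 292556939239745, 292556941336897, 292556941353281, 292556941353282,
  292591298977985, 292591298978113, 292591301075265, 292591301091649, 292591301091650,
  292591569510721, 292591569527105, 292591569527106, 292591571624257, 292591571624258,
  292591571624385, 292591571624386, 292591571640642, 292591571640770, 292591573737922,
  292591842173378, 292626201911746]

/-- orbit number 2 in the chain of type E7 (packed) -/
def E7O2 : List ℕ := [288158622179520, 288158622179521, 288158622195905, 288158624293057, 288158624293185,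
  288158892728513, 288158892728641, 288158894825793, 288158894842177, 288158894842178]

/-- orbit number 3 in the chain of type E7 (packed) -/
def E7O3 : List ℕ := [292626201911747, 292626201928131, 292626204025283, 292626204025411, 292626472460739,
  292626472460867, 292626474558019, 292626474574403]

/-- orbit number 4 in the chain of type E7 (packed) -/
def E7O4 : List ℕ := [297093513224900, 297094050095812, 297094054290116, 297094054290372]

/-- orbit number 5 in the chain of type E7 (packed) -/
def E7O5 : List ℕ := [297093783757636, 297094052193092, 297094054290244]

/-- orbit number 6 in the chain of type E7 (packed) -/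
def E7O6 : List ℕ := [306028672656582, 306029209527494]

/-- orbit-stabiliser chain of type E7 -/
def E7chain : List (List ℤ × List ℤ × List ℕ) := [(([1,13,169,2197,28561,371293,4826809] : List ℤ), ([2,3,4,6,5,4,3] : List ℤ), E7O0),
 (([1,13,169,2197,28561,371293,4826809] : List ℤ), ([2,3,4,6,5,4,2] : List ℤ), E7O1),
 (([1,9,81,729,6561,59049,531441] : List ℤ), ([2,2,3,4,3,2,1] : List ℤ), E7O2),
 (([1,17,289,4913,83521,1419857,24137569] : List ℤ), ([3,4,6,8,6,4,2] : List ℤ), E7O3),
 (([1,25,625,15625,390625,9765625,244140625] : List ℤ), ([4,7,8,12,9,6,3] : List ℤ), E7O4),
 (([1,25,625,15625,390625,9765625,244140625] : List ℤ), ([4,6,8,12,9,6,3] : List ℤ), E7O5),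
 (([1,37,1369,50653,1874161,69343957,2565726409] : List ℤ), ([6,9,12,18,15,10,5] : List ℤ), E7O6)]

set_option maxRecDepth 100000 in
theorem E7_chain : E7X.ChainCheckC (List.finRange 7) E7chain := by decide +kernel

theorem E7_card : Nat.card (CoxeterMatrix.E₇).Group = 2903040 := by
  rw [E7X.card_group E7_rs E7_m E7_chain]
  decide +kernel

end Cfsg.Agent.Lib.Helper45
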