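import Mathlib
import Cfsg.Agent.Lib.Helper45.ReflMain

/-! Certificates for the Coxeter group of type E8 (generated tables, checked by the kernel). -/

set_option autoImplicit false

namespace Cfsg.Agent.Lib.Helper45

open LData

/-- Cartan data of type E8 -/
def E8X : LData 8 where
  AT := [[2,0,-1,0,0,0,0,0],
  [0,2,0,-1,0,0,0,0],
  [-1,0,2,-1,0,0,0,0],
  [0,-1,-1,2,-1,0,0,0],
  [0,0,0,-1,2,-1,0,0],
  [0,0,0,0,-1,2,-1,0],
  [0,0,0,0,0,-1,2,-1],
  [0,0,0,0,0,0,-1,2]]
  dl := [1,1,1,1,1,1,1,1]
  diag := by decide
  dpos := by decide
  symm := by decide
  len := by decide

/-- positive roots of type E8 (packed) -/
def E8P : List ℕ := [36875438287495232, 36316886380585024, 36312522693812288, 36312488602509376, 36312488336171072,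
  36312488334090304, 36312488334074048, 36312488334073921, 36879836334006336, 36316920740323392,
  36312522962247744, 36312488604606528, 36312488336187456, 36312488336171200, 36312488334090305,
  36879870693744704, 36316921008758848, 36312522964344896, 36312488604622912, 36312488604606656,
  36312488336187584, 36312488336187457, 36879870962180160, 36316921010856000, 36312522964361280,
  36312522964345024, 36312488604623040, 36312488604622913, 36312488336187585, 36879870964277312,
  36316921010872384, 36316921010856128, 36312522964361408, 36312488606720192, 36312522964361281,
  36312488604623041, 36879870964293696, 36879870964277440, 36316921010872512, 36312522966458560,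
  36316921010872385, 36312522964361409, 36312488606720193, 36879870964293824, 36316921012969664,
  36312523234894016, 36879870964293697, 36316921010872513, 36312522966458561, 36312488606736577,
  36879870966390976, 36316921281405120, 36879870964293825, 36316921012969665, 36312523234894017,
  36312522966474945, 36879871234826432, 36316955641143488, 36879870966390977, 36316921281405121,
  36316921012986049, 36312523234910401, 36879905594564800, 36879871234826433, 36316955641143489,
  36879870966407361, 36316921281421505, 36312523237007553, 36884303641075904, 36879905594564801,
  36879871234842817, 36316955641159873, 36316921283518657, 36312523237007681, 36884303641075905,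
  36879905594581185, 36879871236939969, 36316955643257025, 36316921283518785, 36884303641092289,
  36879905596678337, 36316955911692481, 36879871236940097, 36316955643257153, 36884303643189441,
  36879905865113793, 36879905596678465, 36316955911692609, 36884303911624897, 36884303643189569,
  36879905865113921, 36316955913789761, 36884338271363265, 36884303911625025, 36879905867211073,
  36316955913806145, 36884338271363393, 36884303913722177, 36879905867227457, 36316955913806146,
  36884338273460545, 36884303913738561, 36879905867227458, 36884338541896001, 36884338273476929,
  36884303913738562, 36884338541912385, 36884338273476930, 36884338544009537, 36884338541912386,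
  36884338544009665, 36884338544009538, 36884338544025922, 36884338544009666, 36884338544026050,
  36884338546123202, 36884338814558658, 36884373174297026, 36888771220808130, 37451721174229442]

set_option maxRecDepth 100000 in
theorem E8_rs : E8X.RSCheckC E8P := by decide +kernel

set_option maxRecDepth 100000 in
theorem E8_m : E8X.MCheck CoxeterMatrix.E₈ := by decide +kernel

set_option maxRecDepth 100000 in
theorem E8_cox : E8X.CoxCheck 30 := by decide +kernel

theorem E8_conn : E8X.ConnCheck ![0,3,0,2,3,4,5,6] 0 := by decide +kernel

set_option maxRecDepth 100000 in
theorem E8_neg : E8X.NegCheck 15 := by decide +kernel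

end Cfsg.Agent.Lib.Helper45
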