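import Mathlib
import Cfsg.Agent.Lib.Helper45.ReflMain

/-! Certificates for the Coxeter group of type F4 (generated tables, checked by the kernel). -/

set_option autoImplicit false

namespace Cfsg.Agent.Lib.Helper45

open LData

/-- Cartan data of type F4 -/
def F4X : LData 4 where
  AT := [[2,-1,0,0],
  [-1,2,-1,0],
  [0,-2,2,-1],
  [0,0,-1,2]]
  dl := [2,2,1,1]
  diag := by decide
  dpos := by decide
  symm := by decide
  len := by decide

/-- positive roots of type F4 (packed) -/
def F4P : List ℕ := [137371712, 135290944, 135274688, 135274561, 137388096,
  135291072, 135274689, 137388224, 135307456, 135291073,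
  137404608, 137388225, 135307457, 139501760, 137404609,
  135307585, 139501761, 137404737, 139501889, 137421121,
  139518273, 139534657, 139534785, 139534786]

set_option maxRecDepth 100000 in
theorem F4_rs : F4X.RSCheckC F4P := by decide +kernel

set_option maxRecDepth 100000 in
theorem F4_m : F4X.MCheck CoxeterMatrix.F₄ := by decide +kernel

set_option maxRecDepth 100000 in
theorem F4_cox : F4X.CoxCheck 12 := by decide +kernel

theorem F4_conn : F4X.ConnCheck ![0,0,1,2] 0 := by decide +kernel

set_option maxRecDepth 100000 in
theorem F4_neg : F4X.NegCheck 6 := by decide +kernel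

end Cfsg.Agent.Lib.Helper45
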