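import Mathlib
import Cfsg.Agent.Lib.Helper45.ReflMain
import Cfsg.Agent.Lib.Helper45.CoxF4

/-! Certificates for the Coxeter group of type F4 (order) (generated tables, checked by the kernel). -/

set_option autoImplicit false

namespace Cfsg.Agent.Lib.Helper45

open LData

/-- orbit number 0 in the chain of type F4 (packed) -/
def F4O0 : List ℕ := [131014334, 131014335, 131014463, 131047231, 131047359,
  131047360, 135241535, 135241663, 135241664, 135274431,
  135274432, 135274559, 135274561, 135274688, 135274689,
  135307456, 135307457, 135307585, 139501760, 139501761,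
  139501889, 139534657, 139534785, 139534786]

/-- orbit number 1 in the chain of type F4 (packed) -/
def F4O1 : List ℕ := [139534787, 139534915, 139567683, 139567811, 143761987,
  143762115, 143794883, 143795011]

/-- orbit number 2 in the chain of type F4 (packed) -/
def F4O2 : List ℕ := [139551298, 141648450, 141664834]

/-- orbit number 3 in the chain of type F4 (packed) -/
def F4O3 : List ℕ := [137421121, 139518273]

/-- orbit-stabiliser chain of type F4 -/
def F4chain : List (List ℤ × List ℤ × List ℕ) := [(([1,9,81,729] : List ℤ), ([2,3,4,2] : List ℤ), F4O0),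
 (([1,17,289,4913] : List ℤ), ([3,6,8,4] : List ℤ), F4O1),
 (([1,13,169,2197] : List ℤ), ([2,4,6,3] : List ℤ), F4O2),
 (([1,7,49,343] : List ℤ), ([1,2,3,2] : List ℤ), F4O3)]

set_option maxRecDepth 100000 in
theorem F4_chain : F4X.ChainCheckC (List.finRange 4) F4chain := by decide +kernel

theorem F4_card : Nat.card (CoxeterMatrix.F₄).Group = 1152 := by
  rw [F4X.card_group F4_rs F4_m F4_chain]
  decide +kernel

end Cfsg.Agent.Lib.Helper45
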