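import Mathlib
import Cfsg.Agent.Lib.Helper45.ReflLenComp
import Cfsg.Agent.Lib.Helper45.CoxF4Card

/-! Poincaré series of the Coxeter group of type F4 (generated certificates). -/

set_option autoImplicit false

namespace Cfsg.Agent.Lib.Helper45

open LData
open Cfsg.Agent.Lib.Helper8 (wp ExCond)

/-- levels of orbit number 0 of type F4 -/
def F4L0 : List (List ℕ) := [[139534785],
  [139534657],
  [139501889],
  [139501761, 135307585],
  [139501760, 135307457],
  [135307456, 135274689],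
  [135274688, 135274561],
  [135274432, 135274559],
  [135274431, 135241664],
  [135241663, 131047360],
  [135241535, 131047359],
  [131047231],
  [131014463],
  [131014335],
  [131014334]]

/-- levels of orbit number 1 of type F4 -/
def F4L1 : List (List ℕ) := [[143794883],
  [143762115],
  [143761987, 139567811],
  [139567683],
  [139534915],
  [139534787]]

/-- levels of orbit number 2 of type F4 -/
def F4L2 : List (List ℕ) := [[141648450],
  [139551298]]

/-- levels of orbit number 3 of type F4 -/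
def F4L3 : List (List ℕ) := [[137421121]]

/-- all levels of type F4 -/
def F4levels : List (List (List ℕ)) := [F4L0, F4L1, F4L2, F4L3]

set_option maxRecDepth 100000 in
theorem F4_levels : F4X.PChainCheck (List.finRange 4) F4chain F4levels := by decide +kernel

theorem F4_sizes : F4levels.map (fun Lv => Lv.map List.length) = [[1, 1, 1, 2, 2, 2, 2, 2, 2, 2, 2, 1, 1, 1, 1], [1, 1, 2, 1, 1, 1], [1, 1], [1]] := by decide +kernel

theorem F4_poly (q : ℤ) : (q - 1) ^ 4 * ((1 + 1 * q ^ 1 + 1 * q ^ 2 + 1 * q ^ 3 + 2 * q ^ 4 + 2 * q ^ 5 + 2 * q ^ 6 + 2 * q ^ 7 + 2 * q ^ 8 + 2 * q ^ 9 + 2 * q ^ 10 + 2 * q ^ 11 + 1 * q ^ 12 + 1 * q ^ 13 + 1 * q ^ 14 + 1 * q ^ 15) * (1 + 1 * q ^ 1 + 1 * q ^ 2 + 2 * q ^ 3 + 1 * q ^ 4 + 1 * q ^ 5 + 1 * q ^ 6) * (1 + 1 * q ^ 1 + 1 * q ^ 2) * (1 + 1 * q ^ 1)) = (q ^ 2 - 1) * (q ^ 6 - 1) * (q ^ 8 - 1) * (q ^ 12 - 1) := by ring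

/-- Poincaré series of type F4: `(q-1)^l ∑_w q^l(w) = ∏ (q^d_i - 1)`. -/
theorem F4_gwt {W : Type*} [Group W] (f : Fin 4 → W) (hinv : ∀ i, f i * f i = 1)
    (hgen : ∀ w, ∃ L, wp f L = w) (hex : ExCond f)
    (hM : ∀ i j, orderOf (f i * f j) = CoxeterMatrix.F₄ i j) (q : ℕ) (hq : 1 ≤ q) :
    (q - 1) ^ 4 * gwt f q = (q ^ 2 - 1) * (q ^ 6 - 1) * (q ^ 8 - 1) * (q ^ 12 - 1) := by
  rw [F4X.gwt_eq F4_rs F4_m F4_chain F4_levels rfl f hinv hgen hex hM q]
  have h1 : (F4levels.map fun Lv => 1 + szSum q 1 (Lv.map List.length)) =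
      ((F4levels.map (fun Lv => Lv.map List.length)).map fun s => 1 + szSum q 1 s) := by
    rw [List.map_map]; rfl
  rw [h1, F4_sizes]
  simp only [List.map_cons, List.map_nil, List.prod_cons, List.prod_nil, szSum, mul_one, add_zero,
    Nat.reduceAdd]
  have hp : ∀ k : ℕ, 1 ≤ q ^ k := fun k => Nat.one_le_pow _ _ hq
  zify [hq, hp]
  have := F4_poly (q : ℤ)
  linear_combination this

end Cfsg.Agent.Lib.Helper45
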