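import Mathlib
import Cfsg.Prelude.Def_LieTwisted

set_option autoImplicit false

namespace Cfsg.Agent.Lib.Helper45.F4

open Cfsg.Lie

/-- symbolic vectors over the prime field of two elements: lists of (coordinate code, exponent) -/
abbrev SV := List (ℕ × ℕ)

abbrev Idx := chevF4.Idx

def code : Idx → ℕ
  | Sum.inl i => i.val
  | Sum.inr s => 4 + s.val

theorem code_lt (c : Idx) : code c < 52 := by
  rcases c with i | s
  · have : i.val < 4 := i.2
    simp only [code]; omega
  · have : s.val < 48 := s.2
    simp only [code]; omega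

theorem code_inj {a b : Idx} (h : code a = code b) : a = b := by
  rcases a with i | s <;> rcases b with j | u
  · simp only [code] at h
    exact congrArg Sum.inl (Fin.ext h)
  · have : i.val < 4 := i.2
    simp only [code] at h; omega
  · have : j.val < 4 := j.2
    simp only [code] at h; omega
  · simp only [code] at h
    exact congrArg Sum.inr (Fin.ext (by omega))

theorem exists_code (n : ℕ) (h : n < 52) : ∃ c : Idx, code c = n := by
  by_cases h4 : n < 4
  · exact ⟨Sum.inl ⟨n, h4⟩, rfl⟩
  · refine ⟨Sum.inr ⟨n - 4, ?_⟩, ?_⟩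
    · show n - 4 < 48
      omega
    · simp only [code]; omega

section ev

variable {K : Type*} [Field K]

/-- evaluation of a symbolic vector -/
def ev (t : K) (l : SV) : Idx → K := fun ρ => (l.map fun p => if p.1 = code ρ then t ^ p.2 else 0).sum

@[simp] theorem ev_nil (t : K) : ev t [] = 0 := by
  ext ρ; simp [ev]

theorem ev_cons (t : K) (p : ℕ × ℕ) (l : SV) : ev t (p :: l) = ev t [p] + ev t l := by
  ext ρ; simp [ev]

theorem ev_append (t : K) (l₁ l₂ : SV) : ev t (l₁ ++ l₂) = ev t l₁ + ev t l₂ := by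
  ext ρ; simp [ev]

theorem ev_perm (t : K) {l₁ l₂ : SV} (h : l₁.Perm l₂) : ev t l₁ = ev t l₂ := by
  ext ρ
  exact (h.map _).sum_eq

theorem ev_single (t : K) (c : Idx) (e : ℕ) : ev t [(code c, e)] = t ^ e • Pi.single c 1 := by
  ext ρ
  by_cases h : c = ρ
  · subst h; simp [ev]
  · have h' : code c ≠ code ρ := fun hh => h (code_inj hh)
    simp [ev, h', Ne.symm h]

theorem ev_oob (t : K) (n e : ℕ) (h : 52 ≤ n) : ev t [(n, e)] = 0 := by
  ext ρ
  have := code_lt ρ
  have h' : n ≠ code ρ := by omega
  simp [ev, h']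

theorem ev_shift (t : K) (e : ℕ) (l : SV) :
    ev t (l.map fun q => (q.1, q.2 + e)) = t ^ e • ev t l := by
  induction l with
  | nil => simp
  | cons p l ih =>
    rw [List.map_cons, ev_cons, ih, ev_cons t p l, smul_add]
    congr 1
    ext ρ
    by_cases h : p.1 = code ρ
    · simp [ev, h, pow_add, mul_comm]
    · simp [ev, h]

theorem ev_one_exp (t : K) (n e : ℕ) : ev t [(n, e)] = t ^ e • ev t [(n, 0)] := by
  have := ev_shift t e [(n, 0)]
  simpa using this

theorem ev_filter (t : K) (l : SV) (ρ : Idx) :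
    ev t l ρ = ((l.filter fun p => p.1 = code ρ).map fun p => t ^ p.2).sum := by
  induction l with
  | nil => simp [ev]
  | cons p l ih =>
    rw [ev_cons, Pi.add_apply, ih]
    by_cases h : p.1 = code ρ
    · simp [ev, h]
    · simp [ev, h]

def toggle (acc : SV) (p : ℕ × ℕ) : SV := if p ∈ acc then acc.erase p else p :: acc

def cancel (l : SV) : SV := l.foldl toggle []

variable [CharP K 2]

theorem vadd_self (v : Idx → K) : v + v = 0 := by
  ext ρ
  simp [CharTwo.add_self_eq_zero]

theorem ev_toggle (t : K) (acc : SV) (p : ℕ × ℕ) : ev t (toggle acc p) = ev t acc + ev t [p] := by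
  unfold toggle
  split_ifs with h
  · have h1 := ev_perm t (List.perm_cons_erase h)
    rw [ev_cons] at h1
    rw [h1, add_comm (ev t [p]), add_assoc, vadd_self, add_zero]
  · rw [ev_cons, add_comm]

theorem ev_foldl (t : K) (l acc : SV) : ev t (l.foldl toggle acc) = ev t acc + ev t l := by
  induction l generalizing acc with
  | nil => simp
  | cons p l ih =>
    rw [List.foldl_cons, ih, ev_toggle, ev_cons t p l, add_assoc]

theorem ev_cancel (t : K) (l : SV) : ev t (cancel l) = ev t l := by
  rw [cancel, ev_foldl]; simp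

theorem ev_eq_of_cancel (t : K) (l₁ l₂ : SV) (h : cancel (l₁ ++ l₂) = []) : ev t l₁ = ev t l₂ := by
  have h1 := ev_cancel t (l₁ ++ l₂)
  rw [h, ev_append, ev_nil] at h1
  ext ρ
  exact CharTwo.add_eq_zero.1 (congrFun h1 ρ).symm

omit [CharP K 2] in
/-- applying a matrix whose columns are given symbolically -/
theorem mulVec_ev (t : K) (M : Matrix Idx Idx K) (tab : ℕ → SV)
    (h : ∀ n, M.mulVec (ev t [(n, 0)]) = ev t (tab n)) (l : SV) :
    M.mulVec (ev t l) = ev t (l.flatMap fun p => (tab p.1).map fun q => (q.1, q.2 + p.2)) := by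
  induction l with
  | nil => simp
  | cons p l ih =>
    rw [ev_cons, Matrix.mulVec_add, ih, List.flatMap_cons, ev_append, ev_shift, ← h,
      show ev t [p] = ev t [(p.1, p.2)] from rfl, ev_one_exp, Matrix.mulVec_smul]

theorem cast_char_two (z : ℤ) : (z : K) = if z % 2 != 0 then 1 else 0 := by
  have h2 : (2 : K) = 0 := CharTwo.two_eq_zero
  have h := Int.emod_add_mul_ediv z 2
  rcases Int.emod_two_eq_zero_or_one z with h0 | h0
  · rw [h0] at h
    have : (z : K) = ((0 + 2 * (z / 2) : ℤ) : K) := by rw [h]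
    rw [this]
    push_cast
    simp [h0, h2]
  · rw [h0] at h
    have : (z : K) = ((1 + 2 * (z / 2) : ℤ) : K) := by rw [h]
    rw [this]
    push_cast
    simp [h0, h2]

theorem sum_char_two (t : K) (l : List (ℕ × ℤ)) :
    (l.map fun p => ((p.2 : ℤ) : K) * t ^ p.1).sum =
      ((l.filter fun p => p.2 % 2 != 0).map fun p => t ^ p.1).sum := by
  induction l with
  | nil => simp
  | cons p l ih =>
    rw [List.map_cons, List.sum_cons, ih, cast_char_two]
    by_cases h : p.2 % 2 != 0
    · simp [List.filter_cons, h]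
    · simp [List.filter_cons, h]

end ev

section nil

variable {K : Type*} [Field K]

theorem pow_finrank_eq_zero {U : Type*} [AddCommGroup U] [Module K U] [FiniteDimensional K U]
    (g : Module.End K U) (hg : IsNilpotent g) : g ^ Module.finrank K U = 0 := by
  have h1 := LinearMap.aeval_self_charpoly g
  rw [hg.charpoly_eq_X_pow_finrank] at h1
  simpa using h1

theorem nil_bound {V : Type*} [AddCommGroup V] [Module K V] [FiniteDimensional K V]
    (f : Module.End K V) (hf : IsNilpotent f) (W : Submodule K V) (hW : ∀ v ∈ W, f v ∈ W) (n : ℕ)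
    (h1 : Module.finrank K W ≤ n) (h2 : Module.finrank K (V ⧸ W) ≤ n) :
    (∀ v ∈ W, (f ^ n) v = 0) ∧ (∀ v, (f ^ n) v ∈ W) := by
  obtain ⟨k, hk⟩ := hf
  constructor
  · intro v hv
    have hnil : IsNilpotent (f.restrict hW) := by
      refine ⟨k, ?_⟩
      ext w
      rw [Module.End.pow_restrict, LinearMap.restrict_apply]
      simp [hk]
    have h3 := pow_eq_zero_of_le h1 (pow_finrank_eq_zero _ hnil)
    rw [Module.End.pow_restrict n hW] at h3
    have h4 := congrArg (fun φ => (φ ⟨v, hv⟩ : V)) h3
    simpa using h4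
  · intro v
    have hW' : W ≤ W.comap f := hW
    have hnil : IsNilpotent (W.mapQ W f hW') := by
      refine ⟨k, ?_⟩
      rw [← Submodule.mapQ_pow]
      ext w
      simp [hk]
    have h3 := pow_eq_zero_of_le h2 (pow_finrank_eq_zero _ hnil)
    rw [← Submodule.mapQ_pow] at h3
    have h4 := congrArg (fun φ => φ (W.mkQ v)) h3
    simpa using h4

end nil

end Cfsg.Agent.Lib.Helper45.F4
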