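import Cfsg.Agent.Lib.Helper45.GrSetup
import Cfsg.Agent.Lib.Helper45.TwistCount3

/-!
# Fixed points in `N` of a twisting endomorphism: `N ∩ Fix ⊆ (G¹ ∩ N) H`
(the fixed points of the symmetry on the Weyl group are generated by the orbit words)
-/

set_option autoImplicit false

namespace Cfsg.Agent.Lib.Helper45

open Cfsg.Lie Matrix Cfsg.Agent.Lib.Helper23 Cfsg.Agent.Lib.Helper22 Cfsg.Agent.Lib.Helper8

/-- extra table facts -/
structure FixTab (D : ChevalleyDatum) (ρ' : ℕ → ℕ) (orbs : List (List ℕ)) : Prop where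
  cov : ∀ i < D.rank, ∃ ω ∈ orbs, i ∈ ω
  trans : ∀ ω ∈ orbs, ∀ i ∈ ω, ∀ j ∈ ω, D.simple j = D.simple i ∨ D.simple j = ρ' (D.simple i) ∨
    D.simple j = ρ' (ρ' (D.simple i))
  stab : ∀ ω ∈ orbs, ∀ i ∈ ω, ∃ j ∈ ω, ρ' (D.simple i) = D.simple j
  orth : ∀ ω ∈ orbs, ∀ i ∈ ω, ∀ j ∈ ω, i ≠ j → D.reflectRoot i (D.simple j) = D.simple j
  flip : ∀ i < D.rank, D.reflectRoot i (D.simple i) = D.neg (D.simple i)
  nodup : ∀ ω ∈ orbs, ω.Nodup

instance (D : ChevalleyDatum) (ρ' : ℕ → ℕ) (orbs : List (List ℕ)) : Decidable (FixTab D ρ' orbs) :=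
  decidable_of_iff ((∀ i < D.rank, ∃ ω ∈ orbs, i ∈ ω) ∧
    (∀ ω ∈ orbs, ∀ i ∈ ω, ∀ j ∈ ω, D.simple j = D.simple i ∨ D.simple j = ρ' (D.simple i) ∨
      D.simple j = ρ' (ρ' (D.simple i))) ∧
    (∀ ω ∈ orbs, ∀ i ∈ ω, ∃ j ∈ ω, ρ' (D.simple i) = D.simple j) ∧
    (∀ ω ∈ orbs, ∀ i ∈ ω, ∀ j ∈ ω, i ≠ j → D.reflectRoot i (D.simple j) = D.simple j) ∧
    (∀ i < D.rank, D.reflectRoot i (D.simple i) = D.neg (D.simple i)) ∧ (∀ ω ∈ orbs, ω.Nodup))
    ⟨fun h => ⟨h.1, h.2.1, h.2.2.1, h.2.2.2.1, h.2.2.2.2.1, h.2.2.2.2.2⟩,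
      fun h => ⟨h.1, h.2, h.3, h.4, h.5, h.6⟩⟩

set_option maxRecDepth 100000 in
theorem fixTabD4 : FixTab chevD4 rhoInvD4 orbsD4 := by decide +kernel

set_option maxRecDepth 100000 in
theorem fixTabE6 : FixTab chevE6 rhoInvE6 orbsE6 := by decide +kernel

open Classical in
/-- the number of positive roots made negative by `π` -/
noncomputable def invCount (D : ChevalleyDatum) (π : ℕ → ℕ) : ℕ :=
  ((Finset.range D.nroots).filter fun r => D.IsPosRoot r ∧ D.IsNegRoot (π r)).card

variable {D : ChevalleyDatum}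

theorem invCount_refl_lt (hR : RootFacts D) {π : ℕ → ℕ}
    (hneg : ∀ r < D.nroots, π (D.neg r) = D.neg (π r)) (hlt : ∀ r < D.nroots, π r < D.nroots)
    {i : ℕ} (hi : i < D.rank)
    (hflip : D.reflectRoot i (D.simple i) = D.neg (D.simple i))
    (h : D.IsNegRoot (π (D.simple i))) :
    invCount D (fun r => π (D.reflectRoot i r)) < invCount D π := by
  classical
  unfold invCount
  set A := (Finset.range D.nroots).filter fun r => D.IsPosRoot r ∧
    D.IsNegRoot (π (D.reflectRoot i r)) with hA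
  set B := (Finset.range D.nroots).filter fun r => D.IsPosRoot r ∧ D.IsNegRoot (π r) with hB
  have hα := hR.simple_lt hi
  have hαB : D.simple i ∈ B := by
    rw [hB, Finset.mem_filter, Finset.mem_range]
    exact ⟨hα, hR.simple_pos hi, h⟩
  have hinj : Set.InjOn (D.reflectRoot i) (A : Set ℕ) := by
    intro r hr s hs e
    rw [hA, Finset.coe_filter] at hr hs
    have hr' : r < D.nroots := Finset.mem_range.1 hr.1
    have hs' : s < D.nroots := Finset.mem_range.1 hs.1
    rw [← hR.refl_refl hi hr', ← hR.refl_refl hi hs', e]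
  have hsub : A.image (D.reflectRoot i) ⊆ B.erase (D.simple i) := by
    intro s hs
    obtain ⟨r, hr, rfl⟩ := Finset.mem_image.1 hs
    rw [hA, Finset.mem_filter, Finset.mem_range] at hr
    obtain ⟨hr', hpos, hn⟩ := hr
    have hne : r ≠ D.simple i := by
      rintro rfl
      rw [hflip, hneg _ hα] at hn
      exact hR.not_neg_of_pos ((hR.negF _ (hlt _ hα)).2.2.2.2.2 h) hn
    rw [Finset.mem_erase, hB, Finset.mem_filter, Finset.mem_range]
    refine ⟨?_, hR.refl_lt hi hr', hR.refl_pos hi hpos hne, hn⟩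
    intro e
    have : r = D.neg (D.simple i) := by rw [← hflip, ← e, hR.refl_refl hi hr']
    rw [this] at hpos
    exact hR.not_neg_of_pos hpos ((hR.negF _ hα).2.2.2.2.1 (hR.simple_pos hi))
  calc A.card = (A.image (D.reflectRoot i)).card := (Finset.card_image_of_injOn hinj).symm
    _ ≤ (B.erase (D.simple i)).card := Finset.card_le_card hsub
    _ < B.card := Finset.card_erase_lt_of_mem hαB

theorem invCount_wact_le (hR : RootFacts D) :
    ∀ (ω : List ℕ), (∀ i ∈ ω, i < D.rank) → ω.Nodup →
      (∀ i ∈ ω, ∀ j ∈ ω, i ≠ j → D.reflectRoot i (D.simple j) = D.simple j) →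
      (∀ i ∈ ω, D.reflectRoot i (D.simple i) = D.neg (D.simple i)) →
      ∀ π : ℕ → ℕ, (∀ r < D.nroots, π (D.neg r) = D.neg (π r)) →
        (∀ r < D.nroots, π r < D.nroots) → (∀ j ∈ ω, D.IsNegRoot (π (D.simple j))) →
        invCount D (fun r => π (wact D ω r)) ≤ invCount D π ∧
          (ω ≠ [] → invCount D (fun r => π (wact D ω r)) < invCount D π) := by
  intro ω
  induction ω with
  | nil => intro _ _ _ _ π _ _ _; exact ⟨le_rfl, fun h => absurd rfl h⟩
  | cons i w ih =>
    intro hrk hnd horth hflip π hneg hlt hN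
    have hi := hrk i (by simp)
    have h1 := invCount_refl_lt hR hneg hlt hi (hflip i (by simp)) (hN i (by simp))
    have h2 := (ih (fun j hj => hrk j (by simp [hj])) (List.nodup_cons.1 hnd).2
      (fun a ha c hc => horth a (by simp [ha]) c (by simp [hc]))
      (fun a ha => hflip a (by simp [ha]))
      (fun r => π (D.reflectRoot i r))
      (fun r hr => by
        show π (D.reflectRoot i (D.neg r)) = D.neg (π (D.reflectRoot i r))
        rw [hR.refl_neg hi hr, hneg _ (hR.refl_lt hi hr)])
      (fun r hr => hlt _ (hR.refl_lt hi hr))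
      (fun j hj => by
        have hij : i ≠ j := by
          rintro rfl
          exact (List.nodup_cons.1 hnd).1 hj
        show D.IsNegRoot (π (D.reflectRoot i (D.simple j)))
        rw [horth i (by simp) j (by simp [hj]) hij]
        exact hN j (by simp [hj]))).1
    have h3 : invCount D (fun r => π (wact D (i :: w) r)) < invCount D π :=
      lt_of_le_of_lt h2 h1
    exact ⟨h3.le, fun _ => h3⟩

section
variable {F : Type*} [Field F] {b : Bundle D F}
  {σ : GL D.Idx F → GL D.Idx F} {ρ ρ' : ℕ → ℕ} {c : ℕ → F → F} {orbs : List (List ℕ)}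
  {cert : List (List ℕ × List (List ℕ))} {G1 : Subgroup (GL D.Idx F)}

/-- FIXA: a fixed element of `N` lies in `(G¹ ∩ N) H`. -/
theorem TwSetup.mono_fix (X : TwSetup D F b σ ρ ρ' c orbs cert G1) (hTab : FixTab D ρ' orbs) :
    ∀ n ∈ D.monomialSubgroup F, σ n = n →
      ∃ m ∈ G1, m ∈ D.monomialSubgroup F ∧ m⁻¹ * n ∈ D.diagonalSubgroup F := by
  obtain ⟨P, hPB, hPN, hPS⟩ := b.hA.exists_bnPair b.hR b.hN b.hT b.hTri b.hC
  have key : ∀ k : ℕ, ∀ L : List ℕ, (∀ i ∈ L, i < D.rank) → ∀ h ∈ D.diagonalSubgroup F,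
      σ (b.hA.nword L * h) = b.hA.nword L * h → invCount D (wact D L.reverse) = k →
      ∃ m ∈ G1, m ∈ D.monomialSubgroup F ∧ m⁻¹ * (b.hA.nword L * h) ∈ D.diagonalSubgroup F := by
    intro k
    induction k using Nat.strong_induction_on with
    | _ k ih =>
      intro L hL h hh hfix hk
      have hLr : ∀ i ∈ L.reverse, i < D.rank := fun i hi => hL i (List.mem_reverse.1 hi)
      have hwN : b.hA.nword L ∈ D.monomialSubgroup F := b.hA.nword_mem_mono b.hR hL
      have hnN : b.hA.nword L * h ∈ D.monomialSubgroup F :=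
        mul_mem hwN (AddFact.diag_le_mono hh)
      have hnG := b.hA.mono_le_group hnN
      by_cases hpos : ∀ j < D.rank, D.IsPosRoot (wact D L.reverse (D.simple j))
      · have h1 := nword_mem_borel b.hA b.hR b.hN b.hT b.hC hPB hPN hPS hL hpos
        have h2 := X.sharp.BN _ h1 hwN
        exact ⟨1, one_mem _, one_mem _, by simpa using mul_mem h2 hh⟩
      · push Not at hpos
        obtain ⟨j, hj, hjn⟩ := hpos
        have hjn' : D.IsNegRoot (wact D L.reverse (D.simple j)) :=
          (b.hR.pos_or_neg (b.hR.wact_lt hLr (b.hR.simple_lt hj))).resolve_left hjn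
        obtain ⟨ω, hω, hjω⟩ := hTab.cov j hj
        have hωrk := X.hT.orb.rank ω hω
        -- the action of `n⁻¹`
        have hacts : Acts D F (b.hA.nword L * h)⁻¹ (wact D L.reverse) := acts_rep_inv b hL hh rfl
        have hπlt : ∀ r < D.nroots, wact D L.reverse r < D.nroots := fun r hr => b.hR.wact_lt hLr hr
        have hacts2 := X.hσ.acts b (inv_mem hnG) hacts hπlt
        rw [sigma_inv X.hσ.mul hnG, hfix] at hacts2
        have hprop : ∀ i ∈ ω, D.IsNegRoot (wact D L.reverse (D.simple i)) →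
            D.IsNegRoot (wact D L.reverse (ρ' (D.simple i))) := by
          intro i hi hn
          have hi' := hωrk i hi
          have hle := conj_le_of_neg b hacts (b.hR.simple_lt hi') hn
          have h3 := neg_of_conj_le b hacts2
            (fun r hr => X.hσ.lt b (hπlt _ (X.hσ.lt' r hr))) (b.hR.simple_pos hi') hle
          rcases b.hR.pos_or_neg (hπlt _ (X.hσ.lt' _ (b.hR.simple_lt hi'))) with hp | hn'
          · exact absurd h3 (b.hR.not_neg_of_pos (X.hσ.pos _ hp))
          · exact hn'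
        have hall : ∀ i ∈ ω, D.IsNegRoot (wact D L.reverse (D.simple i)) := by
          intro i hi
          rcases hTab.trans ω hω j hjω i hi with e | e | e
          · rw [e]; exact hjn'
          · rw [e]; exact hprop j hjω hjn'
          · rw [e]
            obtain ⟨j', hj', e'⟩ := hTab.stab ω hω j hjω
            have h4 := hprop j hjω hjn'
            rw [e'] at h4 ⊢
            exact hprop j' hj' h4
        -- the new element
        have hne : ω.reverse ≠ [] := by
          intro e
          rw [List.reverse_eq_nil_iff] at e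
          rw [e] at hjω
          simp at hjω
        have hdrop := (invCount_wact_le b.hR ω.reverse
          (fun i hi => hωrk i (List.mem_reverse.1 hi))
          (List.nodup_reverse.2 (hTab.nodup ω hω))
          (fun a ha c hc => hTab.orth ω hω a (List.mem_reverse.1 ha) c (List.mem_reverse.1 hc))
          (fun a ha => hTab.flip a (hωrk a (List.mem_reverse.1 ha)))
          (wact D L.reverse) (fun r hr => b.hR.wact_neg hLr hr) hπlt
          (fun i hi => hall i (List.mem_reverse.1 hi))).2 hne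
        have hL' : ∀ i ∈ ω ++ L, i < D.rank := by
          intro i hi
          rcases List.mem_append.1 hi with h | h
          · exact hωrk i h
          · exact hL i h
        have hfun : wact D (ω ++ L).reverse = fun r => wact D L.reverse (wact D ω.reverse r) := by
          funext r
          rw [List.reverse_append, wact_append]
        have hs1 := X.nword_mem hω
        have hsfix := (mem_FixS.1 (X.fixBN.G1_fix hs1))
        have hfix' : σ (b.hA.nword (ω ++ L) * h) = b.hA.nword (ω ++ L) * h := by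
          rw [AddFact.nword_append, mul_assoc, X.hσ.mul _ hsfix.1 _ hnG, hsfix.2, hfix]
        obtain ⟨m', hm1, hmN, hmH⟩ := ih _ (by rw [← hk]; exact hdrop) (ω ++ L) hL' h hh hfix'
          (by rw [hfun])
        refine ⟨(b.hA.nword ω)⁻¹ * m', mul_mem (inv_mem hs1) hm1,
          mul_mem (inv_mem (b.hA.nword_mem_mono b.hR hωrk)) hmN, ?_⟩
        have e : ((b.hA.nword ω)⁻¹ * m')⁻¹ * (b.hA.nword L * h) =
            m'⁻¹ * (b.hA.nword (ω ++ L) * h) := by
          rw [AddFact.nword_append]; group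
        rw [e]; exact hmH
  intro n hn hfix
  obtain ⟨w, h', hw, hh', rfl⟩ := b.hA.mono_nform b.hR b.hN hn
  exact key _ w hw h' hh' hfix rfl

end

end Cfsg.Agent.Lib.Helper45
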