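import Cfsg.Agent.Lib.Helper45.GrTabD4
import Cfsg.Agent.Lib.Helper49.GrINT
import Cfsg.Prelude.Def_LieTwisted

/-!
# The surjection `twistedD4 K 1 → G₂(K)`
-/

set_option autoImplicit false

namespace Cfsg.Agent.Lib.Helper45

open Cfsg.Lie Matrix Cfsg.Agent.Lib.Helper23 Cfsg.Agent.Lib.Helper22

variable {K : Type*} [Field K]

theorem relE {D D' : ChevalleyDatum} {T T' : Tb} (V : T.Valid D) (V' : T'.Valid D')
    {ecol : ℕ → List Ent} {N : ℕ} (hN : N = D'.nroots + D'.rank) (hbig : ∀ k, N ≤ k → ecol k = [])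
    {rs : List ℕ} {R : ℕ}
    (hc : allBelow N (checkE (colX T) (colX T') ecol (rs.map fun r => (r, ⟨2, 0, 0, 1, 0⟩))
      [(R, ⟨2, 0, 0, 1, 0⟩)]) = true) (t : K) :
    (rs.map fun r => D.x K r t).prod * eM D D' K ecol = eM D D' K ecol * D'.x K R t := by
  subst hN
  have h := checkE_sound (F := K) (colX_ok V) (colX_ok V') hbig (allBelow_iff.1 hc) (envTU t 0)
  simp only [List.map_map, List.map_cons, List.map_nil, List.prod_cons, List.prod_nil, mul_one,
    monoT_eval] at h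
  have e : ((fun p : ℕ × Mono => D.x K p.1 (Mono.eval (envTU t 0) p.2)) ∘
      fun r => (r, (⟨2, 0, 0, 1, 0⟩ : Mono))) = fun r => D.x K r t := by
    funext r
    simp only [Function.comp, monoT_eval]
    rfl
  rw [e] at h
  exact h

theorem d4_hom : ∃ f : ↥(twistedD4 K 1) →* ↥(chevG2.group K), Function.Surjective f := by
  have b := bundle_of_mem K (D := chevD4) (by simp)
  have b' := bundle_of_mem K (D := chevG2) (by simp)
  have hLE : eM chevG2 chevD4 K lcolD4 * eM chevD4 chevG2 K ecolD4 = 1 :=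
    checkLE_sound ecolD4_big lcolD4_big (allBelow_iff.1 chkLED4)
  have r0 := relE (K := K) tbD4_valid tbG2_valid (N := 14) rfl ecolD4_big (rs := [14]) chkED4_0
  have r1 := relE (K := K) tbD4_valid tbG2_valid (N := 14) rfl ecolD4_big (rs := [9]) chkED4_1
  have r2 := relE (K := K) tbD4_valid tbG2_valid (N := 14) rfl ecolD4_big (rs := [18, 13, 12]) chkED4_2
  have r3 := relE (K := K) tbD4_valid tbG2_valid (N := 14) rfl ecolD4_big (rs := [5, 10, 11]) chkED4_3
  simp only [List.map_cons, List.map_nil, List.prod_cons, List.prod_nil, mul_one] at r0 r1 r2 r3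
  have hs : chevG2.simple 0 = 7 ∧ chevG2.simple 1 = 6 ∧ chevG2.neg (chevG2.simple 0) = 4 ∧
      chevG2.neg (chevG2.simple 1) = 5 := by decide +kernel
  have hcoe : ∀ R t, ((b'.hA.X R t : GL chevG2.Idx K) : Matrix chevG2.Idx chevG2.Idx K) =
      chevG2.x K R t := fun R t => b'.hA.coe_X R t
  refine Cfsg.Agent.Lib.Helper49.exists_hom_of_intertwine b' (eM chevD4 chevG2 K ecolD4)
    (eM chevG2 chevD4 K lcolD4) hLE {g | ∃ w ∈ d4Words K 1, (g : Matrix chevD4.Idx chevD4.Idx K) =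
      chevD4.wordMat K w} ?_ ?_
  · rintro g ⟨w, hw, hg⟩
    rw [hg]
    rcases hw with ⟨t, _, r, hr, rfl⟩ | ⟨t, rs, hrs, rfl⟩
    · simp only [List.mem_cons, List.not_mem_nil, or_false] at hr
      rcases hr with rfl | rfl
      · exact ⟨b'.hA.X 6 t, b'.hA.X_mem_group _ _, by
          rw [hcoe]; simpa [ChevalleyDatum.wordMat, d4p2] using r0 t⟩
      · exact ⟨b'.hA.X 5 t, b'.hA.X_mem_group _ _, by
          rw [hcoe]; simpa [ChevalleyDatum.wordMat, d4m2] using r1 t⟩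
    · simp only [List.mem_cons, List.not_mem_nil, or_false] at hrs
      rcases hrs with rfl | rfl
      · exact ⟨b'.hA.X 7 t, b'.hA.X_mem_group _ _, by
          rw [hcoe]; simpa [ChevalleyDatum.wordMat, d4p1, d4p3, d4p4, mul_assoc] using r2 t⟩
      · exact ⟨b'.hA.X 4 t, b'.hA.X_mem_group _ _, by
          rw [hcoe]; simpa [ChevalleyDatum.wordMat, d4m1, d4m3, d4m4, mul_assoc] using r3 t⟩
  · intro i hi t
    have hi' : i = 0 ∨ i = 1 := by
      have : i < 2 := hi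
      omega
    rcases hi' with rfl | rfl
    · rw [hs.2.2.1, hs.1]
      constructor
      · refine ⟨b.hA.X 18 t * b.hA.X 13 t * b.hA.X 12 t,
          ⟨[(d4p1, t), (d4p3, t ^ 1), (d4p4, t ^ (1 ^ 2))], Or.inr ⟨t, (d4p1, d4p3, d4p4), by simp, rfl⟩, ?_⟩, ?_⟩
        · simp [ChevalleyDatum.wordMat, d4p1, d4p3, d4p4, b.hA.coe_X, mul_assoc]
        · simpa [b.hA.coe_X, mul_assoc] using r2 t
      · refine ⟨b.hA.X 5 t * b.hA.X 10 t * b.hA.X 11 t,
          ⟨[(d4m1, t), (d4m3, t ^ 1), (d4m4, t ^ (1 ^ 2))], Or.inr ⟨t, (d4m1, d4m3, d4m4), by simp, rfl⟩, ?_⟩, ?_⟩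
        · simp [ChevalleyDatum.wordMat, d4m1, d4m3, d4m4, b.hA.coe_X, mul_assoc]
        · simpa [b.hA.coe_X, mul_assoc] using r3 t
    · rw [hs.2.2.2, hs.2.1]
      constructor
      · refine ⟨b.hA.X 14 t, ⟨[(d4p2, t)], Or.inl ⟨t, by simp, d4p2, by simp, rfl⟩, ?_⟩, ?_⟩
        · simp [ChevalleyDatum.wordMat, d4p2, b.hA.coe_X]
        · simpa [b.hA.coe_X] using r0 t
      · refine ⟨b.hA.X 9 t, ⟨[(d4m2, t)], Or.inl ⟨t, by simp, d4m2, by simp, rfl⟩, ?_⟩, ?_⟩
        · simp [ChevalleyDatum.wordMat, d4m2, b.hA.coe_X]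
        · simpa [b.hA.coe_X] using r1 t

end Cfsg.Agent.Lib.Helper45
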