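import Cfsg.Agent.Lib.Helper45.GrTabE6
import Cfsg.Agent.Lib.Helper45.GrHomD4

/-!
# The surjection `twistedE6 K 1 → F₄(K)`
-/

set_option autoImplicit false

namespace Cfsg.Agent.Lib.Helper45

open Cfsg.Lie Matrix Cfsg.Agent.Lib.Helper23 Cfsg.Agent.Lib.Helper22

variable {K : Type*} [Field K]

theorem e6_hom : ∃ f : ↥(twistedE6 K 1) →* ↥(chevF4.group K), Function.Surjective f := by
  have b := bundle_of_mem K (D := chevE6) (by simp)
  have b' := bundle_of_mem K (D := chevF4) (by simp)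
  have hLE : eM chevF4 chevE6 K lcolE6 * eM chevE6 chevF4 K ecolE6 = 1 :=
    checkLE_sound ecolE6_big lcolE6_big (allBelow_iff.1 chkLEE6)
  have r0 := relE (K := K) tbE6_valid tbF4_valid (N := 52) rfl ecolE6_big (rs := [46]) chkEE6_0
  have r1 := relE (K := K) tbE6_valid tbF4_valid (N := 52) rfl ecolE6_big (rs := [25]) chkEE6_1
  have r2 := relE (K := K) tbE6_valid tbF4_valid (N := 52) rfl ecolE6_big (rs := [39]) chkEE6_2
  have r3 := relE (K := K) tbE6_valid tbF4_valid (N := 52) rfl ecolE6_big (rs := [32]) chkEE6_3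
  have r4 := relE (K := K) tbE6_valid tbF4_valid (N := 52) rfl ecolE6_big (rs := [42, 37]) chkEE6_4
  have r5 := relE (K := K) tbE6_valid tbF4_valid (N := 52) rfl ecolE6_big (rs := [29, 34]) chkEE6_5
  have r6 := relE (K := K) tbE6_valid tbF4_valid (N := 52) rfl ecolE6_big (rs := [56, 36]) chkEE6_6
  have r7 := relE (K := K) tbE6_valid tbF4_valid (N := 52) rfl ecolE6_big (rs := [15, 35]) chkEE6_7
  simp only [List.map_cons, List.map_nil, List.prod_cons, List.prod_nil, mul_one]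
    at r0 r1 r2 r3 r4 r5 r6 r7
  have hs : chevF4.simple 0 = 33 ∧ chevF4.simple 1 = 27 ∧ chevF4.simple 2 = 25 ∧
      chevF4.simple 3 = 24 ∧ chevF4.neg (chevF4.simple 0) = 14 ∧
      chevF4.neg (chevF4.simple 1) = 20 ∧ chevF4.neg (chevF4.simple 2) = 22 ∧
      chevF4.neg (chevF4.simple 3) = 23 := by decide +kernel
  have hcoe : ∀ R t, ((b'.hA.X R t : GL chevF4.Idx K) : Matrix chevF4.Idx chevF4.Idx K) =
      chevF4.x K R t := fun R t => b'.hA.coe_X R t
  have single : ∀ r ∈ [e6p2, e6m2, e6p4, e6m4], ∀ t : K, b.hA.X r t ∈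
      {g : GL chevE6.Idx K | ∃ w ∈ e6Words K 1, (g : Matrix chevE6.Idx chevE6.Idx K) =
        chevE6.wordMat K w} := by
    intro r hr t
    exact ⟨[(r, t)], Or.inl ⟨t, by simp, r, hr, rfl⟩, by simp [ChevalleyDatum.wordMat]⟩
  have pair : ∀ rs ∈ [(e6p1, e6p6), (e6m1, e6m6), (e6p3, e6p5), (e6m3, e6m5)], ∀ t : K,
      b.hA.X rs.1 t * b.hA.X rs.2 t ∈
      {g : GL chevE6.Idx K | ∃ w ∈ e6Words K 1, (g : Matrix chevE6.Idx chevE6.Idx K) =
        chevE6.wordMat K w} := by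
    intro rs hrs t
    exact ⟨[(rs.1, t), (rs.2, t ^ 1)], Or.inr ⟨t, rs, hrs, rfl⟩, by simp [ChevalleyDatum.wordMat]⟩
  refine Cfsg.Agent.Lib.Helper49.exists_hom_of_intertwine b' (eM chevE6 chevF4 K ecolE6)
    (eM chevF4 chevE6 K lcolE6) hLE {g | ∃ w ∈ e6Words K 1, (g : Matrix chevE6.Idx chevE6.Idx K) =
      chevE6.wordMat K w} ?_ ?_
  · rintro g ⟨w, hw, hg⟩
    rw [hg]
    rcases hw with ⟨t, _, r, hr, rfl⟩ | ⟨t, rs, hrs, rfl⟩
    · simp only [List.mem_cons, List.not_mem_nil, or_false] at hr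
      rcases hr with rfl | rfl | rfl | rfl
      · exact ⟨b'.hA.X 24 t, b'.hA.X_mem_group _ _, by
          rw [hcoe]; simpa [ChevalleyDatum.wordMat, e6p2] using r0 t⟩
      · exact ⟨b'.hA.X 23 t, b'.hA.X_mem_group _ _, by
          rw [hcoe]; simpa [ChevalleyDatum.wordMat, e6m2] using r1 t⟩
      · exact ⟨b'.hA.X 25 t, b'.hA.X_mem_group _ _, by
          rw [hcoe]; simpa [ChevalleyDatum.wordMat, e6p4] using r2 t⟩
      · exact ⟨b'.hA.X 22 t, b'.hA.X_mem_group _ _, by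
          rw [hcoe]; simpa [ChevalleyDatum.wordMat, e6m4] using r3 t⟩
    · simp only [List.mem_cons, List.not_mem_nil, or_false] at hrs
      rcases hrs with rfl | rfl | rfl | rfl
      · exact ⟨b'.hA.X 33 t, b'.hA.X_mem_group _ _, by
          rw [hcoe]; simpa [ChevalleyDatum.wordMat, e6p1, e6p6, mul_assoc] using r6 t⟩
      · exact ⟨b'.hA.X 14 t, b'.hA.X_mem_group _ _, by
          rw [hcoe]; simpa [ChevalleyDatum.wordMat, e6m1, e6m6, mul_assoc] using r7 t⟩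
      · exact ⟨b'.hA.X 27 t, b'.hA.X_mem_group _ _, by
          rw [hcoe]; simpa [ChevalleyDatum.wordMat, e6p3, e6p5, mul_assoc] using r4 t⟩
      · exact ⟨b'.hA.X 20 t, b'.hA.X_mem_group _ _, by
          rw [hcoe]; simpa [ChevalleyDatum.wordMat, e6m3, e6m5, mul_assoc] using r5 t⟩
  · intro i hi t
    have hi' : i = 0 ∨ i = 1 ∨ i = 2 ∨ i = 3 := by
      have : i < 4 := hi
      omega
    obtain ⟨s0, s1, s2, s3, n0, n1, n2, n3⟩ := hs
    rcases hi' with rfl | rfl | rfl | rfl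
    · rw [n0, s0]
      exact ⟨⟨_, pair (e6p1, e6p6) (by simp) t, by simpa [e6p1, e6p6, mul_assoc] using r6 t⟩,
        ⟨_, pair (e6m1, e6m6) (by simp) t, by simpa [e6m1, e6m6, mul_assoc] using r7 t⟩⟩
    · rw [n1, s1]
      exact ⟨⟨_, pair (e6p3, e6p5) (by simp) t, by simpa [e6p3, e6p5, mul_assoc] using r4 t⟩,
        ⟨_, pair (e6m3, e6m5) (by simp) t, by simpa [e6m3, e6m5, mul_assoc] using r5 t⟩⟩
    · rw [n2, s2]
      exact ⟨⟨_, single e6p4 (by simp) t, by simpa [e6p4] using r2 t⟩,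
        ⟨_, single e6m4 (by simp) t, by simpa [e6m4] using r3 t⟩⟩
    · rw [n3, s3]
      exact ⟨⟨_, single e6p2 (by simp) t, by simpa [e6p2] using r0 t⟩,
        ⟨_, single e6m2 (by simp) t, by simpa [e6m2] using r1 t⟩⟩

end Cfsg.Agent.Lib.Helper45
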