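import Cfsg.Agent.Lib.Helper45.TwistD4
import Cfsg.Agent.Lib.Helper45.TwistE6Main

/-!
# Pure graph automorphisms of `D₄(K)` and `E₆(K)`: the setup of `TwistSetup.lean` with trivial field
automorphism.  The group generated by the fixed fundamental root elements is `twistedD4 K 1`
(resp. `twistedE6 K 1`): the prelude definition makes sense for `q = 1`.
-/

set_option autoImplicit false

namespace Cfsg.Agent.Lib.Helper45

open Cfsg.Lie Matrix Cfsg.Agent.Lib.Helper23 Cfsg.Agent.Lib.Helper22 Cfsg.Agent.Lib.Helper8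

variable {K : Type*} [Field K]

/-- triality of `D₄(K)` (no field automorphism) fits into the general setup, `G¹ = twistedD4 K 1`. -/
theorem d4_setup1 (G : GraphConj chevD4 K (bundle_of_mem K memD4).hA rhoD40 gamD40) :
    TwSetup chevD4 K (bundle_of_mem K memD4) (twSigma chevD4 G.P (RingHom.id K)) rhoD4 rhoInvD4
      (fun r t => (gamD4 r : K) * RingHom.id K t) orbsD4 certD4 (twistedD4 K 1) := by
  refine twSetup_graph _ memD4 graphTabD4 ?_ (RingHom.id K) (fun t => ⟨t, rfl⟩) twTabD4 gamOneD4
    (twistedD4_eq _ (RingHom.id K) (fun t => by simp) (fun t => by simp))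
  intro r hr t
  rw [G.conj r hr, (rhoD4_eq r hr).1, (rhoD4_eq r hr).2]

/-- the graph automorphism of `E₆(K)` (no field automorphism) fits into the general setup,
`G¹ = twistedE6 K 1`. -/
theorem e6_setup1 (G : GraphConj chevE6 K (bundle_of_mem K memE6).hA rhoE60 gamE60) :
    TwSetup chevE6 K (bundle_of_mem K memE6) (twSigma chevE6 G.P (RingHom.id K)) rhoE6 rhoInvE6
      (fun r t => (gamE6 r : K) * RingHom.id K t) orbsE6 certE6 (twistedE6 K 1) := by
  refine twSetup_graph _ memE6 graphTabE6 ?_ (RingHom.id K) (fun t => ⟨t, rfl⟩) twTabE6 gamOneE6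
    (twistedE6_eq _ (RingHom.id K) (fun t => by simp) (fun t => by simp))
  intro r hr t
  rw [G.conj r hr, (rhoE6_eq r hr).1, (rhoE6_eq r hr).2]

end Cfsg.Agent.Lib.Helper45
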