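import Mathlib

/-!
Arithmetic behind "the order of a group of Lie type in characteristic `p` is below the cube of its
`p`-part" (helper45).  Everything here is about natural numbers.
-/

set_option autoImplicit false

namespace Cfsg.Agent.Lib.Helper45.OrdBound

open Finset

/-- `q = p ^ f` is a proper power of the prime `p`. -/
structure QP (p q f : ℕ) : Prop where
  hp : p.Prime
  hq : q = p ^ f
  hf : f ≠ 0

namespace QP
variable {p q f : ℕ}

lemma dvd (h : QP p q f) : p ∣ q := by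
  rw [h.hq]; exact dvd_pow_self p h.hf

lemma two_le (h : QP p q f) : 2 ≤ q :=
  le_trans h.hp.two_le (Nat.le_of_dvd (by rw [h.hq]; exact pow_pos h.hp.pos f) h.dvd)

lemma pos (h : QP p q f) : 0 < q := lt_of_lt_of_le (by norm_num) h.two_le

end QP

/-- the two inequalities -/
def Bd (p n : ℕ) : Prop :=
  n < p ^ (3 * n.factorization p) ∧ n ^ 3 < p ^ (8 * n.factorization p)

/-- `M` is prime to `p` and below `q ^ E`. -/
def Fac (p q M E : ℕ) : Prop := ¬ p ∣ M ∧ M < q ^ E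

/-- `M` is prime to `p` and at most `q ^ E`. -/
def FacLe (p q M E : ℕ) : Prop := ¬ p ∣ M ∧ M ≤ q ^ E

variable {p q f : ℕ}

lemma Fac.le {M E : ℕ} (h : Fac p q M E) : FacLe p q M E := ⟨h.1, h.2.le⟩

lemma facLe_one (h : QP p q f) : FacLe p q 1 0 :=
  ⟨fun hd => h.hp.one_lt.ne' (Nat.dvd_one.1 hd), by simp⟩

lemma FacLe.mul (h : QP p q f) {M E M' E' : ℕ} (h1 : FacLe p q M E) (h2 : FacLe p q M' E') :
    FacLe p q (M * M') (E + E') := by
  refine ⟨fun hd => ?_, ?_⟩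
  · rcases (h.hp.dvd_mul).1 hd with hd | hd
    · exact h1.1 hd
    · exact h2.1 hd
  · rw [pow_add]; exact Nat.mul_le_mul h1.2 h2.2

lemma FacLe.mul_fac (h : QP p q f) {M E M' E' : ℕ} (h1 : FacLe p q M E) (h2 : Fac p q M' E') :
    Fac p q (M * M') (E + E') := by
  refine ⟨(FacLe.mul h h1 h2.le).1, ?_⟩
  rw [pow_add]
  exact Nat.mul_lt_mul_of_le_of_lt h1.2 h2.2 (pow_pos h.pos E)

lemma Fac.mul (h : QP p q f) {M E M' E' : ℕ} (h1 : Fac p q M E) (h2 : Fac p q M' E') :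
    Fac p q (M * M') (E + E') := FacLe.mul_fac h h1.le h2

lemma fac_sub (h : QP p q f) {j : ℕ} (hj : j ≠ 0) : Fac p q (q ^ j - 1) j := by
  have hpos : 0 < q ^ j := pow_pos h.pos j
  refine ⟨fun hd => ?_, by omega⟩
  have h1 : p ∣ q ^ j := dvd_trans h.dvd (dvd_pow_self q hj)
  have h2 : p ∣ q ^ j - (q ^ j - 1) := Nat.dvd_sub h1 hd
  have h3 : q ^ j - (q ^ j - 1) = 1 := by omega
  rw [h3] at h2
  exact h.hp.one_lt.ne' (Nat.dvd_one.1 h2)

lemma not_dvd_add_one (h : QP p q f) {x : ℕ} (hx : p ∣ x) : ¬ p ∣ x + 1 := by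
  intro hd
  have h2 : p ∣ 1 := (Nat.dvd_add_right hx).1 hd
  exact h.hp.one_lt.ne' (Nat.dvd_one.1 h2)

lemma fac_add (h : QP p q f) {j : ℕ} (hj : j ≠ 0) : Fac p q (q ^ j + 1) (j + 1) := by
  refine ⟨not_dvd_add_one h (dvd_trans h.dvd (dvd_pow_self q hj)), ?_⟩
  have h2 : 2 ≤ q ^ j := le_trans h.two_le (Nat.le_self_pow hj q)
  have h3 : 2 * q ^ j ≤ q ^ j * q := by
    rw [mul_comm]; exact Nat.mul_le_mul_left _ h.two_le
  rw [pow_succ]
  omega

/-- the sharp bound for a pair `(x - 1) (q x + 1)` -/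
lemma fac_pair (h : QP p q f) {j : ℕ} (hj : j ≠ 0) :
    Fac p q ((q ^ j - 1) * (q ^ (j + 1) + 1)) (j + (j + 1)) := by
  refine ⟨(FacLe.mul h (fac_sub h hj).le (fac_add h (Nat.succ_ne_zero j)).le).1, ?_⟩
  have hpos : 0 < q ^ j := pow_pos h.pos j
  obtain ⟨x, hx⟩ : ∃ x, q ^ j = x + 1 := ⟨q ^ j - 1, by omega⟩
  have hy : q ^ j ≤ q ^ (j + 1) := Nat.pow_le_pow_right h.pos (Nat.le_succ j)
  rw [pow_add q j (j + 1), hx] at *
  simp only [Nat.add_sub_cancel]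
  nlinarith

lemma facLe_prod (h : QP p q f) (a e : ℕ → ℕ) (ha : ∀ i, FacLe p q (a i) (e i)) (m : ℕ) :
    FacLe p q (∏ i ∈ range m, a i) (∑ i ∈ range m, e i) := by
  induction m with
  | zero => simpa using facLe_one h
  | succ m ih =>
    rw [prod_range_succ, sum_range_succ]
    exact FacLe.mul h ih (ha m)

lemma fac_prod (h : QP p q f) (a e : ℕ → ℕ) (ha : ∀ i, Fac p q (a i) (e i)) {m : ℕ} (hm : m ≠ 0) :
    Fac p q (∏ i ∈ range m, a i) (∑ i ∈ range m, e i) := by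
  obtain ⟨m, rfl⟩ := Nat.exists_eq_succ_of_ne_zero hm
  rw [prod_range_succ, sum_range_succ]
  exact FacLe.mul_fac h (facLe_prod h a e (fun i => (ha i).le) m) (ha m)

/-- the core: the `p`-part and the crude bound -/
lemma core (h : QP p q f) {N E d n M : ℕ} (hd : ¬ p ∣ d) (hM : Fac p q M E)
    (he : d * n = q ^ N * M) : n.factorization p = f * N ∧ n < q ^ (N + E) := by
  have hd0 : d ≠ 0 := fun h0 => hd (h0 ▸ dvd_zero p)
  have hM0 : M ≠ 0 := fun h0 => hM.1 (h0 ▸ dvd_zero p)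
  have hq0 : q ^ N ≠ 0 := (pow_pos h.pos N).ne'
  have hn0 : n ≠ 0 := by
    rintro rfl
    rw [mul_zero] at he
    exact (mul_ne_zero hq0 hM0) he.symm
  constructor
  · have h1 : (d * n).factorization p = (q ^ N * M).factorization p := by rw [he]
    rw [Nat.factorization_mul hd0 hn0, Nat.factorization_mul hq0 hM0] at h1
    simp only [Finsupp.add_apply] at h1
    rw [Nat.factorization_eq_zero_of_not_dvd hd, Nat.factorization_eq_zero_of_not_dvd hM.1,
      h.hq, ← pow_mul, h.hp.factorization_pow] at h1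
    simpa using h1
  · calc n ≤ d * n := Nat.le_mul_of_pos_left n (Nat.pos_of_ne_zero hd0)
      _ = q ^ N * M := he
      _ < q ^ N * q ^ E := Nat.mul_lt_mul_of_pos_left hM.2 (pow_pos h.pos N)
      _ = q ^ (N + E) := (pow_add q N E).symm

lemma first_of (h : QP p q f) {N E d n M : ℕ} (hd : ¬ p ∣ d) (hM : Fac p q M E)
    (he : d * n = q ^ N * M) (h1 : E ≤ 2 * N) : n < p ^ (3 * n.factorization p) := by
  obtain ⟨hf, hlt⟩ := core h hd hM he
  rw [hf]
  calc n < q ^ (N + E) := hlt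
    _ ≤ q ^ (3 * N) := Nat.pow_le_pow_right h.pos (by omega)
    _ = p ^ (3 * (f * N)) := by rw [h.hq, ← pow_mul]; congr 1; ring

lemma second_of (h : QP p q f) {N E d n M : ℕ} (hd : ¬ p ∣ d) (hM : Fac p q M E)
    (he : d * n = q ^ N * M) (h2 : 3 * E ≤ 5 * N) : n ^ 3 < p ^ (8 * n.factorization p) := by
  obtain ⟨hf, hlt⟩ := core h hd hM he
  rw [hf]
  calc n ^ 3 < (q ^ (N + E)) ^ 3 := Nat.pow_lt_pow_left hlt (by norm_num)
    _ = q ^ ((N + E) * 3) := (pow_mul q _ 3).symm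
    _ ≤ q ^ (8 * N) := Nat.pow_le_pow_right h.pos (by omega)
    _ = p ^ (8 * (f * N)) := by rw [h.hq, ← pow_mul]; congr 1; ring

lemma bd_of (h : QP p q f) {N E d n M : ℕ} (hd : ¬ p ∣ d) (hM : Fac p q M E)
    (he : d * n = q ^ N * M) (h1 : E ≤ 2 * N) (h2 : 3 * E ≤ 5 * N) : Bd p n :=
  ⟨first_of h hd hM he h1, second_of h hd hM he h2⟩

lemma not_dvd_one (h : QP p q f) : ¬ p ∣ 1 := fun hd => h.hp.one_lt.ne' (Nat.dvd_one.1 hd)

lemma not_dvd_gcd_sub (h : QP p q f) (a : ℕ) {j : ℕ} (hj : j ≠ 0) : ¬ p ∣ Nat.gcd a (q ^ j - 1) :=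
  fun hd => (fac_sub h hj).1 (dvd_trans hd (Nat.gcd_dvd_right _ _))

lemma not_dvd_gcd_add (h : QP p q f) (a : ℕ) {j : ℕ} (hj : j ≠ 0) : ¬ p ∣ Nat.gcd a (q ^ j + 1) :=
  fun hd => (fac_add h hj).1 (dvd_trans hd (Nat.gcd_dvd_right _ _))

end Cfsg.Agent.Lib.Helper45.OrdBound
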