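import Cfsg.Agent.Lib.Helper45.OrdBound

/-!
The order bound for each shape of order formula (helper45).  Natural numbers only.
-/

set_option autoImplicit false

namespace Cfsg.Agent.Lib.Helper45.OrdBound

open Finset

variable {p q f : ℕ}

lemma sum_add_two (k : ℕ) : (∑ i ∈ range k, (i + 1 + 1)) * 2 = k * (k + 3) := by
  induction k with
  | zero => simp
  | succ k ih => rw [sum_range_succ, add_mul, ih]; ring

lemma sum_two_mul (k : ℕ) : ∑ i ∈ range k, 2 * (i + 1) = k * (k + 1) := by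
  induction k with
  | zero => simp
  | succ k ih => rw [sum_range_succ, ih]; ring

lemma sum_pair (k : ℕ) : ∑ i ∈ range k, (2 * i + 2 + (2 * i + 2 + 1)) = 2 * k * k + 3 * k := by
  induction k with
  | zero => simp
  | succ k ih => rw [sum_range_succ, ih]; ring

/-- `∏ (q^n - q^i) = q^(n(n-1)/2) ∏ (q^(i+1) - 1)` -/
lemma prod_gl (q n : ℕ) :
    ∏ i ∈ range n, (q ^ n - q ^ i) = q ^ (∑ i ∈ range n, i) * ∏ i ∈ range n, (q ^ (i + 1) - 1) := by
  rw [← prod_pow_eq_pow_sum, ← prod_range_reflect (fun i => q ^ (i + 1) - 1) n, ← prod_mul_distrib]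
  refine prod_congr rfl fun i hi => ?_
  have hi' : i < n := mem_range.1 hi
  have h1 : n - 1 - i + 1 = n - i := by omega
  rw [h1, Nat.mul_sub, mul_one, ← pow_add]
  congr 2
  omega

lemma psl_red (h : QP p q f) {k c : ℕ}
    (he : Nat.gcd (k + 1) (q - 1) * ((q - 1) * c) = ∏ i : Fin (k + 1), (q ^ (k + 1) - q ^ (i : ℕ))) :
    Nat.gcd (k + 1) (q - 1) * c =
      q ^ (∑ i ∈ range (k + 1), i) * ∏ i ∈ range k, (q ^ (i + 1 + 1) - 1) := by
  rw [Fin.prod_univ_eq_prod_range (fun i => q ^ (k + 1) - q ^ i) (k + 1), prod_gl,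
    prod_range_succ' (fun i => q ^ (i + 1) - 1) k] at he
  have hq1 : 0 < q - 1 := by have := h.two_le; omega
  simp only [zero_add, pow_one] at he
  apply Nat.eq_of_mul_eq_mul_right hq1
  calc Nat.gcd (k + 1) (q - 1) * c * (q - 1) = Nat.gcd (k + 1) (q - 1) * ((q - 1) * c) := by ring
    _ = _ := he
    _ = _ := by ring

lemma not_dvd_gcd_sub' (h : QP p q f) (a : ℕ) : ¬ p ∣ Nat.gcd a (q - 1) := by
  have := not_dvd_gcd_sub h a (j := 1) one_ne_zero
  rwa [pow_one] at this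

lemma not_dvd_gcd_add' (h : QP p q f) (a : ℕ) : ¬ p ∣ Nat.gcd a (q + 1) := by
  have := not_dvd_gcd_add h a (j := 1) one_ne_zero
  rwa [pow_one] at this

lemma psl_fac (h : QP p q f) {k : ℕ} (hk : k ≠ 0) :
    Fac p q (∏ i ∈ range k, (q ^ (i + 1 + 1) - 1)) (∑ i ∈ range k, (i + 1 + 1)) :=
  fac_prod h _ _ (fun i => fac_sub h (Nat.succ_ne_zero _)) hk

/-- `PSL_n`, `n ≥ 3` -/
lemma psl_ge3 (h : QP p q f) {n c : ℕ} (hn : 3 ≤ n)
    (he : Nat.gcd n (q - 1) * ((q - 1) * c) = ∏ i : Fin n, (q ^ n - q ^ (i : ℕ))) : Bd p c := by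
  obtain ⟨k, rfl⟩ : ∃ k, n = k + 1 := ⟨n - 1, by omega⟩
  have hk : 2 ≤ k := by omega
  have h1 := sum_add_two k
  have h2 := sum_range_id_mul_two (k + 1)
  simp only [Nat.add_sub_cancel] at h2
  refine bd_of h (not_dvd_gcd_sub' h _) (psl_fac h (by omega)) (psl_red h he) ?_ ?_
  · nlinarith
  · nlinarith

/-- `PSL_2` -/
lemma psl_two (h : QP p q f) {c : ℕ}
    (he : Nat.gcd 2 (q - 1) * ((q - 1) * c) = ∏ i : Fin 2, (q ^ 2 - q ^ (i : ℕ))) :
    c.factorization p = f ∧ c < p ^ (3 * c.factorization p) := by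
  have h0 := psl_red (k := 1) h he
  have hF := psl_fac h (k := 1) one_ne_zero
  refine ⟨?_, first_of h (not_dvd_gcd_sub' h _) hF h0 (by simp [sum_range_succ])⟩
  have := (core h (not_dvd_gcd_sub' h _) hF h0).1
  simpa [sum_range_succ] using this

lemma sp_fac (h : QP p q f) {m : ℕ} (hm : m ≠ 0) :
    Fac p q (∏ i ∈ range m, (q ^ (2 * (i + 1)) - 1)) (m * (m + 1)) := by
  rw [← sum_two_mul]
  exact fac_prod h _ _ (fun i => fac_sub h (by omega)) hm

/-- `PSp_{2m}`, `PΩ_{2m+1}` -/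
lemma sp_type (h : QP p q f) {m d c : ℕ} (hm : 2 ≤ m) (hd : ¬ p ∣ d)
    (he : d * c = q ^ (m ^ 2) * ∏ i ∈ range m, (q ^ (2 * (i + 1)) - 1)) : Bd p c := by
  refine bd_of h hd (sp_fac h (by omega)) he ?_ ?_
  · nlinarith
  · nlinarith

/-- `PΩ⁺_{2m}` -/
lemma plus_type (h : QP p q f) {m c : ℕ} (hm : 4 ≤ m)
    (he : Nat.gcd 4 (q ^ m - 1) * c =
      q ^ (m * (m - 1)) * (q ^ m - 1) * ∏ i ∈ range (m - 1), (q ^ (2 * (i + 1)) - 1)) : Bd p c := by
  obtain ⟨k, rfl⟩ : ∃ k, m = k + 1 := ⟨m - 1, by omega⟩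
  simp only [Nat.add_sub_cancel] at he
  rw [mul_assoc] at he
  refine bd_of h (not_dvd_gcd_sub h _ (Nat.succ_ne_zero k))
    (Fac.mul h (fac_sub h (Nat.succ_ne_zero k)) (sp_fac h (m := k) (by omega))) he ?_ ?_
  · nlinarith
  · nlinarith

/-- `PΩ⁻_{2m}` -/
lemma minus_type (h : QP p q f) {m c : ℕ} (hm : 4 ≤ m)
    (he : Nat.gcd 4 (q ^ m + 1) * c =
      q ^ (m * (m - 1)) * (q ^ m + 1) * ∏ i ∈ range (m - 1), (q ^ (2 * (i + 1)) - 1)) : Bd p c := by
  obtain ⟨k, rfl⟩ : ∃ k, m = k + 1 := ⟨m - 1, by omega⟩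
  simp only [Nat.add_sub_cancel] at he
  rw [mul_assoc] at he
  refine bd_of h (not_dvd_gcd_add h _ (Nat.succ_ne_zero k))
    (Fac.mul h (fac_add h (Nat.succ_ne_zero k)) (sp_fac h (m := k) (by omega))) he ?_ ?_
  · nlinarith
  · nlinarith

/-- the unitary product, odd length -/
lemma psu_prod_odd (q j : ℕ) :
    ∏ i ∈ range (2 * j + 1), (if Even i then q ^ (i + 1) + 1 else q ^ (i + 1) - 1) =
      (q + 1) * ∏ i ∈ range j, ((q ^ (2 * i + 2) - 1) * (q ^ (2 * i + 2 + 1) + 1)) := by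
  induction j with
  | zero => simp
  | succ j ih =>
    have e : 2 * (j + 1) + 1 = 2 * j + 1 + 1 + 1 := by ring
    rw [e, prod_range_succ, prod_range_succ, ih, prod_range_succ]
    have h1 : ¬ Even (2 * j + 1) := by simp [Nat.even_add_one]
    have h2 : Even (2 * j + 1 + 1) := by simp [Nat.even_add_one]
    rw [if_neg h1, if_pos h2]
    ring

lemma psu_fac (h : QP p q f) {j : ℕ} (hj : j ≠ 0) :
    Fac p q (∏ i ∈ range j, ((q ^ (2 * i + 2) - 1) * (q ^ (2 * i + 2 + 1) + 1)))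
      (2 * j * j + 3 * j) := by
  rw [← sum_pair]
  exact fac_prod h _ _ (fun i => fac_pair h (by omega)) hj

/-- `PSU_n`, `n ≥ 3` -/
lemma psu_type (h : QP p q f) {n c : ℕ} (hn : 3 ≤ n)
    (he : Nat.gcd n (q + 1) * ((q + 1) * c) = q ^ (n * (n - 1) / 2) *
      ∏ i ∈ range n, (if Even i then q ^ (i + 1) + 1 else q ^ (i + 1) - 1)) : Bd p c := by
  have hq1 : 0 < q + 1 := Nat.succ_pos q
  rcases Nat.even_or_odd' n with ⟨j, rfl | rfl⟩
  · -- n = 2 j = 2 (j-1) + 1 + 1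
    obtain ⟨i, rfl⟩ : ∃ i, j = i + 1 := ⟨j - 1, by omega⟩
    have hi : i ≠ 0 := by omega
    have e : 2 * (i + 1) = 2 * i + 1 + 1 := by ring
    have eN : 2 * (i + 1) * (2 * (i + 1) - 1) / 2 = (i + 1) * (2 * i + 1) := by
      have : 2 * (i + 1) * (2 * (i + 1) - 1) = 2 * ((i + 1) * (2 * i + 1)) := by
        have : 2 * (i + 1) - 1 = 2 * i + 1 := by omega
        rw [this]; ring
      rw [this, Nat.mul_div_cancel_left _ (by norm_num)]
    rw [eN] at he
    rw [e, prod_range_succ, psu_prod_odd, if_neg (by simp [Nat.even_add_one])] at he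
    have he' : Nat.gcd (2 * i + 1 + 1) (q + 1) * c = q ^ ((i + 1) * (2 * i + 1)) *
        ((∏ i ∈ range i, ((q ^ (2 * i + 2) - 1) * (q ^ (2 * i + 2 + 1) + 1))) *
          (q ^ (2 * i + 1 + 1) - 1)) := by
      apply Nat.eq_of_mul_eq_mul_right hq1
      calc _ = Nat.gcd (2 * i + 1 + 1) (q + 1) * ((q + 1) * c) := by ring
        _ = _ := he
        _ = _ := by ring
    refine bd_of h (not_dvd_gcd_add' h _)
      (Fac.mul h (psu_fac h hi) (fac_sub h (Nat.succ_ne_zero _))) he' ?_ ?_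
    · nlinarith
    · have : 1 ≤ i := Nat.pos_of_ne_zero hi
      nlinarith
  · have hj : j ≠ 0 := by omega
    have eN : (2 * j + 1) * (2 * j + 1 - 1) / 2 = (2 * j + 1) * j := by
      have : (2 * j + 1) * (2 * j + 1 - 1) = 2 * ((2 * j + 1) * j) := by
        rw [Nat.add_sub_cancel]; ring
      rw [this, Nat.mul_div_cancel_left _ (by norm_num)]
    rw [eN, psu_prod_odd] at he
    have he' : Nat.gcd (2 * j + 1) (q + 1) * c = q ^ ((2 * j + 1) * j) *
        (∏ i ∈ range j, ((q ^ (2 * i + 2) - 1) * (q ^ (2 * i + 2 + 1) + 1))) := by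
      apply Nat.eq_of_mul_eq_mul_right hq1
      calc _ = Nat.gcd (2 * j + 1) (q + 1) * ((q + 1) * c) := by ring
        _ = _ := he
        _ = _ := by ring
    have : 1 ≤ j := Nat.pos_of_ne_zero hj
    refine bd_of h (not_dvd_gcd_add' h _) (psu_fac h hj) he' ?_ ?_
    · nlinarith
    · nlinarith

end Cfsg.Agent.Lib.Helper45.OrdBound
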