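import Mathlib
import Cfsg.Agent.Lib.Helper45.ReflLen

/-!
# Weighted Poincaré series of the reflection groups of `Refl.lean`
-/

set_option autoImplicit false

namespace Cfsg.Agent.Lib.Helper45

open Cfsg.Agent.Lib.Helper8 (wp Red ExCond QFam)

namespace CData

variable {n : ℕ} (D : CData n)

/-- weighted count `∑_{g ∈ A} c g` -/
noncomputable def wtc (c : ((Fin n → ℤ) ≃ₗ[ℤ] (Fin n → ℤ)) → ℕ)
    (A : Set ((Fin n → ℤ) ≃ₗ[ℤ] (Fin n → ℤ))) : ℕ := ∑ᶠ g ∈ A, c g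

/-- `v` lies below `lam` with weight `d` -/
inductive DepW (a : Fin n → ℕ) (J : Set (Fin n)) (lam : Fin n → ℤ) : (Fin n → ℤ) → ℕ → Prop
  | base : DepW a J lam lam 1
  | step {v : Fin n → ℤ} {d : ℕ} {j : Fin n} : j ∈ J → D.co j v < 0 → DepW a J lam (D.s j v) d →
      DepW a J lam v (a j * d)

variable {Φ : Set (Fin n → ℤ)} {c : ((Fin n → ℤ) ≃ₗ[ℤ] (Fin n → ℤ)) → ℕ} {a : Fin n → ℕ}

theorem wtc_Fib (hΦ : D.IsRS Φ)
    (hc : ∀ g ∈ D.Pa id, ∀ j, 0 ≤ g⁻¹ (e j) → c (D.s j * g) = a j * c g)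
    {J : Set (Fin n)} {lam : Fin n → ℤ}
    (hdom : ∀ j ∈ J, 0 ≤ D.co j lam) (hfin : (D.PJ J : Set ((Fin n → ℤ) ≃ₗ[ℤ] (Fin n → ℤ))).Finite)
    {v : Fin n → ℤ} {d : ℕ} (h : D.DepW a J lam v d) :
    wtc c (D.Fib J lam v) = d * wtc c (D.PJ {j ∈ J | D.co j lam = 0}) := by
  induction h with
  | base =>
    rw [one_mul]
    congr 1
    ext g
    constructor
    · rintro ⟨h1, h2⟩
      exact D.mem_PJ_of_fix hΦ hdom h1 h2
    · intro hg
      exact ⟨D.PJ_mono (fun j hj => hj.1) hg, D.fix_of_mem_PJ (fun j hj => hj.2) hg⟩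
  | @step v d j hj hneg _ ih =>
    have himg : D.Fib J lam v = (fun g => D.s j * g) '' D.Fib J lam (D.s j v) := by
      ext g
      constructor
      · rintro ⟨h1, h2⟩
        refine ⟨D.s j * g, ⟨mul_mem (D.s_mem_PJ hj) h1, ?_⟩, ?_⟩
        · rw [LinearEquiv.mul_apply, h2]
        · show D.s j * (D.s j * g) = g
          rw [← mul_assoc, s_mul_self, one_mul]
      · rintro ⟨g', ⟨h1, h2⟩, rfl⟩
        refine ⟨mul_mem (D.s_mem_PJ hj) h1, ?_⟩
        rw [LinearEquiv.mul_apply, h2, s_s]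
    have hlen : ∀ g ∈ D.Fib J lam (D.s j v), c (D.s j * g) = a j * c g := by
      rintro g ⟨h1, h2⟩
      apply hc g (D.PJ_le_Pa J h1)
      have hginv : g⁻¹ ∈ D.PJ J := inv_mem h1
      have hxΦ : g⁻¹ (e j) ∈ Φ := D.Pa_pres _ hΦ ⟨g⁻¹, hginv⟩ (hΦ.simple j)
      rcases hΦ.sign _ hxΦ with h | h
      · exact h
      · exfalso
        have hB := D.B_nonpos hdom hginv hj h
        have h3 : D.B lam (g⁻¹ (e j)) = D.B (D.s j v) (e j) := by
          rw [← h2, ← D.PJ_le_Pa J |>.trans (D.Pa_le_O id) h1 lam (g⁻¹ (e j))]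
          simp
        rw [h3, B_e_right, s_apply, map_sub, map_smul, co_e, D.diag] at hB
        have := D.dpos j
        simp only [smul_eq_mul] at hB
        nlinarith
    rw [wtc, himg, finsum_mem_image (fun a _ b _ hab => mul_left_cancel hab),
      finsum_mem_congr rfl hlen,
      ← mul_finsum_mem' _ _ (hfin.subset fun g (hg : g ∈ D.Fib J lam (D.s j v)) => hg.1),
      mul_assoc, ← ih]
    rfl

/-- One step of the computation of the weighted Poincaré series. -/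
theorem wtc_PJ (hΦ : D.IsRS Φ)
    (hc : ∀ g ∈ D.Pa id, ∀ j, 0 ≤ g⁻¹ (e j) → c (D.s j * g) = a j * c g)
    {J : Set (Fin n)} {lam : Fin n → ℤ}
    (hdom : ∀ j ∈ J, 0 ≤ D.co j lam) (hfin : (D.PJ J : Set ((Fin n → ℤ) ≃ₗ[ℤ] (Fin n → ℤ))).Finite)
    (Y : List ((Fin n → ℤ) × ℕ)) (hnd : (Y.map Prod.fst).Nodup)
    (horb : ∀ v, v ∈ MulAction.orbit (D.PJ J) lam → v ∈ Y.map Prod.fst)
    (hdep : ∀ p ∈ Y, D.DepW a J lam p.1 p.2) :
    wtc c (D.PJ J) = wtc c (D.PJ {j ∈ J | D.co j lam = 0}) * (Y.map fun p => p.2).sum := by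
  classical
  have hU : (D.PJ J : Set ((Fin n → ℤ) ≃ₗ[ℤ] (Fin n → ℤ)))
      = ⋃ v ∈ ((Y.map Prod.fst).toFinset : Set (Fin n → ℤ)), D.Fib J lam v := by
    ext g
    simp only [Set.mem_iUnion, SetLike.mem_coe, List.coe_toFinset, exists_prop]
    constructor
    · intro hg
      exact ⟨g lam, horb _ ⟨⟨g, hg⟩, rfl⟩, hg, rfl⟩
    · rintro ⟨v, _, hg, _⟩
      exact hg
  rw [wtc, hU, finsum_mem_biUnion]
  · rw [finsum_mem_coe_finset, List.sum_toFinset _ hnd, List.map_map, ← List.sum_map_mul_left]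
    congr 1
    apply List.map_congr_left
    intro p hp
    have := D.wtc_Fib hΦ hc hdom hfin (hdep p hp)
    rw [mul_comm] at this
    exact this
  · intro v _ v' _ hne
    rw [Function.onFun, Set.disjoint_left]
    rintro g ⟨_, h1⟩ ⟨_, h2⟩
    exact hne (h1.symm.trans h2)
  · exact Finset.finite_toSet _
  · intro v _
    exact hfin.subset fun g hg => hg.1

lemma wtc_bot : wtc c (D.PJ ∅) = c 1 := by
  rw [PJ_empty, wtc]
  simp

end CData

end Cfsg.Agent.Lib.Helper45
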