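import Mathlib
import Cfsg.Agent.Lib.Helper45.ReflWt
import Cfsg.Agent.Lib.Helper45.ReflLenComp

/-!
# Weighted Poincaré series of finite Coxeter groups from certificates
-/

set_option autoImplicit false

namespace Cfsg.Agent.Lib.Helper45

open Cfsg.Agent.Lib.Helper8 (wp Red ExCond)

namespace LData

variable {n : ℕ} (X : LData n)

/-- flat certificate: every entry (code, weighted depth) has an ascent to an earlier entry -/
def FlatOK (J : List (Fin n)) (k : Fin n → ℕ) : List (ℕ × ℕ) → List (ℕ × ℕ) → Prop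
  | _, [] => True
  | E, p :: rest =>
    (∃ j ∈ J, X.coL j (decL n p.1) < 0 ∧
      ∃ p' ∈ E, decL n p'.1 = X.reflL j (decL n p.1) ∧ p'.2 + k j = p.2) ∧
    FlatOK J k (p :: E) rest

instance flatDec (J : List (Fin n)) (k : Fin n → ℕ) :
    ∀ (E Fl : List (ℕ × ℕ)), Decidable (X.FlatOK J k E Fl)
  | _, [] => inferInstanceAs (Decidable True)
  | E, p :: rest =>
    haveI := flatDec J k (p :: E) rest
    inferInstanceAs (Decidable ((∃ j ∈ J, X.coL j (decL n p.1) < 0 ∧
      ∃ p' ∈ E, decL n p'.1 = X.reflL j (decL n p.1) ∧ p'.2 + k j = p.2) ∧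
      X.FlatOK J k (p :: E) rest))

lemma dep_of_flatOK {J : List (Fin n)} {k : Fin n → ℕ} {lam : List ℤ} (q : ℕ) :
    ∀ (Fl E : List (ℕ × ℕ)), X.FlatOK J k E Fl →
      (∀ p ∈ E, X.toC.DepW (fun j => q ^ k j) {j | j ∈ J} (toV n lam) (toV n (decL n p.1))
        (q ^ p.2)) →
      ∀ p ∈ Fl, X.toC.DepW (fun j => q ^ k j) {j | j ∈ J} (toV n lam) (toV n (decL n p.1)) (q ^ p.2)
  | [], _, _, _ => by intro p hp; simp at hp
  | p₀ :: rest, E, h, hE => by
    have h0 : X.toC.DepW (fun j => q ^ k j) {j | j ∈ J} (toV n lam) (toV n (decL n p₀.1))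
        (q ^ p₀.2) := by
      obtain ⟨j, hj, hneg, p', hp', he, hd⟩ := h.1
      rw [← hd, add_comm, pow_add]
      refine CData.DepW.step (a := fun j => q ^ k j) (j := j) hj (by rw [co_toV]; exact hneg) ?_
      rw [s_toV, ← he]
      exact hE p' hp'
    intro p hp
    rcases List.mem_cons.1 hp with rfl | hp
    · exact h0
    · refine dep_of_flatOK q rest (p₀ :: E) h.2 ?_ p hp
      intro p' hp'
      rcases List.mem_cons.1 hp' with rfl | hp'
      · exact h0
      · exact hE p' hp'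

/-- certificate for the weighted depths in one orbit -/
structure FlatCheck (J : List (Fin n)) (k : Fin n → ℕ) (lam : List ℤ) (C : List ℕ)
    (Fl : List (ℕ × ℕ)) : Prop where
  dec0 : decL n (encL lam) = lam
  ok : X.FlatOK J k [(encL lam, 0)] Fl
  sub : ∀ c ∈ C, memN c (encL lam :: Fl.map Prod.fst) = true
  len : Fl.length + 1 = C.length

instance (J : List (Fin n)) (k : Fin n → ℕ) (lam : List ℤ) (C : List ℕ) (Fl : List (ℕ × ℕ)) :
    Decidable (X.FlatCheck J k lam C Fl) :=
  decidable_of_iff (decL n (encL lam) = lam ∧ X.FlatOK J k [(encL lam, 0)] Fl ∧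
    (∀ c ∈ C, memN c (encL lam :: Fl.map Prod.fst) = true) ∧ Fl.length + 1 = C.length)
    ⟨fun h => ⟨h.1, h.2.1, h.2.2.1, h.2.2.2⟩, fun h => ⟨h.1, h.2, h.3, h.4⟩⟩

variable {Φ : Set (Fin n → ℤ)} {c : ((Fin n → ℤ) ≃ₗ[ℤ] (Fin n → ℤ)) → ℕ}

theorem wtc_step (q : ℕ) (k : Fin n → ℕ) (hΦ : X.toC.IsRS Φ)
    (hc : ∀ g ∈ X.toC.Pa id, ∀ j, 0 ≤ g⁻¹ (CData.e j) → c (X.toC.s j * g) = q ^ k j * c g)
    {J : List (Fin n)} {pw lam : List ℤ} {C : List ℕ}
    {Fl : List (ℕ × ℕ)} (h : X.StepCheckC J pw lam C) (hl : X.FlatCheck J k lam C Fl)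
    (hfin : (X.toC.PJ {j | j ∈ J} : Set ((Fin n → ℤ) ≃ₗ[ℤ] (Fin n → ℤ))).Finite) :
    CData.wtc c (X.toC.PJ {j | j ∈ J}) =
      CData.wtc c (X.toC.PJ {j | j ∈ J.filter fun j : Fin n => X.coL j lam = 0}) *
        (1 + (Fl.map fun p => q ^ p.2).sum) := by
  have hs := h.toStepCheck
  have hdom : ∀ j ∈ {j | j ∈ J}, 0 ≤ X.toC.co j (toV n lam) := by
    intro j hj
    rw [co_toV]; exact h.dom j hj
  have hJ : {j ∈ {j | j ∈ J} | X.toC.co j (toV n lam) = 0}
      = {j | j ∈ J.filter fun j : Fin n => X.coL j lam = 0} := by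
    ext j
    simp [co_toV]
  have hnd := X.nodup_of_step hs
  rw [List.map_map] at hnd
  have hCnd : C.Nodup := List.Nodup.of_map _ hnd
  have hperm : C.Perm (encL lam :: Fl.map Prod.fst) := by
    apply (List.subperm_of_subset hCnd (fun c hc => mem_of_memN (hl.sub c hc))).perm_of_length_le
    rw [List.length_cons, List.length_map, hl.len]
  set Y : List ((Fin n → ℤ) × ℕ) :=
    ((encL lam, 0) :: Fl).map fun p => (toV n (decL n p.1), q ^ p.2) with hY
  have hYfst : Y.map Prod.fst = (encL lam :: Fl.map Prod.fst).map (toV n ∘ decL n) := by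
    rw [hY, List.map_map, ← List.map_cons (f := Prod.fst) (a := (encL lam, 0)), List.map_map]
    rfl
  have := X.toC.wtc_PJ (a := fun j => q ^ k j) hΦ hc hdom hfin Y ?_ ?_ ?_
  · rw [this, hJ]
    congr 1
    rw [hY, List.map_map, List.map_cons, List.sum_cons]
    simp [Function.comp_def]
  · rw [hYfst]
    exact (hperm.map _).nodup_iff.1 hnd
  · intro v hv
    rw [X.orbit_of_step hs] at hv
    simp only [List.coe_toFinset, Set.mem_ofPred_eq, List.map_map] at hv
    rw [hYfst]
    exact (hperm.map _).mem_iff.1 hv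
  · intro p hp
    rw [hY] at hp
    obtain ⟨p', hp', rfl⟩ := List.mem_map.1 hp
    have hbase : X.toC.DepW (fun j => q ^ k j) {j | j ∈ J} (toV n lam)
        (toV n (decL n (encL lam))) (q ^ 0) := by
      rw [hl.dec0, pow_zero]
      exact CData.DepW.base
    rcases List.mem_cons.1 hp' with rfl | hp'
    · exact hbase
    · refine X.dep_of_flatOK q Fl [(encL lam, 0)] hl.ok ?_ p' hp'
      intro p'' hp''
      rw [List.mem_singleton.1 hp'']
      exact hbase

/-- weighted certificates along a chain -/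
def WChainCheck (k : Fin n → ℕ) :
    List (Fin n) → List (List ℤ × List ℤ × List ℕ) → List (List (ℕ × ℕ)) → Prop
  | _, [], _ => True
  | _, _ :: _, [] => False
  | J, (_, lam, C) :: rest, Fl :: lrest =>
    X.FlatCheck J k lam C Fl ∧ WChainCheck k (J.filter fun j : Fin n => X.coL j lam = 0) rest lrest

instance wchainDec (k : Fin n → ℕ) : ∀ (J : List (Fin n)) (c : List (List ℤ × List ℤ × List ℕ))
    (l : List (List (ℕ × ℕ))), Decidable (X.WChainCheck k J c l)
  | _, [], _ => inferInstanceAs (Decidable True)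
  | _, _ :: _, [] => inferInstanceAs (Decidable False)
  | J, (_, lam, C) :: rest, Fl :: lrest =>
    haveI := wchainDec k (J.filter fun j : Fin n => X.coL j lam = 0) rest lrest
    inferInstanceAs (Decidable (X.FlatCheck J k lam C Fl ∧
      X.WChainCheck k (J.filter fun j : Fin n => X.coL j lam = 0) rest lrest))

/-- The weighted Poincaré series from the certificates. -/
theorem wtc_chain (q : ℕ) (k : Fin n → ℕ) (hΦ : X.toC.IsRS Φ)
    (hc : ∀ g ∈ X.toC.Pa id, ∀ j, 0 ≤ g⁻¹ (CData.e j) → c (X.toC.s j * g) = q ^ k j * c g) :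
    ∀ (J : List (Fin n)) (ch : List (List ℤ × List ℤ × List ℕ)) (l : List (List (ℕ × ℕ))),
      X.ChainCheckC J ch → X.WChainCheck k J ch l → ch.length = l.length →
      CData.wtc c (X.toC.PJ {j | j ∈ J}) =
        c 1 * (l.map fun Fl => 1 + (Fl.map fun p => q ^ p.2).sum).prod
  | J, [], [], h, _, _ => by
    have hJ : J = [] := h
    subst hJ
    simpa using X.toC.wtc_bot (c := c)
  | J, [], _ :: _, _, _, hlen => by simp at hlen
  | J, _ :: _, [], _, h, _ => h.elim
  | J, (pw, lam, C) :: rest, Fl :: lrest, h, hl, hlen => by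
    rw [X.wtc_step q k hΦ hc h.1 hl.1 (X.finite_chain hΦ J _ h),
      wtc_chain q k hΦ hc _ rest lrest h.2 hl.2 (by simpa using hlen), List.map_cons,
      List.prod_cons]
    ring

end LData

lemma wp_equiv {W W' ι : Type*} [Group W] [Group W'] (ε : W ≃* W') (f : ι → W) (L : List ι) :
    wp (fun i => ε (f i)) L = ε (wp f L) := by
  induction L with
  | nil => simp
  | cons i L ih => rw [Helper8.wp_cons, Helper8.wp_cons, ih, map_mul]

lemma red_equiv {W W' ι : Type*} [Group W] [Group W'] (ε : W ≃* W') (f : ι → W) (L : List ι) :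
    Red (fun i => ε (f i)) L ↔ Red f L := by
  unfold Red
  simp only [wp_equiv, EmbeddingLike.apply_eq_iff_eq]

namespace LData

variable {n : ℕ} (X : LData n)

/-- The weighted Poincaré series of any group with the exchange condition and the given Coxeter
matrix: `c` is a function multiplicative along reduced words. -/
theorem wsum_eq {C : List ℕ} {M : CoxeterMatrix (Fin n)} (hrs : X.RSCheckC C) (hm : X.MCheck M)
    {ch : List (List ℤ × List ℤ × List ℕ)} (hc : X.ChainCheckC (List.finRange n) ch)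
    (k : Fin n → ℕ) {l : List (List (ℕ × ℕ))} (hl : X.WChainCheck k (List.finRange n) ch l)
    (hlen : ch.length = l.length)
    {W : Type*} [Group W] (f : Fin n → W) (hinv : ∀ i, f i * f i = 1)
    (hgen : ∀ w, ∃ L, wp f L = w) (hex : ExCond f) (hM : ∀ i j, orderOf (f i * f j) = M i j)
    (q : ℕ) (c : W → ℕ)
    (hcw : ∀ i L, Red f (i :: L) → c (wp f (i :: L)) = q ^ k i * c (wp f L)) :
    ∑ᶠ w, c w = c 1 * (l.map fun Fl => 1 + (Fl.map fun p => q ^ p.2).sum).prod := by
  classical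
  have hΦ := X.isRS hrs.toRSCheck
  obtain ⟨e₁, he₁⟩ := coxeter_equiv_of_exchange f hinv hgen hex M hM
  obtain ⟨e₂, he₂⟩ := coxeter_equiv_of_exchange (X.toC.fa id) (X.toC.fa_mul_self id)
    (X.toC.exists_word id) (X.toC.exCond id hΦ) M (fun i j => by
      rw [← X.orderOf_eq hm i j, ← Subgroup.orderOf_coe]
      rfl)
  let ε : ↥(X.toC.Pa id) ≃* W := e₂.symm.trans e₁
  have hε : ∀ i, ε (X.toC.fa id i) = f i := by
    intro i
    show e₁ (e₂.symm (X.toC.fa id i)) = f i
    rw [← he₂ i, MulEquiv.symm_apply_apply, he₁]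
  have hf : f = fun i => ε (X.toC.fa id i) := funext fun i => (hε i).symm
  let c' : ((Fin n → ℤ) ≃ₗ[ℤ] (Fin n → ℤ)) → ℕ :=
    fun g => if h : g ∈ X.toC.Pa id then c (ε ⟨g, h⟩) else 0
  have hc'val : ∀ g : ↥(X.toC.Pa id), c' g = c (ε g) := by
    intro g
    simp only [c', dif_pos g.2]
  have hc' : ∀ g ∈ X.toC.Pa id, ∀ j, 0 ≤ g⁻¹ (CData.e j) → c' (X.toC.s j * g) = q ^ k j * c' g := by
    intro g hg j hpos
    obtain ⟨L, hL, hlen'⟩ := X.toC.exists_len hg
    have hred : Red (X.toC.fa id) L := by rw [CData.red_iff, hL, hlen']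
    have hred' : Red (X.toC.fa id) (j :: L) := by
      by_contra hn
      apply (X.toC.qfam id hΦ).not_mem_of_not_red hred hn
      rw [CData.mem_Qa, Subgroup.coe_inv, CData.coe_wp, hL]
      exact hpos
    have h1 := hcw j L (by rw [hf, red_equiv]; exact hred')
    rw [hf, wp_equiv, wp_equiv] at h1
    have e1 : (wp (X.toC.fa id) L : ↥(X.toC.Pa id)) = ⟨g, hg⟩ :=
      Subtype.ext (by rw [CData.coe_wp, hL])
    have e2 : (wp (X.toC.fa id) (j :: L) : ↥(X.toC.Pa id)) =
        ⟨X.toC.s j * g, mul_mem (X.toC.fa id j).2 hg⟩ :=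
      Subtype.ext (by rw [CData.coe_wp, Helper8.wp_cons, hL])
    rw [e1, e2] at h1
    have h2 := hc'val ⟨g, hg⟩
    have h3 := hc'val ⟨X.toC.s j * g, mul_mem (X.toC.fa id j).2 hg⟩
    simp only at h2 h3
    rw [h2, h3, h1]
  have hsum : ∑ᶠ w, c w = CData.wtc c' (X.toC.PJ Set.univ) := by
    rw [CData.wtc, CData.PJ_univ, ← finsum_set_coe_eq_finsum_mem, ← finsum_comp_equiv ε.toEquiv]
    apply finsum_congr
    intro g
    exact (hc'val g).symm
  have := X.wtc_chain q k hΦ hc' _ ch l hc hl hlen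
  have hu : {j : Fin n | j ∈ List.finRange n} = Set.univ := by ext j; simp
  rw [hu] at this
  rw [hsum, this]
  congr 1
  have := hc'val 1
  simpa using this

end LData

end Cfsg.Agent.Lib.Helper45
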