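import Cfsg.Agent.Lib.Helper45.StEmb

/-!
# The order of the centre of the presented groups of type `E₆`, `E₇`
-/

set_option autoImplicit false
set_option maxRecDepth 100000

namespace Cfsg.Agent.Lib.Helper45

open Cfsg.Lie Matrix Cfsg.Agent.Lib.Helper22 Cfsg.Agent.Lib.Helper23 Cfsg.Agent.Lib.Helper23.StP

variable {D : ChevalleyDatum} {K : Type*} [Field K] {ι : ℕ → ℕ}

/-- `hW c` is central if all characters are trivial -/
theorem hW_mem_center (hD : D ∈ [chevG2, chevB2, chevD4, chevF4, chevE6, chevE7, chevE8])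
    (hA : AddFact D K) {c : ℕ → K} (hc : ∀ i < D.rank, c i ≠ 0)
    (h : ∀ s < D.nroots, ((List.range D.rank).map fun i => c i ^ D.cartan i s).prod = 1) :
    (sysGroup hD hA).hW D.rank c ∈ Subgroup.center (D.SteinbergGroup K) := by
  apply (sysGroup hD hA).ker_le_center hD (stTab_of_mem hD)
  rw [MonoidHom.mem_ker]
  apply center_trivial hD ((sysGroup hD hA).pi_mem_group _)
  intro g hg
  rw [hA.group_eq] at hg
  induction hg using Subgroup.closure_induction with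
  | mem x hx =>
    obtain ⟨r, t, hr, rfl⟩ := hx
    have := (sysGroup hD hA).pi_hW_conj hD le_rfl hc hr t
    rw [h r hr, one_mul, mul_inv_eq_iff_eq_mul] at this
    exact this.symm
  | one => rw [one_mul, mul_one]
  | mul x y _ _ ihx ihy => rw [mul_assoc, ihy, ← mul_assoc, ihx, mul_assoc]
  | inv x _ ih =>
    rw [inv_mul_eq_iff_eq_mul, ← mul_assoc, ih, mul_assoc, mul_inv_cancel, mul_one]

theorem prod_zpow_pow (ω : K) (hω : ω ≠ 0) (l : List ℕ) (k : ℕ → ℕ) (a : ℕ → ℤ) :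
    (l.map fun i => (ω ^ (k i)) ^ (a i)).prod = ω ^ ((l.map fun i => (k i : ℤ) * a i).sum) := by
  induction l with
  | nil => simp
  | cons i l ih =>
    rw [List.map_cons, List.prod_cons, ih, List.map_cons, List.sum_cons, zpow_add₀ hω, _root_.zpow_mul,
      zpow_natCast]

theorem hW_inj (hT : EmbTab D chevE8 ι)
    (hD : D ∈ [chevG2, chevB2, chevD4, chevF4, chevE6, chevE7, chevE8]) (hA : AddFact D K)
    {c c' : ℕ → K} (hc : ∀ i < D.rank, c i ≠ 0) (hc' : ∀ i < D.rank, c' i ≠ 0)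
    (h : (sysGroup hD hA).hW D.rank c = (sysGroup hD hA).hW D.rank c') :
    ∀ i < D.rank, c i = c' i := by
  have h3 := sysGroup_R3 hD hA
  have T := stTab_of_mem hD
  have hi' : ∀ i < D.rank, (c' i)⁻¹ ≠ 0 := fun i hi => inv_ne_zero (hc' i hi)
  have e1 := h3.hW_mul hD T le_rfl hc hi'
  have e2 := h3.hW_mul hD T le_rfl hc' hi'
  have e3 : (sysGroup hD hA).hW D.rank (fun i => c' i * (c' i)⁻¹) = 1 := by
    rw [← (sysGroup hD hA).hW_one D.rank]
    exact (sysGroup hD hA).hW_congr fun i hi => mul_inv_cancel₀ (hc' i hi)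
  rw [h, e2, e3] at e1
  intro i hi
  have := hW_eq_one hT hD hA (fun i hi => mul_ne_zero (hc i hi) (hi' i hi)) e1.symm i hi
  exact (mul_inv_eq_one₀ (hc' i hi)).1 this

theorem card_center_of [Fintype K] (hT : EmbTab D chevE8 ι)
    (hD : D ∈ [chevG2, chevB2, chevD4, chevF4, chevE6, chevE7, chevE8]) (m : ℕ) (k : ℕ → ℕ)
    (i0 : ℕ) (hi0 : i0 < D.rank) (hk0 : k i0 = 1)
    (hsol : ∀ c : ℕ → K, (∀ i < D.rank, c i ≠ 0) →
      (∀ s < D.nroots, ((List.range D.rank).map fun i => c i ^ D.cartan i s).prod = 1) →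
      (c i0) ^ m = 1 ∧ ∀ i < D.rank, c i = (c i0) ^ (k i))
    (hdiv : ∀ s < D.nroots, (m : ℤ) ∣ ((List.range D.rank).map fun i => (k i : ℤ) * D.cartan i s).sum) :
    Nat.card (Subgroup.center (D.SteinbergGroup K)) = Nat.gcd m (Fintype.card K - 1) := by
  classical
  have hA := addFact_of_mem K hD
  have h3 := sysGroup_R3 hD hA
  have T := stTab_of_mem hD
  have hμ : Nat.card (powMonoidHom m : Kˣ →* Kˣ).ker = (Nat.card Kˣ).gcd m :=
    IsCyclic.card_powMonoidHom_ker (G := Kˣ) m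
  have hne : ∀ (ω : Kˣ) (i : ℕ), ((ω : K)) ^ (k i) ≠ 0 := fun ω i => pow_ne_zero _ ω.ne_zero
  have hch : ∀ ω : (powMonoidHom m : Kˣ →* Kˣ).ker, ∀ s < D.nroots,
      ((List.range D.rank).map fun i => (((ω : Kˣ) : K) ^ (k i)) ^ D.cartan i s).prod = 1 := by
    intro ω s hs
    rw [prod_zpow_pow _ (ω : Kˣ).ne_zero]
    obtain ⟨z, hz⟩ := hdiv s hs
    have hω : ((ω : Kˣ) : K) ^ m = 1 := by
      have := ω.2
      rw [MonoidHom.mem_ker, powMonoidHom_apply] at this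
      rw [← Units.val_pow_eq_pow_val, this, Units.val_one]
    rw [hz, _root_.zpow_mul, zpow_natCast, hω, _root_.one_zpow]
  let f : (powMonoidHom m : Kˣ →* Kˣ).ker → Subgroup.center (D.SteinbergGroup K) := fun ω =>
    ⟨(sysGroup hD hA).hW D.rank (fun i => ((ω : Kˣ) : K) ^ (k i)),
      hW_mem_center hD hA (fun i _ => hne ω i) (hch ω)⟩
  have hf : Function.Bijective f := by
    constructor
    · intro ω ω' h
      have h1 := congrArg Subtype.val h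
      have h2 := hW_inj hT hD hA (fun i _ => hne ω i) (fun i _ => hne ω' i) h1 i0 hi0
      rw [hk0, pow_one, pow_one] at h2
      exact Subtype.ext (Units.ext h2)
    · rintro ⟨z, hz⟩
      obtain ⟨c, hc, rfl, hchar⟩ := StSys.R3.center_eq (sysGroup hD hA) hD T h3 hz
      obtain ⟨s1, s2⟩ := hsol c hc hchar
      refine ⟨⟨Units.mk0 (c i0) (hc i0 hi0), ?_⟩, ?_⟩
      · rw [MonoidHom.mem_ker, powMonoidHom_apply]
        apply Units.ext
        rw [Units.val_pow_eq_pow_val, Units.val_mk0, s1, Units.val_one]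
      · apply Subtype.ext
        exact (sysGroup hD hA).hW_congr fun i hi => (s2 i hi).symm
  rw [← Nat.card_congr (Equiv.ofBijective f hf), hμ, Nat.card_eq_fintype_card, Fintype.card_units,
    Nat.gcd_comm]

/-- passage to the additive group of units -/
theorem chars_to_add (c : ℕ → K) (hc : ∀ i < D.rank, c i ≠ 0)
    (h : ∀ s < D.nroots, ((List.range D.rank).map fun i => c i ^ D.cartan i s).prod = 1) :
    ∃ u : ℕ → Kˣ, (∀ i < D.rank, (u i : K) = c i) ∧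
      ∀ s < D.nroots, ((List.range D.rank).map fun i => D.cartan i s • Additive.ofMul (u i)).sum = 0 := by
  classical
  let u : ℕ → Kˣ := fun i => if hi : c i ≠ 0 then Units.mk0 (c i) hi else 1
  have hu : ∀ i < D.rank, (u i : K) = c i := by
    intro i hi
    simp only [u, dif_pos (hc i hi), Units.val_mk0]
  have h' : ∀ s < D.nroots, ((List.range D.rank).map fun i => u i ^ D.cartan i s).prod = 1 := by
    intro s hs
    apply Units.ext
    rw [Units.val_one, ← h s hs, ← Units.coeHom_apply, map_list_prod, List.map_map]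
    congr 1
    apply List.map_congr_left
    intro i hi
    simp only [Function.comp, Units.coeHom_apply, Units.val_zpow_eq_zpow_val, hu i (List.mem_range.1 hi)]
  refine ⟨u, hu, ?_⟩
  intro s hs
  have := congrArg Additive.ofMul (h' s hs)
  rw [ofMul_list_prod, List.map_map] at this
  exact this

theorem sol_back {n m i0 : ℕ} {k : ℕ → ℕ} {c : ℕ → K} {u : ℕ → Kˣ} (hu : ∀ i < n, (u i : K) = c i)
    (hi0 : i0 < n)
    (h : m • Additive.ofMul (u i0) = 0 ∧ ∀ i < n, Additive.ofMul (u i) = (k i) • Additive.ofMul (u i0)) :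
    (c i0) ^ m = 1 ∧ ∀ i < n, c i = (c i0) ^ (k i) := by
  constructor
  · have h1 : (u i0) ^ m = 1 := h.1
    rw [← hu i0 hi0, ← Units.val_pow_eq_pow_val, h1, Units.val_one]
  · intro i hi
    have h1 : u i = (u i0) ^ (k i) := h.2 i hi
    rw [← hu i hi, ← hu i0 hi0, h1, Units.val_pow_eq_pow_val]

theorem solE6 {G : Type*} [AddCommGroup G] (x : ℕ → G)
    (h0 : ((2 : ℤ) • x 0) + (((0 : ℤ) • x 1) + (((-1 : ℤ) • x 2) + (((0 : ℤ) • x 3) + (((0 : ℤ) • x 4) + (((0 : ℤ) • x 5) + ((0))))))) = 0)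
    (h1 : ((0 : ℤ) • x 0) + (((2 : ℤ) • x 1) + (((0 : ℤ) • x 2) + (((-1 : ℤ) • x 3) + (((0 : ℤ) • x 4) + (((0 : ℤ) • x 5) + ((0))))))) = 0)
    (h2 : ((-1 : ℤ) • x 0) + (((0 : ℤ) • x 1) + (((2 : ℤ) • x 2) + (((-1 : ℤ) • x 3) + (((0 : ℤ) • x 4) + (((0 : ℤ) • x 5) + ((0))))))) = 0)
    (h3 : ((0 : ℤ) • x 0) + (((-1 : ℤ) • x 1) + (((-1 : ℤ) • x 2) + (((2 : ℤ) • x 3) + (((-1 : ℤ) • x 4) + (((0 : ℤ) • x 5) + ((0))))))) = 0)
    (h4 : ((0 : ℤ) • x 0) + (((0 : ℤ) • x 1) + (((0 : ℤ) • x 2) + (((-1 : ℤ) • x 3) + (((2 : ℤ) • x 4) + (((-1 : ℤ) • x 5) + ((0))))))) = 0)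
    (h5 : ((0 : ℤ) • x 0) + (((0 : ℤ) • x 1) + (((0 : ℤ) • x 2) + (((0 : ℤ) • x 3) + (((-1 : ℤ) • x 4) + (((2 : ℤ) • x 5) + ((0))))))) = 0)
    : (3 : ℕ) • x 0 = 0 ∧ ∀ i < 6, x i = (([1, 0, 2, 0, 1, 2] : List ℕ).getD i 0) • x 0 := by
  refine ⟨by linear_combination (norm := module) ((4 : ℤ) • h0) + ((3 : ℤ) • h1) + ((5 : ℤ) • h2) + ((6 : ℤ) • h3) + ((4 : ℤ) • h4) + ((2 : ℤ) • h5), ?_⟩
  intro i hi
  interval_cases i
  · show x 0 = (1 : ℕ) • x 0
    linear_combination (norm := module) ((0 : ℤ) • h0) + ((0 : ℤ) • h1) + ((0 : ℤ) • h2) + ((0 : ℤ) • h3) + ((0 : ℤ) • h4) + ((0 : ℤ) • h5)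
  · show x 1 = (0 : ℕ) • x 0
    linear_combination (norm := module) ((1 : ℤ) • h0) + ((2 : ℤ) • h1) + ((2 : ℤ) • h2) + ((3 : ℤ) • h3) + ((2 : ℤ) • h4) + ((1 : ℤ) • h5)
  · show x 2 = (2 : ℕ) • x 0
    linear_combination (norm := module) ((-1 : ℤ) • h0) + ((0 : ℤ) • h1) + ((0 : ℤ) • h2) + ((0 : ℤ) • h3) + ((0 : ℤ) • h4) + ((0 : ℤ) • h5)
  · show x 3 = (0 : ℕ) • x 0
    linear_combination (norm := module) ((2 : ℤ) • h0) + ((3 : ℤ) • h1) + ((4 : ℤ) • h2) + ((6 : ℤ) • h3) + ((4 : ℤ) • h4) + ((2 : ℤ) • h5)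
  · show x 4 = (1 : ℕ) • x 0
    linear_combination (norm := module) ((0 : ℤ) • h0) + ((1 : ℤ) • h1) + ((1 : ℤ) • h2) + ((2 : ℤ) • h3) + ((2 : ℤ) • h4) + ((1 : ℤ) • h5)
  · show x 5 = (2 : ℕ) • x 0
    linear_combination (norm := module) ((-2 : ℤ) • h0) + ((-1 : ℤ) • h1) + ((-2 : ℤ) • h2) + ((-2 : ℤ) • h3) + ((-1 : ℤ) • h4) + ((0 : ℤ) • h5)

theorem solE7 {G : Type*} [AddCommGroup G] (x : ℕ → G)
    (h0 : ((2 : ℤ) • x 0) + (((0 : ℤ) • x 1) + (((-1 : ℤ) • x 2) + (((0 : ℤ) • x 3) + (((0 : ℤ) • x 4) + (((0 : ℤ) • x 5) + (((0 : ℤ) • x 6) + ((0)))))))) = 0)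
    (h1 : ((0 : ℤ) • x 0) + (((2 : ℤ) • x 1) + (((0 : ℤ) • x 2) + (((-1 : ℤ) • x 3) + (((0 : ℤ) • x 4) + (((0 : ℤ) • x 5) + (((0 : ℤ) • x 6) + ((0)))))))) = 0)
    (h2 : ((-1 : ℤ) • x 0) + (((0 : ℤ) • x 1) + (((2 : ℤ) • x 2) + (((-1 : ℤ) • x 3) + (((0 : ℤ) • x 4) + (((0 : ℤ) • x 5) + (((0 : ℤ) • x 6) + ((0)))))))) = 0)
    (h3 : ((0 : ℤ) • x 0) + (((-1 : ℤ) • x 1) + (((-1 : ℤ) • x 2) + (((2 : ℤ) • x 3) + (((-1 : ℤ) • x 4) + (((0 : ℤ) • x 5) + (((0 : ℤ) • x 6) + ((0)))))))) = 0)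
    (h4 : ((0 : ℤ) • x 0) + (((0 : ℤ) • x 1) + (((0 : ℤ) • x 2) + (((-1 : ℤ) • x 3) + (((2 : ℤ) • x 4) + (((-1 : ℤ) • x 5) + (((0 : ℤ) • x 6) + ((0)))))))) = 0)
    (h5 : ((0 : ℤ) • x 0) + (((0 : ℤ) • x 1) + (((0 : ℤ) • x 2) + (((0 : ℤ) • x 3) + (((-1 : ℤ) • x 4) + (((2 : ℤ) • x 5) + (((-1 : ℤ) • x 6) + ((0)))))))) = 0)
    (h6 : ((0 : ℤ) • x 0) + (((0 : ℤ) • x 1) + (((0 : ℤ) • x 2) + (((0 : ℤ) • x 3) + (((0 : ℤ) • x 4) + (((-1 : ℤ) • x 5) + (((2 : ℤ) • x 6) + ((0)))))))) = 0)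
    : (2 : ℕ) • x 1 = 0 ∧ ∀ i < 7, x i = (([0, 1, 0, 0, 1, 0, 1] : List ℕ).getD i 0) • x 1 := by
  refine ⟨by linear_combination (norm := module) ((4 : ℤ) • h0) + ((7 : ℤ) • h1) + ((8 : ℤ) • h2) + ((12 : ℤ) • h3) + ((9 : ℤ) • h4) + ((6 : ℤ) • h5) + ((3 : ℤ) • h6), ?_⟩
  intro i hi
  interval_cases i
  · show x 0 = (0 : ℕ) • x 1
    linear_combination (norm := module) ((2 : ℤ) • h0) + ((2 : ℤ) • h1) + ((3 : ℤ) • h2) + ((4 : ℤ) • h3) + ((3 : ℤ) • h4) + ((2 : ℤ) • h5) + ((1 : ℤ) • h6)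
  · show x 1 = (1 : ℕ) • x 1
    linear_combination (norm := module) ((0 : ℤ) • h0) + ((0 : ℤ) • h1) + ((0 : ℤ) • h2) + ((0 : ℤ) • h3) + ((0 : ℤ) • h4) + ((0 : ℤ) • h5) + ((0 : ℤ) • h6)
  · show x 2 = (0 : ℕ) • x 1
    linear_combination (norm := module) ((3 : ℤ) • h0) + ((4 : ℤ) • h1) + ((6 : ℤ) • h2) + ((8 : ℤ) • h3) + ((6 : ℤ) • h4) + ((4 : ℤ) • h5) + ((2 : ℤ) • h6)
  · show x 3 = (0 : ℕ) • x 1
    linear_combination (norm := module) ((4 : ℤ) • h0) + ((6 : ℤ) • h1) + ((8 : ℤ) • h2) + ((12 : ℤ) • h3) + ((9 : ℤ) • h4) + ((6 : ℤ) • h5) + ((3 : ℤ) • h6)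
  · show x 4 = (1 : ℕ) • x 1
    linear_combination (norm := module) ((1 : ℤ) • h0) + ((1 : ℤ) • h1) + ((2 : ℤ) • h2) + ((3 : ℤ) • h3) + ((3 : ℤ) • h4) + ((2 : ℤ) • h5) + ((1 : ℤ) • h6)
  · show x 5 = (0 : ℕ) • x 1
    linear_combination (norm := module) ((2 : ℤ) • h0) + ((3 : ℤ) • h1) + ((4 : ℤ) • h2) + ((6 : ℤ) • h3) + ((5 : ℤ) • h4) + ((4 : ℤ) • h5) + ((2 : ℤ) • h6)
  · show x 6 = (1 : ℕ) • x 1
    linear_combination (norm := module) ((-1 : ℤ) • h0) + ((-2 : ℤ) • h1) + ((-2 : ℤ) • h2) + ((-3 : ℤ) • h3) + ((-2 : ℤ) • h4) + ((-1 : ℤ) • h5) + ((0 : ℤ) • h6)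

theorem card_center_E6 [Fintype K] :
    Nat.card (Subgroup.center (chevE6.SteinbergGroup K)) = Nat.gcd 3 (Fintype.card K - 1) := by
  refine card_center_of embTabE6 (by simp) 3 (fun i => ([1, 0, 2, 0, 1, 2] : List ℕ).getD i 0) 0
    (by decide +kernel) rfl ?_ (by decide +kernel)
  intro c hc h
  obtain ⟨u, hu, h''⟩ := chars_to_add c hc h
  refine sol_back (n := chevE6.rank) hu (by decide +kernel) ?_
  let x : ℕ → Additive Kˣ := fun i => Additive.ofMul (u i)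
  exact solE6 x
      ((sum_row 6 (fun i => chevE6.cartan i (chevE6.simple 0)) x [2, 0, -1, 0, 0, 0] (by decide +kernel)).symm.trans (h'' (chevE6.simple 0) (by decide +kernel)))
      ((sum_row 6 (fun i => chevE6.cartan i (chevE6.simple 1)) x [0, 2, 0, -1, 0, 0] (by decide +kernel)).symm.trans (h'' (chevE6.simple 1) (by decide +kernel)))
      ((sum_row 6 (fun i => chevE6.cartan i (chevE6.simple 2)) x [-1, 0, 2, -1, 0, 0] (by decide +kernel)).symm.trans (h'' (chevE6.simple 2) (by decide +kernel)))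
      ((sum_row 6 (fun i => chevE6.cartan i (chevE6.simple 3)) x [0, -1, -1, 2, -1, 0] (by decide +kernel)).symm.trans (h'' (chevE6.simple 3) (by decide +kernel)))
      ((sum_row 6 (fun i => chevE6.cartan i (chevE6.simple 4)) x [0, 0, 0, -1, 2, -1] (by decide +kernel)).symm.trans (h'' (chevE6.simple 4) (by decide +kernel)))
      ((sum_row 6 (fun i => chevE6.cartan i (chevE6.simple 5)) x [0, 0, 0, 0, -1, 2] (by decide +kernel)).symm.trans (h'' (chevE6.simple 5) (by decide +kernel)))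

theorem card_center_E7 [Fintype K] :
    Nat.card (Subgroup.center (chevE7.SteinbergGroup K)) = Nat.gcd 2 (Fintype.card K - 1) := by
  refine card_center_of embTabE7 (by simp) 2 (fun i => ([0, 1, 0, 0, 1, 0, 1] : List ℕ).getD i 0) 1
    (by decide +kernel) rfl ?_ (by decide +kernel)
  intro c hc h
  obtain ⟨u, hu, h''⟩ := chars_to_add c hc h
  refine sol_back (n := chevE7.rank) hu (by decide +kernel) ?_
  let x : ℕ → Additive Kˣ := fun i => Additive.ofMul (u i)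
  exact solE7 x
      ((sum_row 7 (fun i => chevE7.cartan i (chevE7.simple 0)) x [2, 0, -1, 0, 0, 0, 0] (by decide +kernel)).symm.trans (h'' (chevE7.simple 0) (by decide +kernel)))
      ((sum_row 7 (fun i => chevE7.cartan i (chevE7.simple 1)) x [0, 2, 0, -1, 0, 0, 0] (by decide +kernel)).symm.trans (h'' (chevE7.simple 1) (by decide +kernel)))
      ((sum_row 7 (fun i => chevE7.cartan i (chevE7.simple 2)) x [-1, 0, 2, -1, 0, 0, 0] (by decide +kernel)).symm.trans (h'' (chevE7.simple 2) (by decide +kernel)))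
      ((sum_row 7 (fun i => chevE7.cartan i (chevE7.simple 3)) x [0, -1, -1, 2, -1, 0, 0] (by decide +kernel)).symm.trans (h'' (chevE7.simple 3) (by decide +kernel)))
      ((sum_row 7 (fun i => chevE7.cartan i (chevE7.simple 4)) x [0, 0, 0, -1, 2, -1, 0] (by decide +kernel)).symm.trans (h'' (chevE7.simple 4) (by decide +kernel)))
      ((sum_row 7 (fun i => chevE7.cartan i (chevE7.simple 5)) x [0, 0, 0, 0, -1, 2, -1] (by decide +kernel)).symm.trans (h'' (chevE7.simple 5) (by decide +kernel)))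
      ((sum_row 7 (fun i => chevE7.cartan i (chevE7.simple 6)) x [0, 0, 0, 0, 0, -1, 2] (by decide +kernel)).symm.trans (h'' (chevE7.simple 6) (by decide +kernel)))

end Cfsg.Agent.Lib.Helper45
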