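import Cfsg.Agent.Lib.Helper45.StEmbTab

/-!
# The homomorphism from the presented group of a subsystem to the big Chevalley group;
injectivity of the torus parametrisation in the presented groups of type `E₆`, `E₇`
-/

set_option autoImplicit false

namespace Cfsg.Agent.Lib.Helper45

open Cfsg.Lie Matrix Cfsg.Agent.Lib.Helper22 Cfsg.Agent.Lib.Helper23 Cfsg.Agent.Lib.Helper23.StP

variable {D E : ChevalleyDatum} {K : Type*} [Field K] {ι : ℕ → ℕ}

/-- the images of the generators -/
noncomputable def embX (D : ChevalleyDatum) (hAE : AddFact E K) (ι : ℕ → ℕ) (r : ℕ) (t : K) :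
    GL E.Idx K :=
  if r < D.nroots then hAE.X (ι r) t else 1

noncomputable def embF (D : ChevalleyDatum) (hAE : AddFact E K) (ι : ℕ → ℕ) :
    Fin D.nroots × K → GL E.Idx K := fun x => hAE.X (ι x.1) x.2

theorem emb_lift_stX (hAE : AddFact E K) (r : ℕ) (t : K) :
    FreeGroup.lift (embF D hAE ι) (D.stX r t) = embX D hAE ι r t := by
  unfold ChevalleyDatum.stX embX
  by_cases h : r < D.nroots
  · rw [dif_pos h, if_pos h, FreeGroup.lift_apply_of]; rfl
  · rw [dif_neg h, if_neg h, map_one]

theorem emb_lift_stWord (hAE : AddFact E K) (w : List (ℕ × K)) :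
    FreeGroup.lift (embF D hAE ι) (D.stWord w) = WW (embX D hAE ι) w := by
  unfold ChevalleyDatum.stWord WW
  rw [map_list_prod, List.map_map]
  congr 1
  apply List.map_congr_left
  intro p _
  exact emb_lift_stX hAE p.1 p.2

theorem embX_of_lt (hAE : AddFact E K) {r : ℕ} (hr : r < D.nroots) (t : K) :
    embX D hAE ι r t = hAE.X (ι r) t := if_pos hr

theorem WW_embX (hAE : AddFact E K) {w : List (ℕ × K)} (hw : ∀ p ∈ w, p.1 < D.nroots) :
    WW (embX D hAE ι) w = WW hAE.X (w.map fun p => (ι p.1, p.2)) := by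
  unfold WW
  rw [List.map_map]
  congr 1
  apply List.map_congr_left
  intro p hp
  exact embX_of_lt hAE (hw p hp) p.2

theorem emb_hWord (hT : EmbTab D E ι) (hR : RootFacts D) (hAE : AddFact E K) {r : ℕ}
    (hr : r < D.nroots) (t : K) : WW (embX D hAE ι) (D.hWord r t) = hAE.hG (ι r) t := by
  have hn := hR.neg_lt hr
  rw [WW_embX hAE (by
    intro p hp
    simp only [ChevalleyDatum.hWord, ChevalleyDatum.nWord, List.cons_append, List.nil_append,
      List.mem_cons, List.not_mem_nil, or_false] at hp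
    rcases hp with rfl | rfl | rfl | rfl | rfl | rfl <;> assumption), ← hAE.W_hWord, W_eq_WW]
  congr 1
  simp only [ChevalleyDatum.hWord, ChevalleyDatum.nWord, List.cons_append, List.nil_append,
    List.map_cons, List.map_nil, hT.neg r hr]

theorem emb_rels (hT : EmbTab D E ι) (hR : RootFacts D)
    (hE : E ∈ [chevG2, chevB2, chevD4, chevF4, chevE6, chevE7, chevE8]) (hAE : AddFact E K) :
    ∀ g ∈ D.steinbergRels K, FreeGroup.lift (embF D hAE ι) g = 1 := by
  rintro g ((⟨r, t₁, t₂, hr, rfl⟩ | ⟨r, s, t, u, hr, hs, h1, h2, rfl⟩) | ⟨r, t₁, t₂, hr, h1, h2, rfl⟩)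
  · simp only [map_mul, map_inv, emb_lift_stX, embX_of_lt hAE hr, hAE.X_add, mul_inv_cancel]
  · simp only [map_mul, map_inv, emb_lift_stX, emb_lift_stWord, embX_of_lt hAE hr,
      embX_of_lt hAE hs]
    have e2 : ι s ≠ E.neg (ι r) := by
      rw [← hT.neg r hr]
      exact hT.ne _ (hR.neg_lt hr) s hs h2
    rw [comm_G hE hAE (hT.lt r hr) (hT.lt s hs) (hT.ne r hr s hs h1) e2, WW_embX hAE (by
      intro p hp
      obtain ⟨c, hc, e⟩ := StSys.mem_commWord hp
      rw [e]
      exact hT.ctlt r hr s hs h1 h2 c hc), mul_inv_eq_one]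
    congr 1
    unfold ChevalleyDatum.commWord
    rw [hT.ct r hr s hs h1 h2, List.map_map, List.map_map]
    rfl
  · simp only [map_mul, map_inv, ChevalleyDatum.stH, emb_lift_stWord, emb_hWord hT hR hAE hr]
    rw [hmul_root hE hAE (hT.lt r hr) h1 h2, mul_inv_cancel]

/-- the homomorphism of the presented group of the subsystem to the big group -/
noncomputable def embHom (hT : EmbTab D E ι) (hR : RootFacts D)
    (hE : E ∈ [chevG2, chevB2, chevD4, chevF4, chevE6, chevE7, chevE8]) (hAE : AddFact E K) :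
    D.SteinbergGroup K →* GL E.Idx K :=
  PresentedGroup.toGroup (f := embF D hAE ι) (emb_rels hT hR hE hAE)

theorem embHom_mk (hT : EmbTab D E ι) (hR : RootFacts D)
    (hE : E ∈ [chevG2, chevB2, chevD4, chevF4, chevE6, chevE7, chevE8]) (hAE : AddFact E K)
    (g : FreeGroup (Fin D.nroots × K)) :
    embHom hT hR hE hAE (PresentedGroup.mk (D.steinbergRels K) g) =
      FreeGroup.lift (embF D hAE ι) g := rfl

theorem embHom_hB (hT : EmbTab D E ι)
    (hD : D ∈ [chevG2, chevB2, chevD4, chevF4, chevE6, chevE7, chevE8])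
    (hE : E ∈ [chevG2, chevB2, chevD4, chevF4, chevE6, chevE7, chevE8]) (hAD : AddFact D K)
    (hAE : AddFact E K) {r : ℕ} (hr : r < D.nroots) (t : K) :
    embHom hT (rootFacts_of_mem hD) hE hAE ((sysGroup hD hAD).hB r t) = hAE.hG (ι r) t := by
  rw [← sysGroup_hB hD hAD, embHom_mk, ChevalleyDatum.stH, emb_lift_stWord,
    emb_hWord hT (rootFacts_of_mem hD) hAE hr]

theorem embHom_hW (hT : EmbTab D E ι)
    (hD : D ∈ [chevG2, chevB2, chevD4, chevF4, chevE6, chevE7, chevE8])
    (hE : E ∈ [chevG2, chevB2, chevD4, chevF4, chevE6, chevE7, chevE8]) (hAD : AddFact D K)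
    (hAE : AddFact E K) {n : ℕ} (hn : n ≤ D.rank) (c : ℕ → K) :
    embHom hT (rootFacts_of_mem hD) hE hAE ((sysGroup hD hAD).hW n c) =
      (sysGroup hE hAE).π ((sysGroup hE hAE).hW n c) := by
  induction n with
  | zero => simp [StSys.hW_zero]
  | succ n ih =>
    rw [StSys.hW_succ, StSys.hW_succ, map_mul, map_mul, ih (by omega), StSys.pi_hB,
      embHom_hB hT hD hE hAD hAE ((rootFacts_of_mem hD).simple_lt (by omega)), hT.sim n (by omega)]

theorem hW_ext {Γ : Type*} [Group Γ] {hA : AddFact D K} (S : StSys D K hA Γ) (n m : ℕ) (c : ℕ → K) :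
    S.hW (n + m) (fun i => if i < n then c i else 1) = S.hW n c := by
  induction m with
  | zero => exact S.hW_congr fun i hi => if_pos hi
  | succ m ih =>
    rw [← add_assoc, StSys.hW_succ, ih, if_neg (by omega), S.hB_one, mul_one]

/-- the torus parametrisation of the presented group of a subsystem of `E₈` is injective -/
theorem hW_eq_one (hT : EmbTab D chevE8 ι)
    (hD : D ∈ [chevG2, chevB2, chevD4, chevF4, chevE6, chevE7, chevE8]) (hAD : AddFact D K)
    {c : ℕ → K} (hc : ∀ i < D.rank, c i ≠ 0) (h : (sysGroup hD hAD).hW D.rank c = 1) :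
    ∀ i < D.rank, c i = 1 := by
  have hE : chevE8 ∈ [chevG2, chevB2, chevD4, chevF4, chevE6, chevE7, chevE8] := by simp
  have hAE := addFact_of_mem K hE
  have h1 := embHom_hW hT hD hE hAD hAE le_rfl c
  rw [h, map_one] at h1
  obtain ⟨m, hm⟩ := Nat.exists_eq_add_of_le hT.rank
  rw [← hW_ext (sysGroup hE hAE) D.rank m c, ← hm] at h1
  have hc' : ∀ i < chevE8.rank, (fun i => if i < D.rank then c i else 1) i ≠ 0 := by
    intro i _
    by_cases hi : i < D.rank
    · simp only [if_pos hi]; exact hc i hi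
    · simp only [if_neg hi]; exact one_ne_zero
  have h2 := (sysGroup hE hAE).char_of_pi_hW hE hc' h1.symm
  have h3 := cartan_unimod (D := chevE8) (by simp) _ hc' h2
  intro i hi
  have := h3 i (lt_of_lt_of_le hi hT.rank)
  simpa only [if_pos hi] using this

end Cfsg.Agent.Lib.Helper45
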