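import Cfsg.Agent.Lib.Helper23.StLat

/-!
# The subsystem embeddings `E₆, E₇ ⊂ E₈` on the level of Steinberg's presentation
-/

set_option autoImplicit false
set_option maxRecDepth 1000000
set_option maxHeartbeats 0

namespace Cfsg.Agent.Lib.Helper45

open Cfsg.Lie Cfsg.Agent.Lib.Helper22 Cfsg.Agent.Lib.Helper23 Cfsg.Agent.Lib.Helper23.StP

/-- an embedding of root systems compatible with the structure constants -/
structure EmbTab (D E : ChevalleyDatum) (ι : ℕ → ℕ) : Prop where
  lt : ∀ r < D.nroots, ι r < E.nroots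
  neg : ∀ r < D.nroots, ι (D.neg r) = E.neg (ι r)
  ne : ∀ r < D.nroots, ∀ s < D.nroots, s ≠ r → ι s ≠ ι r
  ct : ∀ r < D.nroots, ∀ s < D.nroots, s ≠ r → s ≠ D.neg r →
    E.commTerms (ι r) (ι s) = (D.commTerms r s).map fun c => (ι c.1, c.2)
  ctlt : ∀ r < D.nroots, ∀ s < D.nroots, s ≠ r → s ≠ D.neg r → ∀ c ∈ D.commTerms r s, c.1 < D.nroots
  sim : ∀ i < D.rank, ι (D.simple i) = E.simple i
  rank : D.rank ≤ E.rank

noncomputable def embRow (ct ct' : ℕ → ℕ → List (ℕ × ℤ × ℕ × ℕ)) (n n' IO r : ℕ) : Bool :=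
  Nat.blt (sLook IO r) n' && Nat.beq (sLook IO (Nat.sub (Nat.sub n 1) r)) (Nat.sub (Nat.sub n' 1) (sLook IO r))
    && allBelow n fun s => Nat.beq s r || (!Nat.beq (sLook IO s) (sLook IO r) &&
      (Nat.beq (Nat.add r s) (Nat.sub n 1) ||
        (decide (ct' (sLook IO r) (sLook IO s) = (ct r s).map fun c => (sLook IO c.1, c.2)) &&
          (ct r s).all fun c => Nat.blt c.1 n)))

theorem embRow_iff {ct ct' : ℕ → ℕ → List (ℕ × ℤ × ℕ × ℕ)} {n n' IO r : ℕ} :
    embRow ct ct' n n' IO r = true ↔ sLook IO r < n' ∧ sLook IO (n - 1 - r) = n' - 1 - sLook IO r ∧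
      ∀ s < n, s = r ∨ (sLook IO s ≠ sLook IO r ∧ (r + s = n - 1 ∨
        (ct' (sLook IO r) (sLook IO s) = (ct r s).map (fun c => (sLook IO c.1, c.2)) ∧
          ∀ c ∈ ct r s, c.1 < n))) := by
  simp only [embRow, Bool.and_eq_true, Bool.or_eq_true, allBelow_iff, Nat.blt_eq, Nat.beq_eq,
    Nat.add_eq, Nat.sub_eq, decide_eq_true_eq, List.all_eq_true, and_assoc, Bool.not_eq_true',
    ne_eq]
  have hb : ∀ x y : ℕ, Nat.beq x y = false ↔ ¬ x = y := by
    intro x y
    constructor
    · intro h e
      rw [e] at h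
      simp at h
    · intro h
      cases h' : Nat.beq x y
      · rfl
      · exact absurd (Nat.eq_of_beq_eq_true h') h
  simp only [hb]

theorem embTab_of_chk {T T' : Tb} {NT SI NT' SI' IO : ℕ} {D E : ChevalleyDatum} (V : T.Valid D)
    (V' : T'.Valid E) (W : NValid T NT SI D) (W' : NValid T' NT' SI' E)
    (hsz : D.chain.size = T.n) (hsz' : E.chain.size = T'.n) (hL : T.L = 1) (hL' : T'.L = 1)
    (hc : allBelow T.n (embRow (ct1 T) (ct1 T') T.n T'.n IO) = true)
    (hs : allBelow T.l (fun i => Nat.beq (sLook IO (sLook SI i)) (sLook SI' i)) = true)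
    (hl : T.l ≤ T'.l) : EmbTab D E (sLook IO) := by
  have hcT : ∀ r s, D.commTerms r s = ct1 T r s := fun r s => by
    rw [commTerms_eq, chainEntry_eq_ceF V hsz, ← ct1_eq T hL]
  have hcT' : ∀ r s, E.commTerms r s = ct1 T' r s := fun r s => by
    rw [commTerms_eq, chainEntry_eq_ceF V' hsz', ← ct1_eq T' hL']
  have key := fun r hr => embRow_iff.1 (allBelow_iff.1 hc r hr)
  refine ⟨?_, ?_, ?_, ?_, ?_, ?_, ?_⟩
  · intro r hr
    rw [← V.hn] at hr
    rw [← V'.hn]
    exact (key r hr).1
  · intro r hr
    rw [← V.hn] at hr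
    rw [V.neg_eq' hr, V'.neg_eq' (key r hr).1]
    exact (key r hr).2.1
  · intro r hr s hs' e
    rw [← V.hn] at hr hs'
    rcases (key r hr).2.2 s hs' with h | h
    · exact absurd h e
    · exact h.1
  · intro r hr s hs' e1 e2
    rw [← V.hn] at hr hs'
    rw [V.neg_eq' hr] at e2
    rcases (key r hr).2.2 s hs' with h | ⟨_, h | h⟩
    · exact absurd h e1
    · omega
    · rw [hcT, hcT']
      exact h.1
  · intro r hr s hs' e1 e2
    rw [← V.hn] at hr hs' ⊢
    rw [V.neg_eq' hr] at e2
    rcases (key r hr).2.2 s hs' with h | ⟨_, h | h⟩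
    · exact absurd h e1
    · omega
    · rw [hcT]
      exact h.2
  · intro i hi
    rw [← V.hl] at hi
    rw [(W.hs i hi).1, (W'.hs i (lt_of_lt_of_le hi hl)).1]
    exact Nat.eq_of_beq_eq_true (allBelow_iff.1 hs i hi)
  · rw [← V.hl, ← V'.hl]
    exact hl

def ioE6 : ℕ := 6127556391416827279349016998761470930343266767303143387710664625592429480043102428968990277638500768048987376553451235671579726560393462527916969661386535399553541691173620422333049271424791045231226238111166618971903397793740342507956814396259134417355853859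

def ioE7 : ℕ := 7928749414290955131908202923323265686427947841066378343541159249971050568233976736094143883883949879479148803640822038316333468159967631120128582410830737732626166110880597914706182789320545773733908608894535939558618774468080423398938763226981294925428249998664398127658605603372531413107904029476036159812305076411138002940888908284227338907930165787893692141982594478757320020597536553019991661090012300016732002314627642741873255451686146930118836237

theorem embTabE6 : EmbTab chevE6 chevE8 (sLook ioE6) :=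
  embTab_of_chk tbE6_valid tbE8_valid ntE6_valid ntE8_valid hszE6 hszE8 rfl rfl
    (by decide +kernel) (by decide +kernel) (by decide +kernel)

theorem embTabE7 : EmbTab chevE7 chevE8 (sLook ioE7) :=
  embTab_of_chk tbE7_valid tbE8_valid ntE7_valid ntE8_valid hszE7 hszE8 rfl rfl
    (by decide +kernel) (by decide +kernel) (by decide +kernel)

end Cfsg.Agent.Lib.Helper45
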