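import Cfsg.Agent.Lib.Helper45.StTab
import Cfsg.Agent.Lib.Helper23.StM0

/-!
# The table structure `SLTab` for `E₆`, `E₇`, `E₈` (rung for helper23: Milnor/Stein universality)
-/

set_option autoImplicit false
set_option maxRecDepth 1000000
set_option maxHeartbeats 0

namespace Cfsg.Agent.Lib.Helper45

open Cfsg.Lie Cfsg.Agent.Lib.Helper22 Cfsg.Agent.Lib.Helper23 Cfsg.Agent.Lib.Helper23.StP

/-- the root `a + b` (or `n` if there is none), read off the commutator table -/
noncomputable def smF (ct : ℕ → ℕ → List (ℕ × ℤ × ℕ × ℕ)) (n a b : ℕ) : ℕ :=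
  List.rec n (fun p _ _ => p.1) (ct a b)

/-- evaluate the argument first -/
noncomputable def strictN {α : Type} (d : ℕ) (f : ℕ → α) : α :=
  Nat.rec (f 0) (fun k _ => f (Nat.succ k)) d

theorem strictN_eq {α : Type} (d : ℕ) (f : ℕ → α) : strictN d f = f d := by
  cases d <;> rfl

noncomputable def anyLt (N : ℕ) (f : ℕ → Bool) : Bool :=
  Nat.rec false (fun k ih => Bool.rec ih true (f k)) N

theorem anyLt_iff {N : ℕ} {f : ℕ → Bool} : anyLt N f = true ↔ ∃ k < N, f k = true := by
  induction N with
  | zero => simp [anyLt]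
  | succ N ih =>
    have : anyLt (N + 1) f = Bool.rec (anyLt N f) true (f N) := rfl
    rw [this, brec_or, ih]
    constructor
    · rintro (h | ⟨k, hk, h⟩)
      · exact ⟨N, Nat.lt_succ_self N, h⟩
      · exact ⟨k, Nat.lt_succ_of_lt hk, h⟩
    · rintro ⟨k, hk, h⟩
      rcases Nat.lt_succ_iff_lt_or_eq.1 hk with h' | rfl
      · exact Or.inr ⟨k, h', h⟩
      · exact Or.inl h

def oneOK (n : ℕ) : List (ℕ × ℤ × ℕ × ℕ) → Bool
  | [] => true
  | [(c, N, i, j)] => decide (c < n ∧ (N = 1 ∨ N = -1) ∧ i = 1 ∧ j = 1)
  | _ => false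

theorem oneOK_iff {n : ℕ} {l : List (ℕ × ℤ × ℕ × ℕ)} : oneOK n l = true ↔
    l = [] ∨ ∃ c N, c < n ∧ (N = 1 ∨ N = -1) ∧ l = [(c, N, 1, 1)] := by
  match l with
  | [] => simp [oneOK]
  | [(c, N, i, j)] =>
    simp only [oneOK, decide_eq_true_eq, List.cons_ne_nil, false_or, List.cons.injEq, Prod.mk.injEq,
      and_true]
    constructor
    · rintro ⟨h1, h2, rfl, rfl⟩
      exact ⟨c, N, h1, h2, rfl, rfl, rfl, rfl⟩
    · rintro ⟨c', N', h1, h2, rfl, rfl, rfl, rfl⟩
      exact ⟨h1, h2, rfl, rfl⟩
  | _ :: _ :: _ => simp [oneOK]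

noncomputable def decB (ct : ℕ → ℕ → List (ℕ × ℤ × ℕ × ℕ)) (n a b c : ℕ) : Bool :=
  Nat.blt a n && Nat.blt b n && Nat.blt c n && !Nat.beq b a && !Nat.beq (Nat.add a b) (Nat.sub n 1)
    && Nat.beq (smF ct n a b) c

theorem decB_iff {ct : ℕ → ℕ → List (ℕ × ℤ × ℕ × ℕ)} {n a b c : ℕ} : decB ct n a b c = true ↔
    a < n ∧ b < n ∧ c < n ∧ b ≠ a ∧ a + b ≠ n - 1 ∧ smF ct n a b = c := by
  simp only [decB, Bool.and_eq_true, Nat.blt_eq, Bool.not_eq_true', Nat.add_eq, Nat.sub_eq,
    Nat.beq_eq, and_assoc, ne_eq]
  constructor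
  · rintro ⟨h1, h2, h3, h4, h5, h6⟩
    exact ⟨h1, h2, h3, fun h => by simp [h] at h4, fun h => by simp [h] at h5, h6⟩
  · rintro ⟨h1, h2, h3, h4, h5, h6⟩
    refine ⟨h1, h2, h3, ?_, ?_, h6⟩
    · cases h : Nat.beq b a
      · rfl
      · exact absurd (Nat.eq_of_beq_eq_true h) h4
    · cases h : Nat.beq (a + b) (n - 1)
      · rfl
      · exact absurd (Nat.eq_of_beq_eq_true h) h5

noncomputable def cmB (ct : ℕ → ℕ → List (ℕ × ℤ × ℕ × ℕ)) (n a b : ℕ) : Bool :=
  Nat.blt a n && Nat.blt b n &&
    (Nat.beq b a || (!Nat.beq (Nat.add a b) (Nat.sub n 1) && Nat.beq (smF ct n a b) n))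

theorem cmB_iff {ct : ℕ → ℕ → List (ℕ × ℤ × ℕ × ℕ)} {n a b : ℕ} : cmB ct n a b = true ↔
    a < n ∧ b < n ∧ (b = a ∨ (a + b ≠ n - 1 ∧ smF ct n a b = n)) := by
  simp only [cmB, Bool.and_eq_true, Bool.or_eq_true, Nat.blt_eq, Bool.not_eq_true', Nat.add_eq,
    Nat.sub_eq, Nat.beq_eq, and_assoc, ne_eq]
  constructor
  · rintro ⟨h1, h2, h3 | ⟨h3, h4⟩⟩
    · exact ⟨h1, h2, Or.inl h3⟩
    · exact ⟨h1, h2, Or.inr ⟨fun h => by simp [h] at h3, h4⟩⟩
  · rintro ⟨h1, h2, h3 | ⟨h3, h4⟩⟩
    · exact ⟨h1, h2, Or.inl h3⟩
    · refine ⟨h1, h2, Or.inr ⟨?_, h4⟩⟩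
      cases h : Nat.beq (a + b) (n - 1)
      · rfl
      · exact absurd (Nat.eq_of_beq_eq_true h) h3

noncomputable def linkB (ct : ℕ → ℕ → List (ℕ × ℤ × ℕ × ℕ)) (n a b a' b' c : ℕ) : Bool :=
  strictN (smF ct n a' (Nat.sub (Nat.sub n 1) a)) fun κ =>
    decB ct n a κ a' && decB ct n κ b' b && decB ct n a' b' c && cmB ct n a b' && cmB ct n a' b &&
      cmB ct n b c

theorem linkB_imp {ct : ℕ → ℕ → List (ℕ × ℤ × ℕ × ℕ)} {n a b a' b' c : ℕ}
    (h : linkB ct n a b a' b' c = true) : ∃ κ, decB ct n a κ a' = true ∧ decB ct n κ b' b = true ∧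
      decB ct n a' b' c = true ∧ cmB ct n a b' = true ∧ cmB ct n a' b = true ∧
      cmB ct n b c = true := by
  unfold linkB at h
  rw [strictN_eq] at h
  simp only [Bool.and_eq_true, and_assoc] at h
  exact ⟨_, h⟩

noncomputable def oneRow (ct : ℕ → ℕ → List (ℕ × ℤ × ℕ × ℕ)) (n a : ℕ) : Bool :=
  allBelow n fun b => Nat.beq b a || Nat.beq (Nat.add a b) (Nat.sub n 1) || oneOK n (ct a b)

noncomputable def witRow (ct : ℕ → ℕ → List (ℕ × ℤ × ℕ × ℕ)) (n a : ℕ) : Bool :=
  allBelow n fun b => !cmB ct n a b || anyLt n fun g =>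
    strictN (smF ct n b (Nat.sub (Nat.sub n 1) g)) fun d =>
      decB ct n g d b && cmB ct n a g && cmB ct n a d

noncomputable def link1 (ct : ℕ → ℕ → List (ℕ × ℤ × ℕ × ℕ)) (n A0 B0 c : ℕ) : Bool :=
  decB ct n (sLook A0 c) (sLook B0 c) c && anyLt n fun a' =>
    strictN (smF ct n c (Nat.sub (Nat.sub n 1) a')) fun b' =>
      linkB ct n (sLook A0 c) (sLook B0 c) a' b' c

noncomputable def link2 (ct : ℕ → ℕ → List (ℕ × ℤ × ℕ × ℕ)) (n A0 B0 a : ℕ) : Bool :=
  allBelow n fun b => strictN (smF ct n a b) fun c =>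
    !decB ct n a b c || (Nat.beq a (sLook A0 c) && Nat.beq b (sLook B0 c)) ||
      (Nat.beq a (sLook B0 c) && Nat.beq b (sLook A0 c)) ||
      linkB ct n a b (sLook A0 c) (sLook B0 c) c || linkB ct n a b (sLook B0 c) (sLook A0 c) c

structure SLChk (ct : ℕ → ℕ → List (ℕ × ℤ × ℕ × ℕ)) (n A0 B0 : ℕ) : Prop where
  one : ∀ a < n, oneRow ct n a = true
  wit : ∀ a < n, witRow ct n a = true
  l1 : ∀ c < n, link1 ct n A0 B0 c = true
  l2 : ∀ a < n, link2 ct n A0 B0 a = true

theorem SLChk.tab {ct : ℕ → ℕ → List (ℕ × ℤ × ℕ × ℕ)} {n A0 B0 : ℕ} (hS : SLChk ct n A0 B0)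
    {D : ChevalleyDatum} (hn : D.nroots = n) (hneg : ∀ a < n, D.neg a = n - 1 - a)
    (hcT : ∀ r s, D.commTerms r s = ct r s) : SLTab D := by
  have h1 : ∀ a < n, ∀ b < n, b ≠ a → a + b ≠ n - 1 →
      ct a b = [] ∨ ∃ c N, c < n ∧ (N = 1 ∨ N = -1) ∧ ct a b = [(c, N, 1, 1)] := by
    intro a ha b hb e1 e2
    have h := allBelow_iff.1 (hS.one a ha) b hb
    simp only [Bool.or_eq_true, Nat.beq_eq, Nat.add_eq, Nat.sub_eq] at h
    rcases h with (h | h) | h
    · exact absurd h e1
    · exact absurd h e2
    · exact oneOK_iff.1 h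
  have hnn : ∀ a < n, ∀ b < n, (b ≠ D.neg a ↔ a + b ≠ n - 1) := by
    intro a ha b hb
    rw [hneg a ha]
    omega
  have hDec : ∀ {a b c}, decB ct n a b c = true → ∃ N, Dec D a b c N := by
    intro a b c h
    obtain ⟨ha, hb, hc, e1, e2, e3⟩ := decB_iff.1 h
    rcases h1 a ha b hb e1 e2 with hh | ⟨c', N, hc', hN, hh⟩
    · exfalso
      unfold smF at e3
      rw [hh] at e3
      exact absurd e3 (by show n ≠ c; omega)
    · unfold smF at e3
      rw [hh] at e3
      have e4 : c' = c := e3
      subst e4
      exact ⟨N, hn ▸ ha, hn ▸ hb, hn ▸ hc, e1, (hnn a ha b hb).2 e2, hN, (hcT a b).trans hh⟩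
  have hDec' : ∀ {a b c N}, Dec D a b c N → decB ct n a b c = true := by
    rintro a b c N ⟨ha, hb, hc, e1, e2, _, h⟩
    rw [hn] at ha hb hc
    refine decB_iff.2 ⟨ha, hb, hc, e1, (hnn a ha b hb).1 e2, ?_⟩
    unfold smF
    rw [← hcT, h]
  have hCm : ∀ {a b}, cmB ct n a b = true → Cm D a b := by
    intro a b h
    obtain ⟨ha, hb, h⟩ := cmB_iff.1 h
    refine ⟨hn ▸ ha, hn ▸ hb, ?_⟩
    by_cases e1 : b = a
    · exact Or.inl e1
    · rcases h with h | ⟨e2, e3⟩
      · exact absurd h e1
      · refine Or.inr ⟨e1, (hnn a ha b hb).2 e2, ?_⟩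
        rcases h1 a ha b hb e1 e2 with h | ⟨c', N, hc', hN, h⟩
        · exact (hcT a b).trans h
        · exfalso
          unfold smF at e3
          rw [h] at e3
          have e4 : c' = n := e3
          omega
  have hCm' : ∀ {a b}, Cm D a b → cmB ct n a b = true := by
    rintro a b ⟨ha, hb, h⟩
    rw [hn] at ha hb
    refine cmB_iff.2 ⟨ha, hb, ?_⟩
    rcases h with h | ⟨e1, e2, h⟩
    · exact Or.inl h
    · refine Or.inr ⟨(hnn a ha b hb).1 e2, ?_⟩
      unfold smF
      rw [← hcT, h]
  have hLink : ∀ {a b a' b' c}, linkB ct n a b a' b' c = true → Link D a b a' b' c := by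
    intro a b a' b' c h
    obtain ⟨κ, p1, p2, p3, p4, p5, p6⟩ := linkB_imp h
    obtain ⟨N₁, q1⟩ := hDec p1
    obtain ⟨N₂, q2⟩ := hDec p2
    obtain ⟨N₃, q3⟩ := hDec p3
    exact ⟨κ, N₁, N₂, N₃, q1, q2, q3, hCm p4, hCm p5, hCm p6⟩
  refine ⟨?_, ?_, ?_⟩
  · intro a ha b hb e1 e2
    rw [hn] at ha hb
    rcases h1 a ha b hb e1 ((hnn a ha b hb).1 e2) with h | ⟨c, N, hc, hN, h⟩
    · exact Or.inl ((hcT a b).trans h)
    · exact Or.inr ⟨c, N, hn ▸ ha, hn ▸ hb, hn ▸ hc, e1, e2, hN, (hcT a b).trans h⟩
  · intro a b hab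
    have ha : a < n := hn ▸ hab.1
    have hb : b < n := hn ▸ hab.2.1
    have h := allBelow_iff.1 (hS.wit a ha) b hb
    rw [Bool.or_eq_true, hCm' hab] at h
    rcases h with h | h
    · exact absurd h (by simp)
    · obtain ⟨g, _, h⟩ := anyLt_iff.1 h
      rw [strictN_eq] at h
      simp only [Bool.and_eq_true, and_assoc] at h
      obtain ⟨N, q⟩ := hDec h.1
      exact ⟨g, _, N, q, hCm h.2.1, hCm h.2.2⟩
  · intro c hc
    rw [hn] at hc
    have h := hS.l1 c hc
    unfold link1 at h
    rw [Bool.and_eq_true] at h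
    obtain ⟨N₀, q0⟩ := hDec h.1
    obtain ⟨a', _, h'⟩ := anyLt_iff.1 h.2
    rw [strictN_eq] at h'
    refine ⟨sLook A0 c, sLook B0 c, N₀, q0, ⟨a', _, hLink h'⟩, ?_⟩
    intro a b N hd
    have hd' := hDec' hd
    obtain ⟨ha, hb, _, _, _, e3⟩ := decB_iff.1 hd'
    have h2 := allBelow_iff.1 (hS.l2 a ha) b hb
    rw [strictN_eq, e3, hd'] at h2
    simp only [Bool.or_eq_true, Bool.and_eq_true, Nat.beq_eq, Bool.not_true, Bool.false_eq_true,
      false_or] at h2
    rcases h2 with ((h2 | h2) | h2) | h2
    · exact Or.inl h2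
    · exact Or.inr (Or.inl h2)
    · exact Or.inr (Or.inr (Or.inl (hLink h2)))
    · exact Or.inr (Or.inr (Or.inr (hLink h2)))

def slAE6 : ℕ := 1381566428453552192326120172244964129386145484150159751675004688882029751693416315925629567850966684123210487302385843461936485824330574692700772717779276083623878658012764135039015973523504364603872343113726038236999915130508190772769822119927849638734856193

def slBE6 : ℕ := 2102625379899108624798593705117567410532027716135960639663036530015167655400756693864848798931079022648302860932760051928043790922636804017205058390959836999138153896198615571701109930533376104268655892610755145748419780741858712091850442454538320643472154649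

def slAE7 : ℕ := 3262217661892415136284159138572102892793829158850902638399758504323042502079991357874596068402288745223180672323241941473006946522658034945550465162359179672240254009866848757976324260344800633082448522740104298420856273636999664376818089046408527980902023610302189088113256873720121416011312877569948258707428568728255120620183805160871698792842135850675392515943262114692016217043275177125380121971471659720559367864022179767555030177721404745756704769

def slBE7 : ℕ := 4350328756825396935314722848099254988815827908595709307421787105196936384498257427069218478071047329142843310711461951715213314616878997411174563245313711479231323502237965222060535389525481213235551643599651509825368085810618714298870948904769659805369602967737699621636659451693282307883992048092446193381890990563985601258750235097964620875929344303472950706306187358066577159809341100085341635814484715098069268247708999250619884269246939995597819936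

def slAE8 : ℕ := 27121516422172502051010860241345715006957491149304959418398954079922018100279835001340782965277713554384884302011254533282308397997973891748319683055853700080345798434075085632652367873842561346932344942446006822705779340050576787109394893128669305185952084957180337890394718901390812960349282219919768675679426875446071455669565310574696419195435873061444286831773833699874041919740805623748550246957971513092887246385573725287507094075314717660168607096764644917782250708725011533723052363280505996666823198338802364683163105913509703508375925793893737301156269814858741640141852194893550529013935791176990894447234140626832725936214888974941982813802334009881209898079619314771337870079048236416793516161761539987182922204208126130466051993323400428148231763819408405864152165087122202093321010576276867051639934470872777738754045251010477837353358578918967214081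

def slBE8 : ℕ := 53791172241384939373796825694425246770190738512705569839428278855467720708778091737380118210887150534255713319174455117167302220572451798425746811609906768453795951831006449223178736660975271325444496500226638086208730644209607632436709015189717846412031057191913281987819666893841891411754057764047048057727036654454667583457367409850403434091329547002139558133332455141197862146634528026019796271440717005022634562513657416167907371591663933715790609859641292746581357986138030271209534190870468049001996005616885286624276039502475952964977858020035104797409250480907666719619068401134225994781434320106960085004826955277927336818634651177362485710378707597683815579399498640921547042137728284307317495674453780401118983422250688086493784219736837011904887444554434876342018906706104826820636517805022165621277485485459896258867259922742341904176103133687558144119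

theorem slChkE8 : SLChk (ct1 tbE8) tbE8.n slAE8 slBE8 where
  one := allBelow_iff.1 (by decide +kernel)
  wit := allBelow_iff.1 (by decide +kernel)
  l1 := allBelow_iff.1 (by decide +kernel)
  l2 := allBelow_iff.1 (by decide +kernel)

theorem slChkE7 : SLChk (ct1 tbE7) tbE7.n slAE7 slBE7 where
  one := allBelow_iff.1 (by decide +kernel)
  wit := allBelow_iff.1 (by decide +kernel)
  l1 := allBelow_iff.1 (by decide +kernel)
  l2 := allBelow_iff.1 (by decide +kernel)

theorem slChkE6 : SLChk (ct1 tbE6) tbE6.n slAE6 slBE6 where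
  one := allBelow_iff.1 (by decide +kernel)
  wit := allBelow_iff.1 (by decide +kernel)
  l1 := allBelow_iff.1 (by decide +kernel)
  l2 := allBelow_iff.1 (by decide +kernel)

theorem slTab_aux {T : Tb} {A0 B0 : ℕ} {D : ChevalleyDatum} (V : T.Valid D)
    (hsz : D.chain.size = T.n) (hL : T.L = 1) (hS : SLChk (ct1 T) T.n A0 B0) : SLTab D :=
  hS.tab V.hn.symm (fun _ ha => V.neg_eq' ha) (fun r s => by
    rw [commTerms_eq, chainEntry_eq_ceF V hsz, ← ct1_eq T hL])

theorem slTabE8 : SLTab chevE8 := slTab_aux tbE8_valid hszE8 rfl slChkE8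
theorem slTabE7 : SLTab chevE7 := slTab_aux tbE7_valid hszE7 rfl slChkE7
theorem slTabE6 : SLTab chevE6 := slTab_aux tbE6_valid hszE6 rfl slChkE6

theorem slTab_of_mem {D : ChevalleyDatum} (hD : D ∈ [chevE6, chevE7, chevE8]) : SLTab D := by
  simp only [List.mem_cons, List.not_mem_nil, or_false] at hD
  rcases hD with rfl | rfl | rfl
  · exact slTabE6
  · exact slTabE7
  · exact slTabE8

end Cfsg.Agent.Lib.Helper45
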