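import Cfsg.Agent.Lib.Helper45.StV1

/-!
# Central extensions over small fields: separation pair by pair, Milnor's trick, the positive part
-/

set_option autoImplicit false

namespace Cfsg.Agent.Lib.Helper45.StV

open Cfsg.Lie Matrix Cfsg.Agent.Lib.Helper23 Cfsg.Agent.Lib.Helper22 Cfsg.Agent.Lib.Helper45
  Cfsg.Agent.Lib.Helper23.StP

variable {D : ChevalleyDatum} {K : Type*} [Field K]

/-- the characters of the roots `a`, `b` can be separated -/
def SepP (hA : AddFact D K) (a b : ℕ) : Prop :=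
  ∃ h ∈ D.diagonalSubgroup K, ∃ w : K, w - 1 ≠ 0 ∧ (∀ t, h * hA.X a t * h⁻¹ = hA.X a t) ∧
    ∀ t, h * hA.X b t * h⁻¹ = hA.X b (w * t)

namespace CX

variable {hA : AddFact D K} {E : Type*} [Group E] (C : CX D K hA E)
variable (hD : D ∈ [chevG2, chevB2, chevD4, chevF4, chevE6, chevE7, chevE8])
include hD

omit hD in
theorem central_of_rho {z : E} (h : C.ρ z = 1) (e : E) : e * z * e⁻¹ = z := by
  rw [Subgroup.mem_center_iff.1 (C.cen (MonoidHom.mem_ker.2 h)) e, mul_inv_cancel_right]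

theorem Z_neg (hc : C.ZComm) (r : ℕ) (t : K) : C.Z r (-t) = (C.Z r t)⁻¹ :=
  StP.X_neg C.Z (C.Z_add hD hc) r t

theorem rho_WW (w : List (ℕ × K)) : C.ρ (WW C.Z w) = WW hA.X w := by
  rw [map_WW]
  congr 1
  funext r t
  exact C.rho_Z hD r t

/-- lifts of diagonal elements normalise the subgroups `Cl` -/
theorem diag_conj_mem {e : E} (he : C.ρ e ∈ D.diagonalSubgroup K) {L : List ℕ} {g : E} (hg : g ∈ Cl C.Z L) :
    e * g * e⁻¹ ∈ Cl C.Z L := by
  apply conj_mem_Cl C.Z _ hg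
  intro b hb u
  by_cases hbr : b < D.nroots
  · obtain ⟨c, -, e1⟩ := la_diag hD hA he b hbr
    rw [C.conj_Z_diag hD he hbr e1]
    exact X_mem_Cl _ hb _
  · rw [C.Z_of_ge hbr, mul_one, mul_inv_cancel]
    exact one_mem _

/-- Steinberg's trick: conjugates are commutators with a lift of a diagonal element -/
theorem conj_eq_comm (hc : C.ZComm) {a b : ℕ} (ha : a < D.nroots) (hb : b < D.nroots) (h1 : b ≠ a)
    (h2 : b ≠ D.neg a) {e : E} (he : C.ρ e ∈ D.diagonalSubgroup K) {w : K} (hw : w - 1 ≠ 0)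
    (ea : ∀ t, C.ρ e * hA.X a t * (C.ρ e)⁻¹ = hA.X a t)
    (eb : ∀ t, C.ρ e * hA.X b t * (C.ρ e)⁻¹ = hA.X b (w * t)) (t u : K) :
    C.Z a t * C.Z b u * (C.Z a t)⁻¹ =
      e * (C.Z b ((w - 1)⁻¹ * u) * WW C.Z (D.commWord K a b (-t) ((w - 1)⁻¹ * u))) * e⁻¹ *
        (C.Z b ((w - 1)⁻¹ * u) * WW C.Z (D.commWord K a b (-t) ((w - 1)⁻¹ * u)))⁻¹ := by
  set s := (w - 1)⁻¹ * u with hs
  rw [← comm_lift C.ρ C.cen (x := e) (y := C.Z a t * C.Z b s * (C.Z a t)⁻¹) rfl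
    (by rw [map_mul, map_mul, map_inv, map_mul, C.rho_Z hD, C.rho_Z hD, C.rho_WW hD,
      CExt.conj_eq_G hD ha hb h1 h2])]
  have e1 : e * C.Z a t * e⁻¹ = C.Z a t := by
    have := C.conj_Z_diag hD he ha (d := 1) (by intro t; rw [one_mul]; exact ea t) t
    rwa [one_mul] at this
  have e2 := C.conj_Z_diag hD he hb eb s
  have e3 : e * (C.Z a t * C.Z b s * (C.Z a t)⁻¹) * e⁻¹ * (C.Z a t * C.Z b s * (C.Z a t)⁻¹)⁻¹ =
      (e * C.Z a t * e⁻¹) * (e * C.Z b s * e⁻¹) * (e * C.Z a t * e⁻¹)⁻¹ *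
        (C.Z a t * (C.Z b s)⁻¹ * (C.Z a t)⁻¹) := by group
  have e4 : C.Z b u = C.Z b (w * s) * (C.Z b s)⁻¹ := by
    rw [← C.Z_neg hD hc, ← C.Z_add hD hc]
    congr 1
    rw [hs]
    field_simp
    ring
  rw [e3, e1, e2, e4]
  group

theorem conj_mem_Cl_of_sep (hc : C.ZComm) {a b : ℕ} (hS : SepP hA a b) (ha : a < D.nroots) (hb : b < D.nroots)
    (h1 : b ≠ a) (h2 : b ≠ D.neg a) {L : List ℕ} (hbL : b ∈ L) (hL : ∀ c ∈ D.commTerms a b, c.1 ∈ L)
    (t u : K) : C.Z a t * C.Z b u * (C.Z a t)⁻¹ ∈ Cl C.Z L := by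
  obtain ⟨h, hh, w, hw, ea, eb⟩ := hS
  obtain ⟨e, rfl⟩ := C.lift h (hA.diag_le_group hh)
  rw [C.conj_eq_comm hD hc ha hb h1 h2 hh hw ea eb]
  have hv : ∀ s, C.Z b s * WW C.Z (D.commWord K a b (-t) s) ∈ Cl C.Z L := by
    intro s
    refine mul_mem (X_mem_Cl _ hbL s) (WW_mem_Cl _ fun p hp => ?_)
    obtain ⟨c, hc, e⟩ := StSys.mem_commWord hp
    rw [e]; exact hL c hc
  exact mul_mem (C.diag_conj_mem hD hh (hv _)) (inv_mem (hv _))

/-- lifts of commuting root subgroups of independent roots commute -/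
theorem comm_of_sep {a b : ℕ} (hS : SepP hA a b) (ha : a < D.nroots) (hb : b < D.nroots) (h1 : b ≠ a)
    (h2 : b ≠ D.neg a) (h0 : D.commTerms a b = []) (t u : K) : C.Z a t * C.Z b u = C.Z b u * C.Z a t := by
  have hρ : ∀ t u, C.ρ (C.Z a t * C.Z b u * (C.Z a t)⁻¹ * (C.Z b u)⁻¹) = 1 := by
    intro t u
    rw [map_mul, map_mul, map_mul, map_inv, map_inv, C.rho_Z hD, C.rho_Z hD, CExt.conj_eq_G hD ha hb h1 h2]
    simp [ChevalleyDatum.commWord, h0]
  obtain ⟨h, hh, w, hw, ea, eb⟩ := hS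
  obtain ⟨g, rfl⟩ := C.lift h (hA.diag_le_group hh)
  have := bilin_trivial' (fun t u => C.Z a t * C.Z b u * (C.Z a t)⁻¹ * (C.Z b u)⁻¹)
    (fun t u u' => by
      show C.Z a t * C.Z b (u + u') * (C.Z a t)⁻¹ * (C.Z b (u + u'))⁻¹ = _
      rw [comm_lift C.ρ C.cen (x' := C.Z a t) (y' := C.Z b u * C.Z b u') rfl
        (by rw [map_mul, C.rho_Z hD, C.rho_Z hD, C.rho_Z hD, hA.X_add])]
      exact comm_mul_right C.ρ C.cen (hρ t u')) hw
    (fun t u => by
      show C.Z a t * C.Z b (w * u) * (C.Z a t)⁻¹ * (C.Z b (w * u))⁻¹ = _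
      have e1 : g * C.Z a t * g⁻¹ = C.Z a t := by
        have := C.conj_Z_diag hD hh ha (d := 1) (by intro t; rw [one_mul]; exact ea t) t
        rwa [one_mul] at this
      rw [← C.conj_Z_diag hD hh hb eb, ← C.central_of_rho (hρ t u) g]
      nth_rewrite 1 [← e1]
      nth_rewrite 2 [← e1]
      group) t u
  have h3 : C.Z a t * C.Z b u * (C.Z a t)⁻¹ * (C.Z b u)⁻¹ = 1 := this
  rwa [mul_inv_eq_one, mul_inv_eq_iff_eq_mul] at h3

/-- Milnor's trick: an element commuting with the lifts of `X_g`, `X_d` commutes with the lifts of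
`X_b`, `b = g + d` with a one term commutator formula with invertible coefficient -/
theorem comm_of_dec {g d b : ℕ} {N : ℤ} (hg : g < D.nroots) (hd : d < D.nroots) (h1 : d ≠ g)
    (h2 : d ≠ D.neg g) (hN : (N : K) ≠ 0) (hT : D.commTerms g d = [(b, N, 1, 1)]) {z : E}
    (cg : ∀ x, z * C.Z g x = C.Z g x * z) (cd : ∀ x, z * C.Z d x = C.Z d x * z) (s : K) :
    z * C.Z b s = C.Z b s * z := by
  have inv_c : ∀ y : E, z * y = y * z → z * y⁻¹ = y⁻¹ * z := by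
    intro y hy
    rw [eq_inv_mul_iff_mul_eq, ← mul_assoc, ← hy, mul_inv_cancel_right]
  have mul_c : ∀ y y' : E, z * y = y * z → z * y' = y' * z → z * (y * y') = (y * y') * z := by
    intro y y' hy hy'
    rw [← mul_assoc, hy, mul_assoc, hy', mul_assoc]
  set t' : K := -((N : K)⁻¹ * s) with ht'
  set y := (C.Z d 1)⁻¹ * (C.Z g t')⁻¹ * C.Z d 1 * C.Z g t' with hy
  have hzy : z * y = y * z :=
    mul_c _ _ (mul_c _ _ (mul_c _ _ (inv_c _ (cd _)) (inv_c _ (cg _))) (cd _)) (cg _)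
  have hρ : C.ρ (C.Z b s) = C.ρ y := by
    rw [hy]
    simp only [map_mul, map_inv, C.rho_Z hD]
    rw [comm_G hD hA hg hd h1 h2]
    simp only [ChevalleyDatum.commWord, hT, List.map_cons, List.map_nil, WW_cons, WW_nil, mul_one]
    congr 1
    rw [ht', neg_neg, pow_one, one_pow, mul_one, mul_inv_cancel_left₀ hN]
  have := conj_lift C.ρ C.cen hρ z
  rw [← hzy, mul_inv_cancel_right, mul_inv_eq_iff_eq_mul] at this
  exact this.symm

omit hD in
/-- conjugates stay in the expected subgroups -/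
def CM : Prop := ∀ a < D.nroots, ∀ b < D.nroots, b ≠ a → b ≠ D.neg a → ∀ L : List ℕ, b ∈ L →
  (∀ c ∈ D.commTerms a b, c.1 ∈ L) → ∀ t u : K, C.Z a t * C.Z b u * (C.Z a t)⁻¹ ∈ Cl C.Z L

variable (T : StTab D)
include T

theorem good_pos (hM : C.CM) : Good C.Z D.posRoots := by
  have b := bundle_of_mem K hD
  apply good_of_sorted' C.Z (· < ·) (fun x => lt_irrefl x) (fun x y h => lt_asymm h) (posRoots_sorted D)
  intro a ha c hc' hlt t u L' hL'
  rw [mem_posRoots] at ha hc'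
  refine hM a ha.1 c hc'.1 (ne_of_gt hlt)
    (fun e => b.hR.not_neg_of_pos hc' (e ▸ b.hR.neg_of_pos ha)) _
    (hL' c ((mem_posRoots D c).2 hc') hlt) (fun d hd => ?_) t u
  obtain ⟨h1, h2, -⟩ := T.pos a c ha hc' (ne_of_lt hlt) d hd
  exact hL' _ ((mem_posRoots D _).2 h1) h2

/-- `ρ` is injective on the positive part -/
theorem inj_pos (hc : C.ZComm) (hM : C.CM) {g g' : E} (hg : g ∈ Cl C.Z D.posRoots)
    (hg' : g' ∈ Cl C.Z D.posRoots) (h : C.ρ g = C.ρ g') : g = g' := by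
  obtain ⟨f, rfl⟩ := exists_prod C.Z (C.Z_add hD hc) (C.good_pos hD T hM) (posRoots_nodup D) hg
  obtain ⟨f', rfl⟩ := exists_prod C.Z (C.Z_add hD hc) (C.good_pos hD T hM) (posRoots_nodup D) hg'
  rw [C.rho_WW hD, C.rho_WW hD] at h
  rw [uniq_words hD hA (l := []) (by simp) (by rw [wL_fst, wL_fst]) (by rw [wL_fst]; exact posRoots_nodup D)
    (by rw [wL_fst]; exact fun c hc => ((mem_posRoots D c).1 hc).1)
    (by rw [wL_fst]; exact fun c hc => (mem_posRoots D c).1 hc) h]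

end CX

end Cfsg.Agent.Lib.Helper45.StV
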