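import Cfsg.Agent.Lib.Helper45.StV3

/-!
# Central extensions over small fields: from table facts to the lift of the cover
-/

set_option autoImplicit false

namespace Cfsg.Agent.Lib.Helper45.StV

open Cfsg.Lie Matrix Cfsg.Agent.Lib.Helper23 Cfsg.Agent.Lib.Helper22 Cfsg.Agent.Lib.Helper45
  Cfsg.Agent.Lib.Helper23.StP

/-- a coroot separating `a` from `b` modulo `n` -/
def SepN (D : ChevalleyDatum) (n : ℕ) (a b : ℕ) : Prop :=
  ∃ c < D.nroots, (n : ℤ) ∣ D.pairing c a ∧ ¬ (n : ℤ) ∣ D.pairing c b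

/-- a decomposition `b = g + d` with `g`, `d` separably commuting with `a` -/
def DecN (D : ChevalleyDatum) (n : ℕ) (NL : List ℤ) (a b : ℕ) : Prop :=
  ∃ g < D.nroots, ∃ d < D.nroots, ∃ N ∈ NL, d ≠ g ∧ d ≠ D.neg g ∧ D.commTerms g d = [(b, N, 1, 1)] ∧
    (g ≠ a ∧ g ≠ D.neg a ∧ D.commTerms a g = [] ∧ SepN D n a g) ∧
    (d ≠ a ∧ d ≠ D.neg a ∧ D.commTerms a d = [] ∧ SepN D n a d)

/-- the table facts for a field with `n + 1` elements -/
structure VTab (D : ChevalleyDatum) (n : ℕ) (NL : List ℤ) : Prop where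
  pair : ∀ a < D.nroots, ∀ b < D.nroots, b ≠ a → b ≠ D.neg a → SepN D n a b ∨ DecN D n NL a b
  self : ∀ q < D.nroots, DecN D n NL q q

variable {D : ChevalleyDatum} {K : Type*} [Field K]

theorem sepP_of (hD : D ∈ [chevG2, chevB2, chevD4, chevF4, chevE6, chevE7, chevE8]) (hA : AddFact D K)
    {n : ℕ} {v : Kˣ} (hv : orderOf v = n) {a b : ℕ} (ha : a < D.nroots) (hb : b < D.nroots)
    (h : SepN D n a b) : SepP hA a b := by
  obtain ⟨c, -, h1, h2⟩ := h
  obtain ⟨h, hh, e⟩ := exists_diag hD hA (fun i => (D.coroot.getD c #[]).getD i 0) v.ne_zero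
  have e' : ∀ s < D.nroots, ∀ t, h * hA.X s t * h⁻¹ = hA.X s ((v : K) ^ (D.pairing c s) * t) := e
  rw [← hv, orderOf_dvd_iff_zpow_eq_one] at h1 h2
  refine ⟨h, hh, (v : K) ^ (D.pairing c b), ?_, fun t => ?_, fun t => e' b hb t⟩
  · intro h0
    apply h2
    apply Units.ext
    rw [Units.val_zpow_eq_zpow_val, Units.val_one]
    exact sub_eq_zero.1 h0
  · rw [e' a ha, ← Units.val_zpow_eq_zpow_val, h1, Units.val_one, one_mul]

/-- the extension data attached to a scalar `v ≠ 0, 1` -/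
noncomputable def mkCX (hA : AddFact D K) (hP : PrimG hA) {v : K} (hv0 : v ≠ 0) (hv1 : v - 1 ≠ 0)
    {E : Type*} [Group E] (ρ : E →* GL D.Idx K) (cen : ρ.ker ≤ Subgroup.center E)
    (lift : ∀ g ∈ D.group K, ∃ e, ρ e = g) : CX D K hA E where
  ρ := ρ
  cen := cen
  lift := lift
  c := v
  hc1 := hv1
  hh := fun r => if hr : r < D.nroots then Classical.choose (hP r hr v hv0) else 1
  hh_mem := by
    intro r
    split_ifs with hr
    · exact (Classical.choose_spec (hP r hr v hv0)).1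
    · exact one_mem _
  hh_conj := by
    intro r hr t
    rw [dif_pos hr]
    exact (Classical.choose_spec (hP r hr v hv0)).2 t

namespace CX

variable {hA : AddFact D K} {E : Type*} [Group E] (C : CX D K hA E)
variable (hD : D ∈ [chevG2, chevB2, chevD4, chevF4, chevE6, chevE7, chevE8])
include hD

theorem comm_of_decN {n : ℕ} {NL : List ℤ} {v : Kˣ} (hv : orderOf v = n) (hNL : ∀ N ∈ NL, (N : K) ≠ 0)
    {a b : ℕ} (ha : a < D.nroots) (h : DecN D n NL a b) (t s : K) :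
    C.Z a t * C.Z b s = C.Z b s * C.Z a t := by
  obtain ⟨g, hg, d, hd, N, hN, h1, h2, hT, ⟨g1, g2, g0, gS⟩, ⟨d1, d2, d0, dS⟩⟩ := h
  exact C.comm_of_dec hD hg hd h1 h2 (hNL N hN) hT
    (fun x => C.comm_of_sep hD (sepP_of hD hA hv ha hg gS) ha hg g1 g2 g0 t x)
    (fun x => C.comm_of_sep hD (sepP_of hD hA hv ha hd dS) ha hd d1 d2 d0 t x) s

theorem zcomm_of_tab {n : ℕ} {NL : List ℤ} (V : VTab D n NL) {v : Kˣ} (hv : orderOf v = n)
    (hNL : ∀ N ∈ NL, (N : K) ≠ 0) : C.ZComm := by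
  intro r t u
  by_cases hr : r < D.nroots
  · exact C.comm_of_decN hD hv hNL hr (V.self r hr) t u
  · rw [C.Z_of_ge hr, C.Z_of_ge hr]

theorem cm_of_tab {n : ℕ} {NL : List ℤ} (V : VTab D n NL) {v : Kˣ} (hv : orderOf v = n)
    (hNL : ∀ N ∈ NL, (N : K) ≠ 0) : C.CM := by
  intro a ha b hb h1 h2 L hbL hL t u
  rcases V.pair a ha b hb h1 h2 with h | h
  · exact C.conj_mem_Cl_of_sep hD (C.zcomm_of_tab hD V hv hNL) (sepP_of hD hA hv ha hb h) ha hb h1 h2 hbL hL t u
  · rw [C.comm_of_decN hD hv hNL ha h, mul_inv_cancel_right]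
    exact X_mem_Cl _ hbL u

end CX

/-- the cover lifts to every central extension of the Chevalley group over a field with `n + 1` elements -/
theorem exists_lift_small (hD : D ∈ [chevG2, chevB2, chevD4, chevF4, chevE6, chevE7, chevE8]) (hA : AddFact D K)
    (hPr : PrimT D) (hP : TermsPos D) {n : ℕ} {NL : List ℤ} (V : VTab D n NL) {v : Kˣ}
    (hv : orderOf v = n) (hn : 2 ≤ n) (hNL : ∀ N ∈ NL, (N : K) ≠ 0) {E : Type*} [Group E]
    (ρ : E →* GL D.Idx K) (cen : ρ.ker ≤ Subgroup.center E) (lift : ∀ g ∈ D.group K, ∃ e, ρ e = g) :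
    ∃ τ : D.SteinbergCover K →* E, ∀ x, ρ (τ x) = (sysCover hD hA).π x := by
  have hv1 : (v : K) - 1 ≠ 0 := by
    intro h0
    have : v = 1 := Units.ext (by rw [Units.val_one]; exact sub_eq_zero.1 h0)
    rw [this, orderOf_one] at hv
    omega
  let C := mkCX hA (primG_of hD hA hPr) v.ne_zero hv1 ρ cen lift
  exact C.exists_lift hD (stTab_of_mem hD) (C.zcomm_of_tab hD V hv hNL) (C.cm_of_tab hD V hv hNL) hP

/-- finite stem extensions of `G₂(q)`, `F₄(q)`, `E₈(q)` are trivial, given the table facts -/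
theorem stem_ker_bot_small [Finite K] (hD3 : D ∈ [chevG2, chevF4, chevE8]) {n : ℕ} {NL : List ℤ}
    (V : VTab D n NL) {v : Kˣ} (hv : orderOf v = n) (hn : 2 ≤ n) (hNL : ∀ N ∈ NL, (N : K) ≠ 0)
    {Γ : Type*} [Group Γ] (σ : Γ →* ↥(D.group K)) (hs : Function.Surjective σ)
    (hc : σ.ker ≤ Subgroup.center Γ) (hcomm : σ.ker ≤ commutator Γ) : σ.ker = ⊥ := by
  have hD : D ∈ [chevG2, chevB2, chevD4, chevF4, chevE6, chevE7, chevE8] := by
    simp only [List.mem_cons, List.not_mem_nil, or_false] at hD3 ⊢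
    tauto
  have hD6 : D ∈ [chevG2, chevD4, chevF4, chevE6, chevE7, chevE8] := by
    simp only [List.mem_cons, List.not_mem_nil, or_false] at hD3 ⊢
    tauto
  have hA := addFact_of_mem K hD
  refine stem_trivial hD hA (cover_ker_bot hD3 hD hA) σ hs hc hcomm ?_
  exact exists_lift_small hD hA ((utabs_of_mem hD).prim hD6) (utabs_of_mem hD).pos V hv hn hNL
    ((D.group K).subtype.comp σ)
    (fun z hz => hc (MonoidHom.mem_ker.2 (Subtype.ext hz)))
    (fun g hg => by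
      obtain ⟨e, he⟩ := hs ⟨g, hg⟩
      exact ⟨e, by rw [MonoidHom.comp_apply, he]; rfl⟩)

end Cfsg.Agent.Lib.Helper45.StV
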