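import Cfsg.Agent.Lib.Helper45.StV4

/-!
# The table facts for `F₄` over the fields with `3` and `4` elements
-/

set_option autoImplicit false
set_option maxRecDepth 1000000
set_option maxHeartbeats 0

namespace Cfsg.Agent.Lib.Helper45.StV

open Cfsg.Lie Cfsg.Agent.Lib.Helper22 Cfsg.Agent.Lib.Helper23 Cfsg.Agent.Lib.Helper45

noncomputable def sepB (T : Tb) (n : ℕ) (a b : ℕ) : Bool :=
  anyBelow T.n fun c => Bool.rec false (decide (¬ (n : ℤ) ∣ prF T c b)) (decide ((n : ℤ) ∣ prF T c a))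

noncomputable def indB (n a b : ℕ) : Bool :=
  Bool.rec (Bool.rec true false (Nat.beq (Nat.add a b) (Nat.sub n 1))) false (Nat.beq b a)

/-- `g` is independent of `a`, commutes with it and can be separated from it -/
noncomputable def okB (T : Tb) (ct : ℕ → ℕ → List (ℕ × ℤ × ℕ × ℕ)) (n : ℕ) (a g : ℕ) : Bool :=
  Bool.rec false (Bool.rec false (sepB T n a g) (ct a g).isEmpty) (indB T.n a g)

noncomputable def decB (T : Tb) (ct : ℕ → ℕ → List (ℕ × ℤ × ℕ × ℕ)) (n : ℕ) (NL : List ℤ) (a b : ℕ) : Bool :=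
  anyBelow T.n fun g => Bool.rec false (anyBelow T.n fun d => Bool.rec false (Bool.rec false
    (NL.any fun N => decide (ct g d = [(b, N, 1, 1)])) (indB T.n g d)) (okB T ct n a d)) (okB T ct n a g)

noncomputable def rowB (T : Tb) (ct : ℕ → ℕ → List (ℕ × ℤ × ℕ × ℕ)) (n : ℕ) (NL : List ℤ) (a : ℕ) : Bool :=
  Bool.rec false (allBelow T.n fun b => Bool.rec true (Bool.rec (decB T ct n NL a b) true (sepB T n a b))
    (indB T.n a b)) (decB T ct n NL a a)

theorem indB_iff {n a b : ℕ} : indB n a b = true ↔ b ≠ a ∧ a + b ≠ n - 1 := by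
  unfold indB
  rw [brec_not, brec_not]
  constructor
  · rintro ⟨h1, h2, -⟩
    refine ⟨fun e => ?_, fun e => ?_⟩
    · rw [e, Nat.beq_refl] at h1; exact absurd h1 (by simp)
    · have : Nat.beq (Nat.add a b) (Nat.sub n 1) = true := by rw [Nat.beq_eq]; exact e
      rw [this] at h2; exact absurd h2 (by simp)
  · rintro ⟨h1, h2⟩
    refine ⟨?_, ?_, rfl⟩
    · cases h : Nat.beq b a
      · rfl
      · exact absurd (Nat.eq_of_beq_eq_true h) h1
    · cases h : Nat.beq (Nat.add a b) (Nat.sub n 1)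
      · rfl
      · exact absurd (Nat.eq_of_beq_eq_true h) h2

theorem vtab_of_chk {T : Tb} {ct : ℕ → ℕ → List (ℕ × ℤ × ℕ × ℕ)} {D : ChevalleyDatum} (V : T.Valid D)
    (hsz : D.chain.size = T.n) (hct : ∀ r s, ct r s = commTermsOf (ceF T) r s) {n : ℕ} {NL : List ℤ}
    (hc : allBelow T.n (rowB T ct n NL) = true) : VTab D n NL := by
  have hcT : ∀ r s, D.commTerms r s = ct r s := by
    intro r s
    rw [commTerms_eq, chainEntry_eq_ceF V hsz, ← hct]
  have hind : ∀ a < T.n, ∀ b, indB T.n a b = true ↔ b ≠ a ∧ b ≠ D.neg a := by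
    intro a ha b
    rw [indB_iff, V.neg_eq' ha]
    constructor
    · rintro ⟨h1, h2⟩; exact ⟨h1, by omega⟩
    · rintro ⟨h1, h2⟩; exact ⟨h1, by omega⟩
  have hsep : ∀ a < T.n, ∀ b < T.n, sepB T n a b = true → SepN D n a b := by
    intro a ha b hb h
    unfold sepB at h
    obtain ⟨c, hc, h1⟩ := anyBelow_iff.1 h
    rw [brec_and] at h1
    refine ⟨c, V.hn ▸ hc, ?_, ?_⟩
    · rw [pairing_eq_prF V hc ha]; exact of_decide_eq_true h1.1
    · rw [pairing_eq_prF V hc hb]; exact of_decide_eq_true h1.2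
  have hok : ∀ a < T.n, ∀ g < T.n, okB T ct n a g = true →
      g ≠ a ∧ g ≠ D.neg a ∧ D.commTerms a g = [] ∧ SepN D n a g := by
    intro a ha g hg h
    unfold okB at h
    rw [brec_and, brec_and, hind a ha] at h
    exact ⟨h.1.1, h.1.2, by rw [hcT]; exact List.isEmpty_iff.1 h.2.1, hsep a ha g hg h.2.2⟩
  have hdec : ∀ a < T.n, ∀ b, decB T ct n NL a b = true → DecN D n NL a b := by
    intro a ha b h
    unfold decB at h
    obtain ⟨g, hg, h1⟩ := anyBelow_iff.1 h
    rw [brec_and] at h1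
    obtain ⟨d, hd, h2⟩ := anyBelow_iff.1 h1.2
    rw [brec_and, brec_and, hind g hg, List.any_eq_true] at h2
    obtain ⟨N, hN, h3⟩ := h2.2.2
    exact ⟨g, V.hn ▸ hg, d, V.hn ▸ hd, N, hN, h2.2.1.1, h2.2.1.2, by rw [hcT]; exact of_decide_eq_true h3,
      hok a ha g hg h1.1, hok a ha d hd h2.1⟩
  have key := fun a ha => allBelow_iff.1 hc a ha
  refine ⟨?_, ?_⟩
  · intro a ha b hb h1 h2
    rw [← V.hn] at ha hb
    have h := key a ha
    unfold rowB at h
    rw [brec_and, allBelow_iff] at h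
    have h3 := h.2 b hb
    rw [(hind a ha b).2 ⟨h1, h2⟩] at h3
    have h4 : (Bool.rec (decB T ct n NL a b) true (sepB T n a b) : Bool) = true := h3
    rw [brec_or] at h4
    rcases h4 with h4 | h4
    · exact Or.inl (hsep a ha b hb h4)
    · exact Or.inr (hdec a ha b h4)
  · intro q hq
    rw [← V.hn] at hq
    have h := key q hq
    unfold rowB at h
    rw [brec_and] at h
    exact hdec q hq q h.1

theorem chkF4_2 : allBelow tbF4.n (rowB tbF4 (commTermsOf (ceF tbF4)) 2 [1, -1, 2, -2]) = true := by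
  decide +kernel

theorem chkF4_3 : allBelow tbF4.n (rowB tbF4 (commTermsOf (ceF tbF4)) 3 [1, -1]) = true := by
  decide +kernel

theorem vtabF4_2 : VTab chevF4 2 [1, -1, 2, -2] :=
  vtab_of_chk tbF4_valid hszF4 (fun _ _ => rfl) chkF4_2

theorem vtabF4_3 : VTab chevF4 3 [1, -1] :=
  vtab_of_chk tbF4_valid hszF4 (fun _ _ => rfl) chkF4_3

end Cfsg.Agent.Lib.Helper45.StV
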