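import Cfsg.Agent.Lib.Helper45.StV5

/-!
# `D₄` over the field with `4` elements
-/

set_option autoImplicit false
set_option maxRecDepth 1000000
set_option maxHeartbeats 0

namespace Cfsg.Agent.Lib.Helper45.StW

open Cfsg.Lie Matrix Cfsg.Agent.Lib.Helper22 Cfsg.Agent.Lib.Helper23 Cfsg.Agent.Lib.Helper45
  Cfsg.Agent.Lib.Helper23.StP Cfsg.Agent.Lib.Helper45.StV

theorem chkD4_3 : allBelow tbD4.n (rowB tbD4 (ct1 tbD4) 3 [1, -1]) = true := by
  decide +kernel

theorem vtabD4_3 : VTab chevD4 3 [1, -1] :=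
  vtab_of_chk tbD4_valid hszD4 (ct1_eq tbD4 rfl) chkD4_3

/-- a generator of the multiplicative group -/
theorem exists_gen {K : Type*} [Field K] [Fintype K] : ∃ v : Kˣ, orderOf v = Fintype.card K - 1 := by
  classical
  obtain ⟨v, hv⟩ := IsCyclic.exists_ofOrder_eq_natCard (α := Kˣ)
  rw [Nat.card_eq_fintype_card, Fintype.card_units] at hv
  exact ⟨v, hv⟩

theorem lift_D4_4 {K : Type*} [Field K] [Fintype K] (hK : Fintype.card K = 4) (hA : AddFact chevD4 K)
    {E : Type*} [Group E] (ρ : E →* GL chevD4.Idx K) (cen : ρ.ker ≤ Subgroup.center E)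
    (lift : ∀ g ∈ chevD4.group K, ∃ e, ρ e = g) :
    ∃ τ : chevD4.SteinbergCover K →* E, ∀ x, ρ (τ x) = (sysCover (by simp) hA).π x := by
  obtain ⟨v, hv⟩ := exists_gen (K := K)
  rw [hK] at hv
  refine exists_lift_small (by simp) hA ((utabs_of_mem (by simp)).prim (by simp)) (utabs_of_mem (by simp)).pos
    vtabD4_3 hv (by norm_num) ?_ ρ cen lift
  intro N hN
  simp only [List.mem_cons, List.not_mem_nil, or_false] at hN
  rcases hN with rfl | rfl <;> simp

end Cfsg.Agent.Lib.Helper45.StW
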