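import Cfsg.Agent.Lib.Helper45.StW0

/-!
# `D₄` over the field with `3` elements: definitions (Hall–Witt moves)
-/

set_option autoImplicit false

namespace Cfsg.Agent.Lib.Helper45.StW

open Cfsg.Lie Matrix Cfsg.Agent.Lib.Helper22 Cfsg.Agent.Lib.Helper23 Cfsg.Agent.Lib.Helper45
  Cfsg.Agent.Lib.Helper23.StP Cfsg.Agent.Lib.Helper45.StV

/-- `p`, `q` independent, commuting, and `q` can be separated from `p` modulo `n` -/
def CS (D : ChevalleyDatum) (n p q : ℕ) : Prop :=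
  q ≠ p ∧ q ≠ D.neg p ∧ D.commTerms p q = [] ∧ SepN D n p q

/-- one Hall–Witt move from the pair `(a, b)` to the pair `(e, g)`: `b = g + d`, `e = a + d` -/
def Move (D : ChevalleyDatum) (n a b g d e : ℕ) (N M : ℤ) : Prop :=
  d ≠ g ∧ d ≠ D.neg g ∧ D.commTerms g d = [(b, N, 1, 1)] ∧ CS D n a g ∧
    d ≠ a ∧ d ≠ D.neg a ∧ D.commTerms a d = [(e, M, 1, 1)] ∧ CS D n e b ∧
    g ≠ e ∧ g ≠ D.neg e ∧ D.commTerms e g = []

/-- two Hall–Witt moves from `(a, b)` to `(b, a)` with total sign `+1` -/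
def HW2 (D : ChevalleyDatum) (n a b : ℕ) : Prop :=
  D.commTerms a b = [] ∧ D.commTerms b a = [] ∧
  ∃ g < D.nroots, ∃ d < D.nroots, ∃ e < D.nroots, ∃ d' < D.nroots,
    ∃ N ∈ [(1 : ℤ), -1], ∃ M ∈ [(1 : ℤ), -1], ∃ N' ∈ [(1 : ℤ), -1], ∃ M' ∈ [(1 : ℤ), -1],
      Move D n a b g d e N M ∧ Move D n e g a d' b N' M' ∧ N * N' = M * M'

/-- the table facts for an odd prime field -/
structure VTab3 (D : ChevalleyDatum) (n : ℕ) (NL : List ℤ) : Prop where
  pair : ∀ a < D.nroots, ∀ b < D.nroots, b ≠ a → b ≠ D.neg a → SepN D n a b ∨ HW2 D n a b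
  self : ∀ q < D.nroots, DecN D n NL q q

variable {D : ChevalleyDatum} {K : Type*} [Field K] {hA : AddFact D K} {E : Type*} [Group E]

/-- the commutator of two canonical lifts -/
noncomputable def FF (C : CX D K hA E) (p q : ℕ) (t u : K) : E := C.Z p t * C.Z q u * (C.Z p t)⁻¹ * (C.Z q u)⁻¹

end Cfsg.Agent.Lib.Helper45.StW
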