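import Cfsg.Agent.Lib.Helper45.StW2

/-!
# Canonical lifts for the roots which are scaled by some diagonal element (copy of `StV1`)
-/

set_option autoImplicit false

namespace Cfsg.Agent.Lib.Helper45.StW

open Cfsg.Lie Matrix Cfsg.Agent.Lib.Helper23 Cfsg.Agent.Lib.Helper22 Cfsg.Agent.Lib.Helper45
  Cfsg.Agent.Lib.Helper23.StP Cfsg.Agent.Lib.Helper45.StV

/-- a central extension of the Chevalley group, with a diagonal element `hh r` scaling `X_r` by `c ≠ 1` -/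
structure CY (D : ChevalleyDatum) (K : Type*) [Field K] (hA : AddFact D K) (E : Type*) [Group E] where
  ρ : E →* GL D.Idx K
  cen : ρ.ker ≤ Subgroup.center E
  lift : ∀ g ∈ D.group K, ∃ e, ρ e = g
  c : K
  hc1 : c - 1 ≠ 0
  hh : ℕ → GL D.Idx K
  hh_mem : ∀ r, hh r ∈ D.diagonalSubgroup K
  good : ℕ → Prop
  hh_conj : ∀ r < D.nroots, good r → ∀ t, hh r * hA.X r t * (hh r)⁻¹ = hA.X r (c * t)

namespace CY

variable {D : ChevalleyDatum} {K : Type*} [Field K] {hA : AddFact D K} {E : Type*} [Group E]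
variable (C : CY D K hA E)

noncomputable def xL (r : ℕ) (t : K) : E := Classical.choose (C.lift _ (hA.X_mem_group r t))

theorem rho_xL (r : ℕ) (t : K) : C.ρ (C.xL r t) = hA.X r t :=
  Classical.choose_spec (C.lift _ (hA.X_mem_group r t))

noncomputable def hL (r : ℕ) : E := Classical.choose (C.lift _ (hA.diag_le_group (C.hh_mem r)))

theorem rho_hL (r : ℕ) : C.ρ (C.hL r) = C.hh r :=
  Classical.choose_spec (C.lift _ (hA.diag_le_group (C.hh_mem r)))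

/-- the canonical lifts of the root elements -/
noncomputable def Z (r : ℕ) (t : K) : E :=
  if r < D.nroots then C.hL r * C.xL r ((C.c - 1)⁻¹ * t) * (C.hL r)⁻¹ * (C.xL r ((C.c - 1)⁻¹ * t))⁻¹
  else 1

theorem Z_of_ge {r : ℕ} (hr : ¬ r < D.nroots) (t : K) : C.Z r t = 1 := by rw [Z, if_neg hr]

theorem Z_eq {r : ℕ} (hr : r < D.nroots) {h x : E} {s : K} (hh : C.ρ h = C.hh r)
    (hx : C.ρ x = hA.X r s) : h * x * h⁻¹ * x⁻¹ = C.Z r ((C.c - 1) * s) := by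
  rw [Z, if_pos hr, inv_mul_cancel_left₀ C.hc1]
  exact comm_lift C.ρ C.cen (by rw [hh, rho_hL]) (by rw [hx, rho_xL])

/-- naturality of the canonical lifts -/
theorem conj_Z {e : E} {r r' : ℕ} (hr : r < D.nroots) (hr' : r' < D.nroots) {d : K}
    (h1 : ∀ t, C.ρ e * hA.X r t * (C.ρ e)⁻¹ = hA.X r' (d * t))
    (h2 : C.ρ e * C.hh r * (C.ρ e)⁻¹ = C.hh r') (t : K) :
    e * C.Z r t * e⁻¹ = C.Z r' (d * t) := by
  have e1 : e * C.Z r t * e⁻¹ = (e * C.hL r * e⁻¹) * (e * C.xL r ((C.c - 1)⁻¹ * t) * e⁻¹) *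
      (e * C.hL r * e⁻¹)⁻¹ * (e * C.xL r ((C.c - 1)⁻¹ * t) * e⁻¹)⁻¹ := by
    rw [Z, if_pos hr]; group
  rw [e1, C.Z_eq hr' (s := d * ((C.c - 1)⁻¹ * t))
    (by rw [map_mul, map_mul, map_inv, rho_hL, h2]) (by rw [map_mul, map_mul, map_inv, rho_xL, h1])]
  congr 1
  have := C.hc1
  field_simp

variable (hD : D ∈ [chevG2, chevB2, chevD4, chevF4, chevE6, chevE7, chevE8])
include hD

theorem rho_Z {r : ℕ} (hg : C.good r) (t : K) : C.ρ (C.Z r t) = hA.X r t := by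
  by_cases hr : r < D.nroots
  · rw [Z, if_pos hr, map_mul, map_mul, map_mul, map_inv, map_inv, rho_hL, rho_xL]
    have e : C.hh r * hA.X r ((C.c - 1)⁻¹ * t) * (C.hh r)⁻¹ =
      hA.X r (C.c * ((C.c - 1)⁻¹ * t)) := C.hh_conj r hr hg _
    rw [e, hA.X_inv, ← hA.X_add]
    congr 1
    have := C.hc1
    field_simp
    ring
  · rw [C.Z_of_ge hr, map_one]
    exact (Units.ext (x_of_ge hr t)).symm

/-- conjugation by lifts of diagonal elements -/
theorem conj_Z_diag {e : E} (he : C.ρ e ∈ D.diagonalSubgroup K) {r : ℕ} (hr : r < D.nroots) {d : K}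
    (h1 : ∀ t, C.ρ e * hA.X r t * (C.ρ e)⁻¹ = hA.X r (d * t)) (t : K) :
    e * C.Z r t * e⁻¹ = C.Z r (d * t) := by
  have b := bundle_of_mem K hD
  apply C.conj_Z hr hr h1
  rw [hA.diag_comm b.hT he (C.hh_mem r), mul_inv_cancel_right]

omit hD in
/-- the lifts in one root subgroup commute -/
def ZC (r : ℕ) : Prop := ∀ t u, C.Z r t * C.Z r u = C.Z r u * C.Z r t

theorem conj_hL {r : ℕ} (hr : r < D.nroots) (hg : C.good r) (t : K) :
    C.hL r * C.Z r t * (C.hL r)⁻¹ = C.Z r (C.c * t) := by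
  apply C.conj_Z_diag hD (by rw [rho_hL]; exact C.hh_mem r) hr
  intro t
  rw [rho_hL]
  exact C.hh_conj r hr hg t

theorem Z_add {r : ℕ} (hg : C.good r) (hc : C.ZC r) (t u : K) : C.Z r (t + u) = C.Z r t * C.Z r u := by
  by_cases hr : r < D.nroots
  · have key : ∀ t u, C.Z r ((C.c - 1) * (t + u)) = C.Z r ((C.c - 1) * t) * C.Z r ((C.c - 1) * u) := by
      intro t u
      rw [← C.Z_eq hr (C.rho_hL r) (x := C.Z r t * C.Z r u) (by rw [map_mul, C.rho_Z hD hg, C.rho_Z hD hg, hA.X_add]),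
        ← C.Z_eq hr (C.rho_hL r) (C.rho_Z hD hg t), ← C.Z_eq hr (C.rho_hL r) (C.rho_Z hD hg u)]
      have e : C.hL r * (C.Z r t * C.Z r u) * (C.hL r)⁻¹ * (C.Z r t * C.Z r u)⁻¹ =
          (C.hL r * C.Z r t * (C.hL r)⁻¹) * ((C.hL r * C.Z r u * (C.hL r)⁻¹) * (C.Z r u)⁻¹) * (C.Z r t)⁻¹ := by
        group
      rw [e, C.conj_hL hD hr hg, C.conj_hL hD hr hg]
      have c1 : (C.Z r (C.c * u) * (C.Z r u)⁻¹) * (C.Z r t)⁻¹ =
          (C.Z r t)⁻¹ * (C.Z r (C.c * u) * (C.Z r u)⁻¹) := by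
        have h1 := hc t (C.c * u)
        have h2 := hc t u
        have h1' : C.Z r (C.c * u) * (C.Z r t)⁻¹ = (C.Z r t)⁻¹ * C.Z r (C.c * u) := by
          rw [eq_inv_mul_iff_mul_eq, ← mul_assoc, h1, mul_inv_cancel_right]
        have h2' : (C.Z r u)⁻¹ * (C.Z r t)⁻¹ = (C.Z r t)⁻¹ * (C.Z r u)⁻¹ := by
          rw [← _root_.mul_inv_rev, ← _root_.mul_inv_rev, h2]
        rw [mul_assoc, h2', ← mul_assoc, h1', mul_assoc]
      rw [mul_assoc, c1]
      group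
    have := key ((C.c - 1)⁻¹ * t) ((C.c - 1)⁻¹ * u)
    rwa [← mul_add, mul_inv_cancel_left₀ C.hc1, mul_inv_cancel_left₀ C.hc1, mul_inv_cancel_left₀ C.hc1] at this
  · rw [C.Z_of_ge hr, C.Z_of_ge hr, C.Z_of_ge hr, one_mul]

theorem Z_zero {r : ℕ} (hg : C.good r) (hc : C.ZC r) : C.Z r 0 = 1 := by
  have := C.Z_add hD hg hc 0 0
  rw [add_zero] at this
  exact left_eq_mul.1 this

theorem Z_neg {r : ℕ} (hg : C.good r) (hc : C.ZC r) (t : K) : C.Z r (-t) = (C.Z r t)⁻¹ := by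
  have := C.Z_add hD hg hc (-t) t
  rw [neg_add_cancel, C.Z_zero hD hg hc] at this
  exact eq_inv_of_mul_eq_one_left this.symm

/-- conjugation by lifts of the monomial elements -/
theorem conj_Z_nword {l : List ℕ} (hl : ∀ i ∈ l, i < D.rank) {e : E}
    (he : C.ρ e = hA.nword l) {r : ℕ} (hr : r < D.nroots) (hgr : C.good r)
    (hg' : C.good (wact D l r)) (hc : C.ZC (wact D l r)) :
    ∃ d : K, ∀ t, e * C.Z r t * e⁻¹ = C.Z (wact D l r) (d * t) := by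
  have b := bundle_of_mem K hD
  obtain ⟨d, hd0, h1⟩ := la_nword hD hA hl r hr
  have hr' := b.hR.wact_lt hl hr
  refine ⟨d, fun t => ?_⟩
  set g := e * C.hL r * e⁻¹ with hg
  have hρg : C.ρ g = hA.nword l * C.hh r * (hA.nword l)⁻¹ := by
    rw [hg, map_mul, map_mul, map_inv, he, C.rho_hL]
  have hgd : C.ρ g ∈ D.diagonalSubgroup K := by
    rw [hρg]
    exact hA.nword_conj_diag b.hR b.hN hl (C.hh_mem r)
  have hgX : ∀ t, C.ρ g * hA.X (wact D l r) t * (C.ρ g)⁻¹ = hA.X (wact D l r) (C.c * t) := by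
    intro t
    have e1 : hA.X (wact D l r) t = hA.nword l * hA.X r (d⁻¹ * t) * (hA.nword l)⁻¹ := by
      rw [h1, mul_inv_cancel_left₀ hd0]
    have e2 : hA.nword l * C.hh r * (hA.nword l)⁻¹ *
        (hA.nword l * hA.X r (d⁻¹ * t) * (hA.nword l)⁻¹) * (hA.nword l * C.hh r * (hA.nword l)⁻¹)⁻¹ =
        hA.nword l * (C.hh r * hA.X r (d⁻¹ * t) * (C.hh r)⁻¹) * (hA.nword l)⁻¹ := by group
    rw [hρg, e1, e2, C.hh_conj r hr hgr, h1]
    congr 1
    field_simp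
  set s := (C.c - 1)⁻¹ * t with hs
  have e1 : e * C.Z r t * e⁻¹ = g * (e * C.xL r s * e⁻¹) * g⁻¹ * (e * C.xL r s * e⁻¹)⁻¹ := by
    rw [Z, if_pos hr, ← hs, hg]; group
  rw [e1, comm_lift C.ρ C.cen (x' := g) (y' := C.Z (wact D l r) (d * s)) rfl
    (by rw [map_mul, map_mul, map_inv, rho_xL, he, h1, C.rho_Z hD hg']),
    C.conj_Z_diag hD hgd hr' hgX, ← C.Z_neg hD hg' hc, ← C.Z_add hD hg' hc]
  congr 1
  rw [hs]
  have := C.hc1
  field_simp
  ring

end CY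

end Cfsg.Agent.Lib.Helper45.StW
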