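import Cfsg.Agent.Lib.Helper45.StW3

/-!
# `B₂` over the field with `3` elements: definitions
-/

set_option autoImplicit false

namespace Cfsg.Agent.Lib.Helper45.StW

open Cfsg.Lie Matrix Cfsg.Agent.Lib.Helper22 Cfsg.Agent.Lib.Helper23 Cfsg.Agent.Lib.Helper45
  Cfsg.Agent.Lib.Helper23.StP Cfsg.Agent.Lib.Helper45.StV

theorem memB2 : chevB2 ∈ [chevG2, chevB2, chevD4, chevF4, chevE6, chevE7, chevE8] := by simp

/-- the short roots of `B₂` -/
def S2 : List ℕ := [1, 2, 5, 6]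
/-- the long roots of `B₂` -/
def L2 : List ℕ := [0, 3, 4, 7]

/-- a long root as a sum of two orthogonal short roots, with the structure constant -/
def decB2 : ℕ → ℕ × ℕ × ℤ
  | 0 => (1, 2, 2)
  | 3 => (1, 5, -2)
  | 4 => (2, 6, -2)
  | 7 => (5, 6, 2)
  | _ => (0, 0, 1)

variable {K : Type*} [Field K] {hA : AddFact chevB2 K} {E : Type*} [Group E]

/-- the commutator of two lifts -/
noncomputable def Bc (C : CY chevB2 K hA E) (p q : ℕ) (t u : K) : E :=
  (C.Z q u)⁻¹ * (C.Z p t)⁻¹ * C.Z q u * C.Z p t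

open Classical in
/-- the lifts of all root elements -/
noncomputable def ZZ (C : CY chevB2 K hA E) (r : ℕ) (t : K) : E :=
  if r ∈ S2 then C.Z r t
  else if r ∈ L2 then Bc C (decB2 r).1 (decB2 r).2.1 (-(((decB2 r).2.2 : K)⁻¹ * t)) 1
  else 1

/-- the hypotheses for the field with three elements -/
structure B3 (C : CY chevB2 K hA E) : Prop where
  good_iff : ∀ r, C.good r ↔ r ∈ S2
  h3 : ∀ t : K, t = 0 ∨ t = 1 ∨ t = -1
  h30 : (3 : K) = 0
  hh_long : ∀ s, ∀ r ∈ L2, ∀ t, C.hh s * hA.X r t * (C.hh s)⁻¹ = hA.X r t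

/-- the relation (R2) for the pairs of orthogonal short roots -/
def HB (Z : CZ chevB2 K hA E) : Prop := ∀ p ∈ S2, ∀ q ∈ S2, ∀ (r : ℕ) (N : ℤ),
  chevB2.commTerms p q = [(r, N, 1, 1)] → ∀ t u : K,
    (Z.Z q u)⁻¹ * (Z.Z p t)⁻¹ * Z.Z q u * Z.Z p t = Z.Z r ((N : K) * (-t) * u)

/-- long roots can be separated from short roots -/
def HS (hA : AddFact chevB2 K) : Prop := ∀ r ∈ L2, ∀ s ∈ S2, SepP hA r s

end Cfsg.Agent.Lib.Helper45.StW
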