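import Cfsg.Agent.Lib.Helper45.StW4

/-!
# `B₂` over the field with `4` elements
-/

set_option autoImplicit false
set_option maxRecDepth 100000

namespace Cfsg.Agent.Lib.Helper45.StW

open Cfsg.Lie Matrix Cfsg.Agent.Lib.Helper22 Cfsg.Agent.Lib.Helper23 Cfsg.Agent.Lib.Helper45
  Cfsg.Agent.Lib.Helper23.StP Cfsg.Agent.Lib.Helper45.StV

theorem b2_n8 : chevB2.nroots = 8 := by decide +kernel

theorem b2_sep3' : ∀ a ∈ List.range 8, ∀ b ∈ List.range 8, b ≠ a → b ≠ chevB2.neg a →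
    ∃ c ∈ List.range 8, (3 : ℤ) ∣ chevB2.pairing c a ∧ ¬ (3 : ℤ) ∣ chevB2.pairing c b := by
  decide +kernel

theorem b2_sep3 {a b : ℕ} (ha : a < chevB2.nroots) (hb : b < chevB2.nroots) (h1 : b ≠ a)
    (h2 : b ≠ chevB2.neg a) : SepN chevB2 3 a b := by
  rw [b2_n8] at ha hb
  obtain ⟨c, hc, h⟩ := b2_sep3' a (List.mem_range.2 ha) b (List.mem_range.2 hb) h1 h2
  exact ⟨c, by rw [b2_n8]; exact List.mem_range.1 hc, h⟩

theorem b2_self : ∀ r ∈ List.range 8, chevB2.pairing r r = 2 := by decide +kernel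

/-- short roots as first terms of a two term formula -/
theorem b2_tabS : ∀ q ∈ S2, ∃ a ∈ List.range 8, ∃ b ∈ List.range 8, ∃ q' ∈ List.range 8,
    ∃ r' ∈ List.range 8, ∃ ε₁ ∈ [(1 : ℤ), -1], ∃ ε₂ ∈ [(1 : ℤ), -1], ∃ N ∈ [(2 : ℤ), -2],
      b ≠ a ∧ b ≠ chevB2.neg a ∧ chevB2.commTerms a b = [(q, ε₁, 1, 1), (q', ε₂, 1, 2)] ∧
      a ≠ q ∧ a ≠ chevB2.neg q ∧ chevB2.commTerms q a = [] ∧
      q' ≠ q ∧ q' ≠ chevB2.neg q ∧ chevB2.commTerms q q' = [] ∧
      b ≠ q ∧ b ≠ chevB2.neg q ∧ chevB2.commTerms q b = [(r', N, 1, 1)] := by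
  intro q hq
  simp only [S2, List.mem_cons, List.not_mem_nil, or_false] at hq
  rcases hq with rfl | rfl | rfl | rfl
  · exact ⟨0, by decide, 5, by decide, 3, by decide, 3, by decide, 1, by simp, -1, by simp, -2, by simp,
      by decide +kernel⟩
  · exact ⟨0, by decide, 6, by decide, 4, by decide, 4, by decide, -1, by simp, 1, by simp, -2, by simp,
      by decide +kernel⟩
  · exact ⟨3, by decide, 6, by decide, 7, by decide, 7, by decide, 1, by simp, 1, by simp, 2, by simp,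
      by decide +kernel⟩
  · exact ⟨4, by decide, 5, by decide, 7, by decide, 7, by decide, 1, by simp, -1, by simp, -2, by simp,
      by decide +kernel⟩

/-- long roots as second terms of a two term formula -/
theorem b2_tabL : ∀ q ∈ L2, ∃ a ∈ List.range 8, ∃ b ∈ List.range 8, ∃ p ∈ List.range 8,
    ∃ ε₁ ∈ [(1 : ℤ), -1], ∃ ε₂ ∈ [(1 : ℤ), -1],
      b ≠ a ∧ b ≠ chevB2.neg a ∧ chevB2.commTerms a b = [(p, ε₁, 1, 1), (q, ε₂, 1, 2)] ∧
      a ≠ q ∧ a ≠ chevB2.neg q ∧ chevB2.commTerms q a = [] ∧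
      b ≠ q ∧ b ≠ chevB2.neg q ∧ chevB2.commTerms q b = [] ∧
      p ≠ q ∧ p ≠ chevB2.neg q ∧ chevB2.commTerms q p = [] := by
  intro q hq
  simp only [L2, List.mem_cons, List.not_mem_nil, or_false] at hq
  rcases hq with rfl | rfl | rfl | rfl
  · exact ⟨3, by decide, 2, by decide, 1, by decide, -1, by simp, -1, by simp, by decide +kernel⟩
  · exact ⟨0, by decide, 5, by decide, 1, by decide, 1, by simp, -1, by simp, by decide +kernel⟩
  · exact ⟨0, by decide, 6, by decide, 2, by decide, -1, by simp, 1, by simp, by decide +kernel⟩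
  · exact ⟨4, by decide, 5, by decide, 6, by decide, 1, by simp, -1, by simp, by decide +kernel⟩

variable {D : ChevalleyDatum} {K : Type*} [Field K] {hA : AddFact D K} {E : Type*} [Group E]
variable (C : CX D K hA E) (hD : D ∈ [chevG2, chevB2, chevD4, chevF4, chevE6, chevE7, chevE8])
include hD

/-- `CX.comm_of_sep` when the commutator formula is trivial for another reason -/
theorem comm_of_sep2 {a b : ℕ} (hS : SepP hA a b) (ha : a < D.nroots) (hb : b < D.nroots) (h1 : b ≠ a)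
    (h2 : b ≠ D.neg a) (h0 : ∀ t u : K, WW hA.X (D.commWord K a b t u) = 1) (t u : K) :
    C.Z a t * C.Z b u = C.Z b u * C.Z a t := by
  have hρ : ∀ t u, C.ρ (C.Z a t * C.Z b u * (C.Z a t)⁻¹ * (C.Z b u)⁻¹) = 1 := by
    intro t u
    rw [map_mul, map_mul, map_mul, map_inv, map_inv, C.rho_Z hD, C.rho_Z hD, CExt.conj_eq_G hD ha hb h1 h2,
      h0, mul_one, mul_inv_cancel]
  obtain ⟨h, hh, w, hw, ea, eb⟩ := hS
  obtain ⟨g, rfl⟩ := C.lift h (hA.diag_le_group hh)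
  have := bilin_trivial' (fun t u => C.Z a t * C.Z b u * (C.Z a t)⁻¹ * (C.Z b u)⁻¹)
    (fun t u u' => by
      show C.Z a t * C.Z b (u + u') * (C.Z a t)⁻¹ * (C.Z b (u + u'))⁻¹ = _
      rw [comm_lift C.ρ C.cen (x' := C.Z a t) (y' := C.Z b u * C.Z b u') rfl
        (by rw [map_mul, C.rho_Z hD, C.rho_Z hD, C.rho_Z hD, hA.X_add])]
      exact comm_mul_right C.ρ C.cen (hρ t u')) hw
    (fun t u => by
      show C.Z a t * C.Z b (w * u) * (C.Z a t)⁻¹ * (C.Z b (w * u))⁻¹ = _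
      have e1 : g * C.Z a t * g⁻¹ = C.Z a t := by
        have := C.conj_Z_diag hD hh ha (d := 1) (by intro t; rw [one_mul]; exact ea t) t
        rwa [one_mul] at this
      rw [← C.conj_Z_diag hD hh hb eb, ← C.central_of_rho (hρ t u) g]
      nth_rewrite 1 [← e1]
      nth_rewrite 2 [← e1]
      group) t u
  have h3 : C.Z a t * C.Z b u * (C.Z a t)⁻¹ * (C.Z b u)⁻¹ = 1 := this
  rwa [mul_inv_eq_one, mul_inv_eq_iff_eq_mul] at h3

/-- an element commuting with the lifts of `X_a`, `X_b`, `X_{q'}` commutes with the lifts of `X_q`, where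
`[X_a, X_b] ⊆ X_q X_{q'}` (first term) -/
theorem comm_of_two1 {a b q q' : ℕ} {ε₁ ε₂ : ℤ} {j : ℕ} (ha : a < D.nroots) (hb : b < D.nroots) (h1 : b ≠ a)
    (h2 : b ≠ D.neg a) (hε : ε₁ = 1 ∨ ε₁ = -1) (hT : D.commTerms a b = [(q, ε₁, 1, 1), (q', ε₂, 1, j)]) {z : E}
    (ca : ∀ x, z * C.Z a x = C.Z a x * z) (cb : ∀ x, z * C.Z b x = C.Z b x * z)
    (cq : ∀ x, z * C.Z q' x = C.Z q' x * z) (s : K) : z * C.Z q s = C.Z q s * z := by
  have inv_c : ∀ y : E, z * y = y * z → z * y⁻¹ = y⁻¹ * z := by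
    intro y hy
    rw [eq_inv_mul_iff_mul_eq, ← mul_assoc, ← hy, mul_inv_cancel_right]
  have mul_c : ∀ y y' : E, z * y = y * z → z * y' = y' * z → z * (y * y') = (y * y') * z := by
    intro y y' hy hy'
    rw [← mul_assoc, hy, mul_assoc, hy', mul_assoc]
  set t' : K := -((ε₁ : K) * s) with ht'
  set c₂ : K := (ε₂ : K) * (-t') ^ 1 * (1 : K) ^ j with hc₂
  set y := ((C.Z b 1)⁻¹ * (C.Z a t')⁻¹ * C.Z b 1 * C.Z a t') * (C.Z q' c₂)⁻¹ with hy
  have hzy : z * y = y * z :=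
    mul_c _ _ (mul_c _ _ (mul_c _ _ (mul_c _ _ (inv_c _ (cb _)) (inv_c _ (ca _))) (cb _)) (ca _)) (inv_c _ (cq _))
  have hεε : (ε₁ : K) * (ε₁ : K) = 1 := by rcases hε with rfl | rfl <;> simp
  have hρ : C.ρ (C.Z q s) = C.ρ y := by
    rw [hy]
    simp only [map_mul, map_inv, C.rho_Z hD]
    rw [comm_G hD hA ha hb h1 h2]
    simp only [ChevalleyDatum.commWord, hT, List.map_cons, List.map_nil, WW_cons, WW_nil, mul_one]
    rw [← hc₂, mul_inv_cancel_right]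
    congr 1
    rw [ht', neg_neg, pow_one, one_pow, mul_one, ← mul_assoc, hεε, one_mul]
  have := conj_lift C.ρ C.cen hρ z
  rw [← hzy, mul_inv_cancel_right, mul_inv_eq_iff_eq_mul] at this
  exact this.symm

/-- the same for the second term -/
theorem comm_of_two2 {a b p q : ℕ} {ε₁ ε₂ : ℤ} {j : ℕ} (ha : a < D.nroots) (hb : b < D.nroots) (h1 : b ≠ a)
    (h2 : b ≠ D.neg a) (hε : ε₂ = 1 ∨ ε₂ = -1) (hT : D.commTerms a b = [(p, ε₁, 1, 1), (q, ε₂, 1, j)]) {z : E}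
    (ca : ∀ x, z * C.Z a x = C.Z a x * z) (cb : ∀ x, z * C.Z b x = C.Z b x * z)
    (cp : ∀ x, z * C.Z p x = C.Z p x * z) (s : K) : z * C.Z q s = C.Z q s * z := by
  have inv_c : ∀ y : E, z * y = y * z → z * y⁻¹ = y⁻¹ * z := by
    intro y hy
    rw [eq_inv_mul_iff_mul_eq, ← mul_assoc, ← hy, mul_inv_cancel_right]
  have mul_c : ∀ y y' : E, z * y = y * z → z * y' = y' * z → z * (y * y') = (y * y') * z := by
    intro y y' hy hy'
    rw [← mul_assoc, hy, mul_assoc, hy', mul_assoc]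
  set t' : K := -((ε₂ : K) * s) with ht'
  set c₁ : K := (ε₁ : K) * (-t') ^ 1 * (1 : K) ^ 1 with hc₁
  set y := (C.Z p c₁)⁻¹ * ((C.Z b 1)⁻¹ * (C.Z a t')⁻¹ * C.Z b 1 * C.Z a t') with hy
  have hzy : z * y = y * z :=
    mul_c _ _ (inv_c _ (cp _)) (mul_c _ _ (mul_c _ _ (mul_c _ _ (inv_c _ (cb _)) (inv_c _ (ca _))) (cb _)) (ca _))
  have hεε : (ε₂ : K) * (ε₂ : K) = 1 := by rcases hε with rfl | rfl <;> simp
  have hρ : C.ρ (C.Z q s) = C.ρ y := by
    rw [hy]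
    simp only [map_mul, map_inv, C.rho_Z hD]
    rw [comm_G hD hA ha hb h1 h2]
    simp only [ChevalleyDatum.commWord, hT, List.map_cons, List.map_nil, WW_cons, WW_nil, mul_one]
    rw [← hc₁, inv_mul_cancel_left]
    congr 1
    rw [ht', neg_neg, pow_one, one_pow, mul_one, ← mul_assoc, hεε, one_mul]
  have := conj_lift C.ρ C.cen hρ z
  rw [← hzy, mul_inv_cancel_right, mul_inv_eq_iff_eq_mul] at this
  exact this.symm

end Cfsg.Agent.Lib.Helper45.StW
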