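import Cfsg.Agent.Lib.Helper45.StW5

/-!
# `B₂` over the field with `4` elements: the lift of the cover
-/

set_option autoImplicit false

namespace Cfsg.Agent.Lib.Helper45.StW

open Cfsg.Lie Matrix Cfsg.Agent.Lib.Helper22 Cfsg.Agent.Lib.Helper23 Cfsg.Agent.Lib.Helper45
  Cfsg.Agent.Lib.Helper23.StP Cfsg.Agent.Lib.Helper45.StV

theorem b2_SL : ∀ r ∈ List.range 8, r ∈ S2 ∨ r ∈ L2 := by decide

theorem lift_B2_4 {K : Type*} [Field K] [Fintype K] (hK : Fintype.card K = 4) (hA : AddFact chevB2 K)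
    {E : Type*} [Group E] (ρ : E →* GL chevB2.Idx K) (cen : ρ.ker ≤ Subgroup.center E)
    (lift : ∀ g ∈ chevB2.group K, ∃ e, ρ e = g) :
    ∃ τ : chevB2.SteinbergCover K →* E, ∀ x, ρ (τ x) = (sysCover (by simp) hA).π x := by
  obtain ⟨v, hv⟩ := exists_gen (K := K)
  rw [hK] at hv
  have hv3 : orderOf v = 3 := hv
  have h20 : (2 : K) = 0 := by
    have h := FiniteField.even_card_iff_char_two.2 (by rw [hK] : Fintype.card K % 2 = 0)
    have h2 := ringChar.Nat.cast_ringChar (R := K)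
    rw [h] at h2
    exact_mod_cast h2
  have hdiag : ∀ r : ℕ, ∃ h ∈ chevB2.diagonalSubgroup K, ∀ s < chevB2.nroots, ∀ t,
      h * hA.X s t * h⁻¹ = hA.X s ((v : K) ^ (chevB2.pairing r s) * t) := fun r =>
    exists_diag memB2 hA (fun i => (chevB2.coroot.getD r #[]).getD i 0) v.ne_zero
  have hc1 : (v : K) ^ 2 - 1 ≠ 0 := by
    intro h0
    have h1 : v ^ 2 = 1 := Units.ext (by rw [Units.val_pow_eq_pow_val, Units.val_one]; exact sub_eq_zero.1 h0)
    have := orderOf_dvd_of_pow_eq_one h1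
    rw [hv3] at this
    omega
  let C : CX chevB2 K hA E :=
    { ρ := ρ
      cen := cen
      lift := lift
      c := (v : K) ^ 2
      hc1 := hc1
      hh := fun r => Classical.choose (hdiag r)
      hh_mem := fun r => (Classical.choose_spec (hdiag r)).1
      hh_conj := by
        intro r hr t
        rw [(Classical.choose_spec (hdiag r)).2 r hr t, b2_self r (List.mem_range.2 (b2_n8 ▸ hr)),
          zpow_ofNat] }
  have lt8 : ∀ {x : ℕ}, x ∈ List.range 8 → x < chevB2.nroots := fun h => by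
    rw [b2_n8]; exact List.mem_range.1 h
  have sep : ∀ {a b : ℕ}, a < chevB2.nroots → b < chevB2.nroots → b ≠ a → b ≠ chevB2.neg a → SepP hA a b :=
    fun ha hb h1 h2 => sepP_of memB2 hA hv3 ha hb (b2_sep3 ha hb h1 h2)
  have hc : C.ZComm := by
    intro r t u
    by_cases hr : r < chevB2.nroots
    · rcases b2_SL r (List.mem_range.2 (b2_n8 ▸ hr)) with hS | hL
      · obtain ⟨a, ha, b, hb, q', hq', r', hr', ε₁, hε₁, ε₂, -, N, hN, g1, g2, gT, a1, a2, a0, q1, q2, q0,
          b1, b2, bT⟩ := b2_tabS r hS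
        refine comm_of_two1 C memB2 (lt8 ha) (lt8 hb) g1 g2 (by simpa using hε₁) gT
          (fun x => C.comm_of_sep memB2 (sep hr (lt8 ha) a1 a2) hr (lt8 ha) a1 a2 a0 t x)
          (fun x => comm_of_sep2 C memB2 (sep hr (lt8 hb) b1 b2) hr (lt8 hb) b1 b2 ?_ t x)
          (fun x => C.comm_of_sep memB2 (sep hr (lt8 hq') q1 q2) hr (lt8 hq') q1 q2 q0 t x) u
        intro t u
        have hN0 : (N : K) = 0 := by
          simp only [List.mem_cons, List.not_mem_nil, or_false] at hN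
          rcases hN with rfl | rfl
          · simpa using h20
          · simpa using h20
        simp only [ChevalleyDatum.commWord, bT, List.map_cons, List.map_nil, WW_cons, WW_nil, mul_one, hN0,
          zero_mul]
        exact hA.X_zero r'
      · obtain ⟨a, ha, b, hb, p, hp, ε₁, -, ε₂, hε₂, g1, g2, gT, a1, a2, a0, b1, b2, b0, p1, p2, p0⟩ :=
          b2_tabL r hL
        exact comm_of_two2 C memB2 (lt8 ha) (lt8 hb) g1 g2 (by simpa using hε₂) gT
          (fun x => C.comm_of_sep memB2 (sep hr (lt8 ha) a1 a2) hr (lt8 ha) a1 a2 a0 t x)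
          (fun x => C.comm_of_sep memB2 (sep hr (lt8 hb) b1 b2) hr (lt8 hb) b1 b2 b0 t x)
          (fun x => C.comm_of_sep memB2 (sep hr (lt8 hp) p1 p2) hr (lt8 hp) p1 p2 p0 t x) u
    · rw [C.Z_of_ge hr, C.Z_of_ge hr]
  have hM : C.CM := by
    intro a ha b hb h1 h2 L hbL hL t u
    exact C.conj_mem_Cl_of_sep memB2 hc (sep ha hb h1 h2) ha hb h1 h2 hbL hL t u
  exact C.exists_lift memB2 (stTab_of_mem memB2) hc hM (utabs_of_mem memB2).pos

end Cfsg.Agent.Lib.Helper45.StW
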