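import Cfsg.Agent.Lib.Helper45.StW1

/-!
# The table facts for `D₄` over the field with `3` elements: the checker
-/

set_option autoImplicit false
set_option maxRecDepth 1000000
set_option maxHeartbeats 0

namespace Cfsg.Agent.Lib.Helper45.StW

open Cfsg.Lie Cfsg.Agent.Lib.Helper22 Cfsg.Agent.Lib.Helper23 Cfsg.Agent.Lib.Helper45
  Cfsg.Agent.Lib.Helper45.StV

/-- Boolean version of `Move` -/
noncomputable def moveB (T : Tb) (ct : ℕ → ℕ → List (ℕ × ℤ × ℕ × ℕ)) (n a b g d e : ℕ) (N M : ℤ) : Bool :=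
  indB T.n g d && decide (ct g d = [(b, N, 1, 1)]) && okB T ct n a g && indB T.n a d &&
    decide (ct a d = [(e, M, 1, 1)]) && okB T ct n e b && indB T.n e g && (ct e g).isEmpty

/-- Boolean version of `HW2` (with redundant early filters) -/
noncomputable def hw2B (T : Tb) (ct : ℕ → ℕ → List (ℕ × ℤ × ℕ × ℕ)) (n a b : ℕ) : Bool :=
  (ct a b).isEmpty && (ct b a).isEmpty &&
  anyBelow T.n fun g => okB T ct n a g && anyBelow T.n fun d => ((ct g d).any fun c => Nat.beq c.1 b) &&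
    anyBelow T.n fun e => ((ct a d).any fun c => Nat.beq c.1 e) && anyBelow T.n fun d' =>
      ((ct a d').any fun c => Nat.beq c.1 g) &&
    [(1 : ℤ), -1].any fun N => [(1 : ℤ), -1].any fun M => [(1 : ℤ), -1].any fun N' => [(1 : ℤ), -1].any fun M' =>
      moveB T ct n a b g d e N M && moveB T ct n e g a d' b N' M' && decide (N * N' = M * M')

noncomputable def row3B (T : Tb) (ct : ℕ → ℕ → List (ℕ × ℤ × ℕ × ℕ)) (n : ℕ) (NL : List ℤ) (a : ℕ) : Bool :=
  decB T ct n NL a a && allBelow T.n fun b => !(indB T.n a b) || sepB T n a b || hw2B T ct n a b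

theorem vtab3_of_chk {T : Tb} {ct : ℕ → ℕ → List (ℕ × ℤ × ℕ × ℕ)} {D : ChevalleyDatum} (V : T.Valid D)
    (hsz : D.chain.size = T.n) (hct : ∀ r s, ct r s = commTermsOf (ceF T) r s) {n : ℕ} {NL : List ℤ}
    (hc : allBelow T.n (row3B T ct n NL) = true) : VTab3 D n NL := by
  have hcT : ∀ r s, D.commTerms r s = ct r s := by
    intro r s
    rw [commTerms_eq, chainEntry_eq_ceF V hsz, ← hct]
  have hind : ∀ a < T.n, ∀ b, indB T.n a b = true ↔ b ≠ a ∧ b ≠ D.neg a := by
    intro a ha b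
    rw [indB_iff, V.neg_eq' ha]
    constructor
    · rintro ⟨h1, h2⟩; exact ⟨h1, by omega⟩
    · rintro ⟨h1, h2⟩; exact ⟨h1, by omega⟩
  have hsep : ∀ a < T.n, ∀ b < T.n, sepB T n a b = true → SepN D n a b := by
    intro a ha b hb h
    unfold sepB at h
    obtain ⟨c, hc, h1⟩ := anyBelow_iff.1 h
    rw [brec_and] at h1
    refine ⟨c, V.hn ▸ hc, ?_, ?_⟩
    · rw [pairing_eq_prF V hc ha]; exact of_decide_eq_true h1.1
    · rw [pairing_eq_prF V hc hb]; exact of_decide_eq_true h1.2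
  have hok : ∀ a < T.n, ∀ g < T.n, okB T ct n a g = true → CS D n a g := by
    intro a ha g hg h
    unfold okB at h
    rw [brec_and, brec_and, hind a ha] at h
    exact ⟨h.1.1, h.1.2, by rw [hcT]; exact List.isEmpty_iff.1 h.2.1, hsep a ha g hg h.2.2⟩
  have hdec : ∀ a < T.n, ∀ b, decB T ct n NL a b = true → DecN D n NL a b := by
    intro a ha b h
    unfold decB at h
    obtain ⟨g, hg, h1⟩ := anyBelow_iff.1 h
    rw [brec_and] at h1
    obtain ⟨d, hd, h2⟩ := anyBelow_iff.1 h1.2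
    rw [brec_and, brec_and, hind g hg, List.any_eq_true] at h2
    obtain ⟨N, hN, h3⟩ := h2.2.2
    exact ⟨g, V.hn ▸ hg, d, V.hn ▸ hd, N, hN, h2.2.1.1, h2.2.1.2, by rw [hcT]; exact of_decide_eq_true h3,
      hok a ha g hg h1.1, hok a ha d hd h2.1⟩
  have hmove : ∀ a < T.n, ∀ b < T.n, ∀ g < T.n, ∀ d, ∀ e < T.n, ∀ N M,
      moveB T ct n a b g d e N M = true → Move D n a b g d e N M := by
    intro a ha b hb g hg d e he N M h
    unfold moveB at h
    simp only [Bool.and_eq_true, decide_eq_true_eq, hind g hg, hind a ha, hind e he, List.isEmpty_iff] at h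
    obtain ⟨⟨⟨⟨⟨⟨⟨⟨h1, h2⟩, h3⟩, h4⟩, ⟨h5, h6⟩⟩, h7⟩, h8⟩, ⟨h9, h10⟩⟩, h11⟩ := h
    exact ⟨h1, h2, by rw [hcT]; exact h3, hok a ha g hg h4, h5, h6, by rw [hcT]; exact h7,
      hok e he b hb h8, h9, h10, by rw [hcT]; exact h11⟩
  have hhw : ∀ a < T.n, ∀ b < T.n, hw2B T ct n a b = true → HW2 D n a b := by
    intro a ha b hb h
    unfold hw2B at h
    simp only [Bool.and_eq_true, anyBelow_iff, List.any_eq_true, decide_eq_true_eq, List.isEmpty_iff] at h
    obtain ⟨⟨h1, h2⟩, g, hg, -, d, hd, -, e, he, -, d', hd', -, N, hN, M, hM, N', hN', M', hM',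
      ⟨m1, m2⟩, hs⟩ := h
    exact ⟨by rw [hcT]; exact h1, by rw [hcT]; exact h2, g, V.hn ▸ hg, d, V.hn ▸ hd, e, V.hn ▸ he,
      d', V.hn ▸ hd', N, hN, M, hM, N', hN', M', hM', hmove a ha b hb g hg d e he N M m1,
      hmove e he g hg a ha d' b hb N' M' m2, hs⟩
  have key := fun a ha => allBelow_iff.1 hc a ha
  refine ⟨?_, ?_⟩
  · intro a ha b hb h1 h2
    rw [← V.hn] at ha hb
    have h := key a ha
    unfold row3B at h
    rw [Bool.and_eq_true, allBelow_iff] at h
    have h3 := h.2 b hb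
    rw [(hind a ha b).2 ⟨h1, h2⟩] at h3
    simp only [Bool.not_true, Bool.false_or, Bool.or_eq_true] at h3
    rcases h3 with h4 | h4
    · exact Or.inl (hsep a ha b hb h4)
    · exact Or.inr (hhw a ha b hb h4)
  · intro q hq
    rw [← V.hn] at hq
    have h := key q hq
    unfold row3B at h
    rw [Bool.and_eq_true] at h
    exact hdec q hq q h.1

end Cfsg.Agent.Lib.Helper45.StW
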