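import Cfsg.Agent.Lib.Helper45.StW7

/-!
# The table facts for `D₄` over the field with `3` elements
-/

set_option autoImplicit false
set_option maxRecDepth 1000000
set_option maxHeartbeats 0

namespace Cfsg.Agent.Lib.Helper45.StW

open Cfsg.Lie Cfsg.Agent.Lib.Helper22 Cfsg.Agent.Lib.Helper23 Cfsg.Agent.Lib.Helper45
  Cfsg.Agent.Lib.Helper45.StV

theorem chk3D4 : allBelow tbD4.n (row3B tbD4 (ct1 tbD4) 2 [1, -1]) = true := by
  decide +kernel

/-- [TAB3] -/
theorem vtab3_D4 : VTab3 chevD4 2 [1, -1] :=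
  vtab3_of_chk tbD4_valid hszD4 (ct1_eq tbD4 rfl) chk3D4

end Cfsg.Agent.Lib.Helper45.StW
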