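import Cfsg.Agent.Lib.Helper45.StW8
import Cfsg.Agent.Lib.Helper3.W3F3
import Cfsg.Agent.Lib.Helper3.W3PRIME

/-!
# `D₄` over the field with `3` elements: Hall–Witt moves and the lift of the cover
-/

set_option autoImplicit false

namespace Cfsg.Agent.Lib.Helper45.StW

open Cfsg.Lie Matrix Cfsg.Agent.Lib.Helper22 Cfsg.Agent.Lib.Helper23 Cfsg.Agent.Lib.Helper45
  Cfsg.Agent.Lib.Helper23.StP Cfsg.Agent.Lib.Helper45.StV

variable {D : ChevalleyDatum} {K : Type*} [Field K] {hA : AddFact D K} {E : Type*} [Group E]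
variable (C : CX D K hA E) (hD : D ∈ [chevG2, chevB2, chevD4, chevF4, chevE6, chevE7, chevE8])

include hD in
/-- [BIL] -/
theorem ff_bil {a b : ℕ} (ha : a < D.nroots) (hb : b < D.nroots) (h1 : b ≠ a) (h2 : b ≠ D.neg a)
    (h0 : D.commTerms a b = []) :
    (∀ t u, C.ρ (FF C a b t u) = 1) ∧ (∀ t t' u, FF C a b (t + t') u = FF C a b t u * FF C a b t' u) ∧
      (∀ t u u', FF C a b t (u + u') = FF C a b t u * FF C a b t u') := by
  have hρ : ∀ t u, C.ρ (C.Z a t * C.Z b u * (C.Z a t)⁻¹ * (C.Z b u)⁻¹) = 1 := by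
    intro t u
    rw [map_mul, map_mul, map_mul, map_inv, map_inv, C.rho_Z hD, C.rho_Z hD, CExt.conj_eq_G hD ha hb h1 h2]
    simp [ChevalleyDatum.commWord, h0]
  refine ⟨hρ, fun t t' u => ?_, fun t u u' => ?_⟩
  · show C.Z a (t + t') * C.Z b u * (C.Z a (t + t'))⁻¹ * (C.Z b u)⁻¹ = _
    rw [comm_lift C.ρ C.cen (x' := C.Z a t * C.Z a t') (y' := C.Z b u)
      (by rw [map_mul, C.rho_Z hD, C.rho_Z hD, C.rho_Z hD, hA.X_add]) rfl]
    exact comm_mul_left C.ρ C.cen (hρ t' u)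
  · show C.Z a t * C.Z b (u + u') * (C.Z a t)⁻¹ * (C.Z b (u + u'))⁻¹ = _
    rw [comm_lift C.ρ C.cen (x' := C.Z a t) (y' := C.Z b u * C.Z b u') rfl
      (by rw [map_mul, C.rho_Z hD, C.rho_Z hD, C.rho_Z hD, hA.X_add])]
    exact comm_mul_right C.ρ C.cen (hρ t u')

include hD in
/-- [MOVE] -/
theorem hw_move {a b g d e : ℕ} {N M : ℤ} (ha : a < D.nroots) (hb : b < D.nroots) (hg : g < D.nroots)
    (hd : d < D.nroots) (he : e < D.nroots)
    (gd1 : d ≠ g) (gd2 : d ≠ D.neg g) (gdT : D.commTerms g d = [(b, N, 1, 1)])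
    (ag : ∀ t s, C.Z a t * C.Z g s = C.Z g s * C.Z a t)
    (ad1 : d ≠ a) (ad2 : d ≠ D.neg a) (adT : D.commTerms a d = [(e, M, 1, 1)])
    (eb : ∀ t s, C.Z e t * C.Z b s = C.Z b s * C.Z e t)
    (eg1 : g ≠ e) (eg2 : g ≠ D.neg e) (egT : D.commTerms e g = []) (t s x : K) :
    FF C a b t ((N : K) * (-s) * x) = FF C e g ((M : K) * t * x) s := by
  set A := C.Z a t with hA'
  set G := C.Z g s with hG
  set Dd := C.Z d x with hDd
  set Ee := C.Z e ((M : K) * t * x) with hEe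
  set y := Dd⁻¹ * G⁻¹ * Dd * G with hy
  have hρy : C.ρ y = C.ρ (C.Z b ((N : K) * (-s) * x)) := by
    rw [hy]
    simp only [map_mul, map_inv, hDd, hG, C.rho_Z hD]
    rw [comm_G hD hA hg hd gd1 gd2]
    simp only [ChevalleyDatum.commWord, gdT, List.map_cons, List.map_nil, WW_cons, WW_nil, mul_one, pow_one]
  have e1 : FF C a b t ((N : K) * (-s) * x) = A * y * A⁻¹ * y⁻¹ :=
    comm_lift C.ρ C.cen rfl hρy.symm
  have hAG : A * G * A⁻¹ = G := by rw [hA', hG, ag, mul_inv_cancel_right]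
  have e2 : A * y * A⁻¹ = (A * Dd * A⁻¹)⁻¹ * G⁻¹ * (A * Dd * A⁻¹) * G := by
    have : A * y * A⁻¹ = (A * Dd * A⁻¹)⁻¹ * (A * G * A⁻¹)⁻¹ * (A * Dd * A⁻¹) * (A * G * A⁻¹) := by
      rw [hy]; group
    rw [this, hAG]
  have hρD : C.ρ (A * Dd * A⁻¹) = C.ρ (Dd * Ee) := by
    simp only [map_mul, map_inv, hA', hDd, hEe, C.rho_Z hD]
    rw [CExt.conj_eq_G hD ha hd ad1 ad2]
    simp only [ChevalleyDatum.commWord, adT, List.map_cons, List.map_nil, WW_cons, WW_nil, mul_one, pow_one,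
      neg_neg]
  have e3 : (A * Dd * A⁻¹)⁻¹ * G⁻¹ * (A * Dd * A⁻¹) * G = (Dd * Ee)⁻¹ * G⁻¹ * (Dd * Ee) * G := by
    have := comm_lift C.ρ C.cen (x := (A * Dd * A⁻¹)⁻¹) (x' := (Dd * Ee)⁻¹) (y := G⁻¹) (y' := G⁻¹)
      (by rw [map_inv, map_inv, hρD]) rfl
    simpa only [inv_inv] using this
  set φ := FF C e g ((M : K) * t * x) s with hφ
  have hφ1 : C.ρ φ = 1 := (ff_bil C hD he hg eg1 eg2 egT).1 _ _
  have hφc : ∀ z, z * φ = φ * z := fun z =>
    Subgroup.mem_center_iff.1 (C.cen (MonoidHom.mem_ker.2 hφ1)) z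
  have hEG : Ee * G = φ * G * Ee := by
    rw [hφ]; unfold FF; rw [← hEe, ← hG]; group
  have hEy : y * Ee = Ee * y := by
    have h := conj_lift C.ρ C.cen hρy Ee
    rw [hEe, ← eb, mul_inv_cancel_right, ← hEe] at h
    exact mul_inv_eq_iff_eq_mul.1 h
  have e4 : (Dd * Ee)⁻¹ * G⁻¹ * (Dd * Ee) * G = φ * y := by
    calc (Dd * Ee)⁻¹ * G⁻¹ * (Dd * Ee) * G = Ee⁻¹ * Dd⁻¹ * G⁻¹ * Dd * (Ee * G) := by group
      _ = Ee⁻¹ * Dd⁻¹ * G⁻¹ * Dd * (φ * G * Ee) := by rw [hEG]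
      _ = Ee⁻¹ * Dd⁻¹ * G⁻¹ * (Dd * φ) * G * Ee := by group
      _ = Ee⁻¹ * Dd⁻¹ * G⁻¹ * (φ * Dd) * G * Ee := by rw [hφc Dd]
      _ = Ee⁻¹ * Dd⁻¹ * (G⁻¹ * φ) * Dd * G * Ee := by group
      _ = Ee⁻¹ * Dd⁻¹ * (φ * G⁻¹) * Dd * G * Ee := by rw [hφc G⁻¹]
      _ = Ee⁻¹ * (Dd⁻¹ * φ) * G⁻¹ * Dd * G * Ee := by group
      _ = Ee⁻¹ * (φ * Dd⁻¹) * G⁻¹ * Dd * G * Ee := by rw [hφc Dd⁻¹]
      _ = (Ee⁻¹ * φ) * (y * Ee) := by rw [hy]; group
      _ = (φ * Ee⁻¹) * (Ee * y) := by rw [hφc Ee⁻¹, hEy]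
      _ = φ * y := by group
  rw [e1, e2, e3, e4, mul_inv_cancel_right]

include hD in
/-- [ORTH] -/
theorem comm_of_hw2 {n : ℕ} {v : Kˣ} (hv : orderOf v = n) (h3 : ∀ t : K, t = 0 ∨ t = 1 ∨ t = -1)
    (h30 : (3 : K) = 0) {a b : ℕ} (ha : a < D.nroots) (hb : b < D.nroots) (h1 : b ≠ a) (h2 : b ≠ D.neg a)
    (h : HW2 D n a b) (t u : K) : C.Z a t * C.Z b u = C.Z b u * C.Z a t := by
  obtain ⟨hab, hba, g, hg, d, hd, e, he, d', hd', N, hN, M, hM, N', hN', M', hM', m1, m2, hs⟩ := h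
  obtain ⟨gd1, gd2, gdT, ⟨ag1, ag2, ag0, agS⟩, ad1, ad2, adT, ⟨eb1, eb2, eb0, ebS⟩, eg1, eg2, egT⟩ := m1
  obtain ⟨x1, x2, xT, ⟨ea1, ea2, ea0, eaS⟩, y1, y2, yT, ⟨bg1, bg2, bg0, bgS⟩, z1, z2, zT⟩ := m2
  have mv1 := hw_move C hD ha hb hg hd he gd1 gd2 gdT
    (fun t s => C.comm_of_sep hD (sepP_of hD hA hv ha hg agS) ha hg ag1 ag2 ag0 t s) ad1 ad2 adT
    (fun t s => C.comm_of_sep hD (sepP_of hD hA hv he hb ebS) he hb eb1 eb2 eb0 t s) eg1 eg2 egT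
  have mv2 := hw_move C hD he hg ha hd' hb x1 x2 xT
    (fun t s => C.comm_of_sep hD (sepP_of hD hA hv he ha eaS) he ha ea1 ea2 ea0 t s) y1 y2 yT
    (fun t s => C.comm_of_sep hD (sepP_of hD hA hv hb hg bgS) hb hg bg1 bg2 bg0 t s) z1 z2 zT
  obtain ⟨-, bl, br⟩ := ff_bil C hD ha hb h1 h2 hab
  have f0l : ∀ y, FF C a b 0 y = 1 := by
    intro y
    have := bl 0 0 y
    rw [add_zero] at this
    exact left_eq_mul.1 this
  have f0r : ∀ x, FF C a b x 0 = 1 := by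
    intro x
    have := br x 0 0
    rw [add_zero] at this
    exact left_eq_mul.1 this
  have fnl : ∀ x y, FF C a b (-x) y = (FF C a b x y)⁻¹ := by
    intro x y
    have := bl (-x) x y
    rw [neg_add_cancel, f0l] at this
    exact eq_inv_of_mul_eq_one_left this.symm
  have fnr : ∀ x y, FF C a b x (-y) = (FF C a b x y)⁻¹ := by
    intro x y
    have := br x (-y) y
    rw [neg_add_cancel, f0r] at this
    exact eq_inv_of_mul_eq_one_left this.symm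
  have sq : ∀ {Q : ℤ}, Q ∈ [(1 : ℤ), -1] → (Q : K) * (Q : K) = 1 := by
    intro Q hQ
    simp only [List.mem_cons, List.not_mem_nil, or_false] at hQ
    rcases hQ with rfl | rfl <;> simp
  have pm : ∀ {Q : ℤ}, Q ∈ [(1 : ℤ), -1] → (Q : K) = 1 ∨ (Q : K) = -1 := by
    intro Q hQ
    simp only [List.mem_cons, List.not_mem_nil, or_false] at hQ
    rcases hQ with rfl | rfl <;> simp
  have hsK : (N : K) * (N' : K) = (M : K) * (M' : K) := by exact_mod_cast congrArg (Int.cast : ℤ → K) hs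
  have s1 := mv1 1 (-(N : K)) 1
  rw [neg_neg, mul_one, sq hN, mul_one, mul_one] at s1
  have s2 := mv2 (M : K) ((N' : K) * (N : K)) 1
  have e5 : (N' : K) * -((N' : K) * (N : K)) * 1 = -(N : K) := by
    linear_combination (-(N : K)) * sq hN'
  rw [e5, mul_one] at s2
  have swap : ∀ x y, FF C b a x y = (FF C a b y x)⁻¹ := by
    intro x y
    unfold FF
    group
  rw [s2, swap] at s1
  have e6 : (M' : K) * (M : K) = (N' : K) * (N : K) := by rw [mul_comm, ← hsK, mul_comm]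
  rw [e6] at s1
  have e7 : FF C a b ((N' : K) * (N : K)) ((N' : K) * (N : K)) = FF C a b 1 1 := by
    rcases pm hN with h | h <;> rcases pm hN' with h' | h' <;> rw [h, h'] <;> norm_num [fnl, fnr]
  rw [e7] at s1
  have key : FF C a b 1 1 * FF C a b 1 1 = 1 := by
    nth_rewrite 1 [s1]
    exact inv_mul_cancel _
  have := bil_prime (FF C a b) h3 bl br h30 key t u
  unfold FF at this
  rwa [mul_inv_eq_one, mul_inv_eq_iff_eq_mul] at this

/-- [L43] -/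
theorem lift_D4_3 {K : Type*} [Field K] [Fintype K] (hK : Fintype.card K = 3) (hA : AddFact chevD4 K)
    {E : Type*} [Group E] (ρ : E →* GL chevD4.Idx K) (cen : ρ.ker ≤ Subgroup.center E)
    (lift : ∀ g ∈ chevD4.group K, ∃ e, ρ e = g) :
    ∃ τ : chevD4.SteinbergCover K →* E, ∀ x, ρ (τ x) = (sysCover (by simp) hA).π x := by
  obtain ⟨h3, h30⟩ := f3_cases hK
  obtain ⟨v, hv⟩ := exists_gen (K := K)
  rw [hK] at hv
  have hv2 : orderOf v = 2 := hv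
  have hD : chevD4 ∈ [chevG2, chevB2, chevD4, chevF4, chevE6, chevE7, chevE8] := by simp
  have hv1 : (v : K) - 1 ≠ 0 := by
    intro h0
    have : v = 1 := Units.ext (by rw [Units.val_one]; exact sub_eq_zero.1 h0)
    rw [this, orderOf_one] at hv2
    omega
  let C := mkCX hA (primG_of hD hA ((utabs_of_mem hD).prim (by simp))) v.ne_zero hv1 ρ cen lift
  have hNL : ∀ N ∈ [(1 : ℤ), -1], (N : K) ≠ 0 := by
    intro N hN
    simp only [List.mem_cons, List.not_mem_nil, or_false] at hN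
    rcases hN with rfl | rfl <;> simp
  have hc : C.ZComm := by
    intro r t u
    by_cases hr : r < chevD4.nroots
    · exact C.comm_of_decN hD hv2 hNL hr (vtab3_D4.self r hr) t u
    · rw [C.Z_of_ge hr, C.Z_of_ge hr]
  have hM : C.CM := by
    intro a ha b hb h1 h2 L hbL hL t u
    rcases vtab3_D4.pair a ha b hb h1 h2 with h | h
    · exact C.conj_mem_Cl_of_sep hD hc (sepP_of hD hA hv2 ha hb h) ha hb h1 h2 hbL hL t u
    · rw [comm_of_hw2 C hD hv2 h3 h30 ha hb h1 h2 h, mul_inv_cancel_right]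
      exact X_mem_Cl _ hbL u
  exact C.exists_lift hD (stTab_of_mem hD) hc hM (utabs_of_mem hD).pos

end Cfsg.Agent.Lib.Helper45.StW
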