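import Cfsg.Agent.Lib.Helper22.AutC
import Cfsg.Agent.Lib.Helper23.ChevAll2

/-!
# A non-commutation fact in type `E₆` (for the automorphisms of `²E₆`)
-/

set_option autoImplicit false
set_option maxRecDepth 100000

namespace Cfsg.Agent.Lib.Helper45
open Cfsg.Lie Matrix Cfsg.Agent.Lib.Helper22 Cfsg.Agent.Lib.Helper23

theorem X_not_commute_of_terms_gen {D : ChevalleyDatum} {F : Type*} [Field F]
    (hD : D ∈ [chevG2, chevB2, chevD4, chevF4, chevE6, chevE7, chevE8]) (hA : AddFact D F)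
    {r s k : ℕ} {c : ℤ} (hr : r < D.nroots) (hs : s < D.nroots) (h1 : s ≠ r) (h2 : s ≠ D.neg r)
    (h3 : D.commTerms r s = [(k, c, 1, 1)]) (hk : k < D.nroots) (hc : (c : F) ≠ 0) {t u : F}
    (ht : t ≠ 0) (hu : u ≠ 0) : ¬ Commute (hA.X r t) (hA.X s u) := by
  intro h
  have b := bundle_of_mem F hD
  have e := Cfsg.Agent.S1025.result (F := F) D hD r s hr hs h1 h2 t u
  have hw : D.commWord F r s t u = [(k, (c : F) * (-t) * u)] := by
    unfold ChevalleyDatum.commWord
    rw [h3]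
    simp
  have hw2 : D.wordMat F [(k, (c : F) * (-t) * u)] = D.x F k ((c : F) * (-t) * u) := by
    simp [ChevalleyDatum.wordMat]
  rw [hw, hw2] at e
  have e' : hA.X s u * hA.X r t = hA.X r t * hA.X s u * hA.X k ((c : F) * (-t) * u) := by
    apply Units.ext
    simp only [Units.val_mul, hA.coe_X]
    exact e
  rw [← h.eq] at e'
  have e2 : hA.X k ((c : F) * (-t) * u) = 1 := (mul_eq_left.1 e'.symm)
  have := hA.X_eq_one b.hTri hk e2
  exact mul_ne_zero (mul_ne_zero hc (neg_ne_zero.2 ht)) hu this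

theorem memE6' : chevE6 ∈ [chevG2, chevB2, chevD4, chevF4, chevE6, chevE7, chevE8] := by simp

theorem e6_not_commute {K : Type*} [Field K] (hA : AddFact chevE6 K) (hK : ∃ c : K, c ≠ 0 ∧ c ≠ 1) :
    ¬ Commute (hA.X (chevE6.simple 3) 1) (hA.X (chevE6.simple 2) 1 * hA.X (chevE6.simple 4) 1) := by
  intro hc
  obtain ⟨c, hc0, hc1⟩ := hK
  have hT := hA.hexp_simple (torS_of_mem K memE6') (i := 5) (by decide +kernel) c hc0
  set h := hA.hG (chevE6.simple 5) c with hh
  have a3 := hT.2.2 (chevE6.simple 3) (by decide +kernel) 1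
  have a2 := hT.2.2 (chevE6.simple 2) (by decide +kernel) 1
  have a4 := hT.2.2 (chevE6.simple 4) (by decide +kernel) 1
  have k3 : chevE6.cartan 5 (chevE6.simple 3) = 0 := by decide +kernel
  have k2 : chevE6.cartan 5 (chevE6.simple 2) = 0 := by decide +kernel
  have k4 : chevE6.cartan 5 (chevE6.simple 4) = -1 := by decide +kernel
  beta_reduce at a3 a2 a4
  rw [k3, zpow_zero, one_mul] at a3
  rw [k2, zpow_zero, one_mul] at a2
  rw [k4, _root_.zpow_neg_one, mul_one] at a4
  -- conjugate the commutation relation by `h`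
  have hc' : Commute (hA.X (chevE6.simple 3) 1) (hA.X (chevE6.simple 2) 1 * hA.X (chevE6.simple 4) c⁻¹) := by
    have e1 : h * (hA.X (chevE6.simple 3) 1 * (hA.X (chevE6.simple 2) 1 * hA.X (chevE6.simple 4) 1)) * h⁻¹ =
        h * ((hA.X (chevE6.simple 2) 1 * hA.X (chevE6.simple 4) 1) * hA.X (chevE6.simple 3) 1) * h⁻¹ := by
      rw [hc.eq]
    have e2 : h * (hA.X (chevE6.simple 3) 1 * (hA.X (chevE6.simple 2) 1 * hA.X (chevE6.simple 4) 1)) * h⁻¹ =
        (h * hA.X (chevE6.simple 3) 1 * h⁻¹) * ((h * hA.X (chevE6.simple 2) 1 * h⁻¹) *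
          (h * hA.X (chevE6.simple 4) 1 * h⁻¹)) := by group
    have e3 : h * ((hA.X (chevE6.simple 2) 1 * hA.X (chevE6.simple 4) 1) * hA.X (chevE6.simple 3) 1) * h⁻¹ =
        ((h * hA.X (chevE6.simple 2) 1 * h⁻¹) * (h * hA.X (chevE6.simple 4) 1 * h⁻¹)) *
          (h * hA.X (chevE6.simple 3) 1 * h⁻¹) := by group
    rw [e2, e3, a3, a2, a4] at e1
    exact e1
  have hc'' : Commute (hA.X (chevE6.simple 3) 1) (hA.X (chevE6.simple 4) (c⁻¹ - 1)) := by
    have e : hA.X (chevE6.simple 4) (c⁻¹ - 1) =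
        (hA.X (chevE6.simple 2) 1 * hA.X (chevE6.simple 4) 1)⁻¹ *
          (hA.X (chevE6.simple 2) 1 * hA.X (chevE6.simple 4) c⁻¹) := by
      rw [sub_eq_neg_add, hA.X_add, ← hA.X_inv]; group
    rw [e]
    exact hc.inv_right.mul_right hc'
  have hne : c⁻¹ - 1 ≠ 0 := by
    intro h0
    apply hc1
    have := sub_eq_zero.1 h0
    rw [inv_eq_one] at this
    exact this
  exact X_not_commute_of_terms_gen memE6' hA (k := 40) (c := -1) (by decide +kernel) (by decide +kernel)
    (by decide +kernel) (by decide +kernel) (by decide +kernel) (by decide +kernel) (by simp) one_ne_zero hne hc''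

end Cfsg.Agent.Lib.Helper45
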