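import Cfsg.Agent.Lib.Helper45.TwistWeyl2
import Cfsg.Agent.Lib.Helper45.TwistTabD4

/-! Table facts on rank two words in the orbit generators for the twisted group of type D4. -/

set_option autoImplicit false

namespace Cfsg.Agent.Lib.Helper45

open Cfsg.Lie Cfsg.Agent.Lib.Helper23

/-- the orbits in the order of the Coxeter diagram -/
def orbFD4 : Fin 2 → List ℕ := ![[1], [0, 2, 3]]

/-- the entries of the Coxeter matrix as natural numbers -/
def cmTwD4 (i j : Fin 2) : ℕ := CoxeterMatrix.G₂ i j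

set_option maxRecDepth 100000 in
theorem twCoxD4_one : ∀ i j : Fin 2, ∀ r < chevD4.nroots, chevD4.IsPosRoot r →
    chevD4.IsPosRoot (wact chevD4 (List.replicate (CoxeterMatrix.G₂ i j) (orbFD4 i ++ orbFD4 j)).flatten r) := by
  decide +kernel

set_option maxRecDepth 100000 in
theorem twCoxD4_ne : ∀ i j : Fin 2, ∀ t : Fin (cmTwD4 i j), 0 < t.val → ∃ r < chevD4.nroots,
    chevD4.IsPosRoot r ∧
    chevD4.IsNegRoot (wact chevD4 (List.replicate t.val (orbFD4 i ++ orbFD4 j)).flatten r) := by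
  decide +kernel

theorem twCoxD4 : TwCox chevD4 orbFD4 CoxeterMatrix.G₂ :=
  ⟨(by decide +kernel : ∀ i j : Fin 2, 0 < cmTwD4 i j), twCoxD4_one, twCoxD4_ne⟩

theorem orbFD4_mem : ∀ i, orbFD4 i ∈ orbsD4 := by decide +kernel

theorem orbFD4_surj : ∀ ω ∈ orbsD4, ∃ i, orbFD4 i = ω := by decide +kernel

end Cfsg.Agent.Lib.Helper45
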