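import Cfsg.Agent.Lib.Helper45.TwistCount4
import Cfsg.Agent.Lib.Helper45.TwistD4

/-!
# `³D₄(q)`: the parameters of the (B,N)-pair and `|U¹|`
-/

set_option autoImplicit false

namespace Cfsg.Agent.Lib.Helper45

open Cfsg.Lie Matrix Cfsg.Agent.Lib.Helper23 Cfsg.Agent.Lib.Helper22 Cfsg.Agent.Lib.Helper8

set_option maxRecDepth 100000 in
theorem onlyD4 : ∀ ω ∈ orbsD4, ∀ r < chevD4.nroots, chevD4.IsPosRoot r →
    chevD4.IsNegRoot (wact chevD4 ω r) → r ∈ ω.map chevD4.simple := by decide +kernel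

/-- a reduced word of the longest element in the orbit generators -/
def longD4 : List (List ℕ) := [[0, 2, 3], [1], [0, 2, 3], [1], [0, 2, 3], [1]]

theorem longD4_mem : ∀ ω ∈ longD4, ω ∈ orbsD4 := by decide +kernel

set_option maxRecDepth 100000 in
theorem longD4_red : RedW chevD4 longD4.flatten := by decide +kernel

set_option maxRecDepth 100000 in
theorem longD4_all : ∀ r < chevD4.nroots, chevD4.IsPosRoot r →
    chevD4.IsNegRoot (wact chevD4 longD4.flatten r) := by decide +kernel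

variable {K : Type*} [Field K] [Fintype K]

theorem d4_card_Umin {q : ℕ} (hq : IsPrimePow q) (hK : Fintype.card K = q ^ 3)
    {σ : GL chevD4.Idx K → GL chevD4.Idx K} {φ : K →+* K} (hφ : ∀ t, φ t = t ^ q)
    (X : TwSetup chevD4 K (bundle_of_mem K memD4) σ rhoD4 rhoInvD4
      (fun r t => (gamD4 r : K) * φ t) orbsD4 certD4 (twistedD4 K q)) :
    ∀ ω ∈ orbsD4, Nat.card ↥(Umin chevD4 K ((bundle_of_mem K memD4).hA.nword ω) ⊓ twistedD4 K q) =
      q ^ ω.length := by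
  have hqq : ∀ t : K, ((t ^ q) ^ q) ^ q = t := by
    intro t
    rw [← pow_mul, ← pow_mul]
    have : q * (q * q) = q ^ 3 := by ring
    rw [this, ← hK, FiniteField.pow_card]
  have hs : ∀ r, rhoInvD4 r = r → gamD4 r = 1 → ∀ τ : ℕ → K,
      Compat (fun r t => (gamD4 r : K) * φ t) rhoInvD4 [r] τ ↔ τ r ^ q = τ r := by
    intro r h1 h2 τ
    rw [compat_single h1]
    simp only [h2, hφ, Int.cast_one, one_mul]
    exact eq_comm
  have hp : ∀ r₁ r₂ r₃, rhoInvD4 r₁ = r₃ → rhoInvD4 r₂ = r₁ → rhoInvD4 r₃ = r₂ → gamD4 r₁ = 1 →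
      gamD4 r₂ = 1 → gamD4 r₃ = 1 →
      ∀ τ : ℕ → K, Compat (fun r t => (gamD4 r : K) * φ t) rhoInvD4 [r₁, r₂, r₃] τ ↔
        τ r₂ = τ r₁ ^ q ∧ τ r₃ = (τ r₁ ^ q) ^ q := by
    intro r₁ r₂ r₃ h1 h2 h3 h4 h5 h6 τ
    rw [compat_triple h1 h2 h3]
    simp only [h4, h5, h6, hφ, Int.cast_one, one_mul]
    constructor
    · rintro ⟨_, h, h'⟩
      exact ⟨h, by rw [h', h]⟩
    · rintro ⟨h, h'⟩
      exact ⟨by rw [h', hqq], h, by rw [h', h]⟩
  have hsingle : ∀ i r, [i] ∈ orbsD4 → [i].map chevD4.simple = [r] → rhoInvD4 r = r →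
      gamD4 r = 1 →
      Nat.card ↥(Umin chevD4 K ((bundle_of_mem K memD4).hA.nword [i]) ⊓ twistedD4 K q) = q := by
    intro i r hi hr h1 h2
    rw [X.card_Umin_of_param hi (onlyD4 _ hi) (T := {t : K // t ^ q = t}) (fun t _ => t.1),
      card_fix_frob hq.one_lt (by norm_num : 0 < 3) hK]
    · intro t; rw [hr]; exact (hs r h1 h2 _).2 t.2
    · intro τ hτ
      rw [hr] at hτ ⊢
      exact ⟨⟨τ r, (hs r h1 h2 _).1 hτ⟩, by simp⟩
    · intro x y h
      rw [hr] at h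
      exact Subtype.ext (h r (by simp))
  have htriple : ∀ i j l r₁ r₂ r₃, [i, j, l] ∈ orbsD4 →
      [i, j, l].map chevD4.simple = [r₁, r₂, r₃] → r₁ ≠ r₂ → r₁ ≠ r₃ → r₂ ≠ r₃ →
      rhoInvD4 r₁ = r₃ → rhoInvD4 r₂ = r₁ → rhoInvD4 r₃ = r₂ → gamD4 r₁ = 1 → gamD4 r₂ = 1 →
      gamD4 r₃ = 1 →
      Nat.card ↥(Umin chevD4 K ((bundle_of_mem K memD4).hA.nword [i, j, l]) ⊓ twistedD4 K q) =
        q ^ 3 := by
    intro i j l r₁ r₂ r₃ hi hr hne12 hne13 hne23 h1 h2 h3 h4 h5 h6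
    rw [X.card_Umin_of_param hi (onlyD4 _ hi) (T := K)
      (fun t a => if a = r₁ then t else if a = r₂ then t ^ q else (t ^ q) ^ q),
      Nat.card_eq_fintype_card, hK]
    · intro t; rw [hr]
      exact (hp r₁ r₂ r₃ h1 h2 h3 h4 h5 h6 _).2 (by simp [hne12.symm, hne13.symm, hne23.symm])
    · intro τ hτ
      rw [hr] at hτ ⊢
      obtain ⟨e1, e2⟩ := (hp r₁ r₂ r₃ h1 h2 h3 h4 h5 h6 _).1 hτ
      refine ⟨τ r₁, ?_⟩
      intro a ha
      simp only [List.mem_cons, List.not_mem_nil, or_false] at ha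
      rcases ha with rfl | rfl | rfl
      · simp
      · simp [hne12.symm, e1]
      · simp [hne13.symm, hne23.symm, e2]
    · intro x y h
      rw [hr] at h
      simpa using h r₁ (by simp)
  intro ω hω
  simp only [orbsD4, List.mem_cons, List.not_mem_nil, or_false] at hω
  rcases hω with rfl | rfl
  · simpa using hsingle 1 14 (by decide) rfl rfl rfl
  · simpa using htriple 0 2 3 18 13 12 (by decide) rfl (by decide) (by decide) (by decide)
      rfl rfl rfl rfl rfl rfl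

theorem d4_card_U1 {q : ℕ} (hq : IsPrimePow q) (hK : Fintype.card K = q ^ 3) :
    Nat.card ↥(chevD4.posUnipotent K ⊓ twistedD4 K q) = q ^ 12 := by
  obtain ⟨σ, φ, hφ, X⟩ := d4_setup hq hK
  rw [X.card_U1 (fun ω => q ^ ω.length) (d4_card_Umin hq hK hφ X) longD4 longD4_mem longD4_red
    longD4_all]
  simp only [longD4, List.map_cons, List.map_nil, List.prod_cons, List.prod_nil, List.length_cons,
    List.length_nil]
  ring

end Cfsg.Agent.Lib.Helper45
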