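import Cfsg.Agent.Lib.Helper45.TwistWeyl2
import Cfsg.Agent.Lib.Helper45.TwistSetup

/-!
# `N¹/H¹` is a Coxeter group, for the twisted groups of `TwistSetup.lean`
-/

set_option autoImplicit false

namespace Cfsg.Agent.Lib.Helper45

open Cfsg.Lie Matrix Cfsg.Agent.Lib.Helper23 Cfsg.Agent.Lib.Helper22 Cfsg.Agent.Lib.Helper8

namespace TwSetup

variable {D : ChevalleyDatum} {F : Type*} [Field F] {b : Bundle D F}
  {σ : GL D.Idx F → GL D.Idx F} {ρ ρ' : ℕ → ℕ} {c : ℕ → F → F} {orbs : List (List ℕ)}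
  {cert : List (List ℕ × List (List ℕ))} {G1 : Subgroup (GL D.Idx F)}
  (X : TwSetup D F b σ ρ ρ' c orbs cert G1)
include X

theorem weyl {P : Cfsg.BNPair ↥G1} (hPB : P.B = (D.borelSubgroup F ⊓ G1).subgroupOf G1)
    (hPS : P.S = {s : ↥G1 | (s : GL D.Idx F) ∈ {s | ∃ ω ∈ orbs, s = b.hA.nword ω}})
    {n : ℕ} (orb : Fin n → List ℕ) (horb1 : ∀ i, orb i ∈ orbs)
    (horb2 : ∀ ω ∈ orbs, ∃ i, orb i = ω) {M : CoxeterMatrix (Fin n)} (hM : TwCox D orb M) :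
    ∃ σ : Fin n ≃ P.S, (∀ i, (((σ i : P.S) : ↥G1) : GL D.Idx F) = b.hA.nword (orb i)) ∧
      (∀ i, sg P (σ i) * sg P (σ i) = 1) ∧ (∀ w, ∃ L, wp (fun i => sg P (σ i)) L = w) ∧
      ExCond (fun i => sg P (σ i)) ∧ (∀ i j, orderOf (sg P (σ i) * sg P (σ j)) = M i j) :=
  tw_weyl b (rep := fun ω => b.hA.nword ω) (h₀ := fun _ => 1) hPB hPS X.hT.orb.rank
    (fun _ _ => one_mem _) (fun _ _ => (mul_one _).symm) (fun _ hω => X.nword_mem hω) orb horb1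
    horb2 hM

theorem weyl_hom {n : ℕ} (orb : Fin n → List ℕ) (horb1 : ∀ i, orb i ∈ orbs)
    (horb2 : ∀ ω ∈ orbs, ∃ i, orb i = ω) {M : CoxeterMatrix (Fin n)} (hM : TwCox D orb M) :
    ∃ φ : ↥(D.monomialSubgroup F ⊓ G1) →* M.Group, Function.Surjective φ ∧
      φ.ker = (D.diagonalSubgroup F ⊓ G1).subgroupOf (D.monomialSubgroup F ⊓ G1) := by
  obtain ⟨P, hPB, hPN, hPS⟩ := X.exists_bnPair
  obtain ⟨σ', _, h1, h2, h3, h4⟩ := X.weyl hPB hPS orb horb1 horb2 hM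
  obtain ⟨e, _⟩ := coxeter_equiv_of_exchange (fun i => sg P (σ' i)) h1 h2 h3 M h4
  obtain ⟨φ, h5, h6, _⟩ := fix_weyl_hom hPB hPN X.sharp.BN X.sharp.H_le_B e
  exact ⟨φ, h5, h6⟩

end TwSetup

end Cfsg.Agent.Lib.Helper45
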