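import Cfsg.Agent.Lib.Helper45.TwistCount4
import Cfsg.Agent.Lib.Helper45.TwistWeyl3

/-!
# The order of a twisted group: `|G¹| = |B¹| ∑_w |U_w⁻ ∩ G¹|`
-/

set_option autoImplicit false

namespace Cfsg.Agent.Lib.Helper45

open Cfsg.Lie Matrix Cfsg.Agent.Lib.Helper23 Cfsg.Agent.Lib.Helper22 Cfsg.Agent.Lib.Helper8

universe u

variable {D : ChevalleyDatum} {F : Type u} [Field F]

namespace TwSetup

variable {b : Bundle D F}
  {σ : GL D.Idx F → GL D.Idx F} {ρ ρ' : ℕ → ℕ} {c : ℕ → F → F} {orbs : List (List ℕ)}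
  {cert : List (List ℕ × List (List ℕ))} {G1 : Subgroup (GL D.Idx F)}
  (X : TwSetup D F b σ ρ ρ' c orbs cert G1)
include X

/-- The order of the twisted group from the weighted Poincaré series of its Weyl group. -/
theorem card_G1 [Finite F] {n : ℕ} (orb : Fin n → List ℕ) (horb1 : ∀ i, orb i ∈ orbs)
    (horb2 : ∀ ω ∈ orbs, ∃ i, orb i = ω) {M : CoxeterMatrix (Fin n)} (hM : TwCox D orb M)
    (q : ℕ) (k : Fin n → ℕ)
    (ha : ∀ i, Nat.card ↥(Umin D F (b.hA.nword (orb i)) ⊓ G1) = q ^ k i) (E R : ℕ)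
    (hsum : ∀ {W : Type u} [Group W] (f : Fin n → W), (∀ i, f i * f i = 1) →
      (∀ w, ∃ L, wp f L = w) → ExCond f → (∀ i j, orderOf (f i * f j) = M i j) →
      ∀ c : W → ℕ, (∀ i L, Red f (i :: L) → c (wp f (i :: L)) = q ^ k i * c (wp f L)) →
      E * ∑ᶠ w, c w = c 1 * R) :
    E * Nat.card ↥G1 = Nat.card ↥(D.posUnipotent F ⊓ G1) * Nat.card ↥(D.diagonalSubgroup F ⊓ G1) * R := by
  obtain ⟨P, hPB, hPN, hPS⟩ := X.exists_bnPair
  obtain ⟨σ', h0, h1, h2, h3, h4⟩ := X.weyl hPB hPS orb horb1 horb2 hM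
  have hfin : Finite ↥G1 := inferInstance
  have hcB : Nat.card P.B = Nat.card ↥(D.borelSubgroup F ⊓ G1) := by
    rw [hPB]
    exact Nat.card_congr (Subgroup.subgroupOfEquivOfLe inf_le_right).toEquiv
  have ha' : ∀ i, Nat.card (C P (sg P (σ' i))) = q ^ k i * Nat.card P.B := by
    intro i
    have hN : (((σ' i : P.S) : ↥G1) : GL D.Idx F) ∈ D.monomialSubgroup F := by
      rw [h0]
      exact b.hA.nword_mem_mono b.hR (X.hT.orb.rank _ (horb1 i))
    rw [C_sg, card_DC1 X.sharp X.fixBN hPB _ hN, h0, ha, mul_comm]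
  have h5 := hsum (fun i => sg P (σ' i)) h1 h2 h3 h4 (fun w => Nat.card (C P w))
    (card_C_red σ' (fun i => q ^ k i) ha')
  rw [← card_eq_finsum_C] at h5
  rw [h5, C_one, ← X.card_B1, ← hcB]
  rfl

end TwSetup

end Cfsg.Agent.Lib.Helper45
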