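import Mathlib
import Cfsg.Agent.Lib.Helper45.ReflWtComp
import Cfsg.Agent.Lib.Helper45.CoxF4Card
import Cfsg.Agent.Lib.Helper45.CoxG2Card

/-! Weighted Poincaré series of the Coxeter groups of type F4 (weights 1,1,2,2) and G2
(weights 1,3) (generated certificates). -/

set_option autoImplicit false

namespace Cfsg.Agent.Lib.Helper45

open LData
open Cfsg.Agent.Lib.Helper8 (wp ExCond Red)

/-- weighted depths in the orbits of the chain of type F4 -/
def F4flat : List (List (ℕ × ℕ)) := [[(139534785, 1), (139534657, 2), (139501889, 4), (139501761, 5), (135307585, 6), (139501760, 6), (135307457, 7), (135307456, 8), (135274689, 9), (135274561, 10), (135274688, 10), (135274432, 11), (135274559, 11), (135274431, 12), (135241664, 13), (135241663, 14), (131047360, 15), (135241535, 15), (131047359, 16), (131047231, 17), (131014463, 19), (131014335, 20), (131014334, 21)], [(143794883, 1), (143762115, 3), (143761987,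 4), (139567811, 5), (139567683, 6), (139534915, 8), (139534787, 9)], [(141648450, 2), (139551298, 4)], [(137421121, 2)]]

set_option maxRecDepth 100000 in
theorem F4_wchain : F4X.WChainCheck ![1, 1, 2, 2] (List.finRange 4) F4chain F4flat := by
  decide +kernel

theorem F4_wpoly (q : ℤ) : (q - 1) ^ 4 * (q + 1) ^ 2 *
    ((1 + (q ^ 1 + (q ^ 2 + (q ^ 4 + (q ^ 5 + (q ^ 6 + (q ^ 6 + (q ^ 7 + (q ^ 8 + (q ^ 9 + (q ^ 10 +
      (q ^ 10 + (q ^ 11 + (q ^ 11 + (q ^ 12 + (q ^ 13 + (q ^ 14 + (q ^ 15 + (q ^ 15 + (q ^ 16 +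
      (q ^ 17 + (q ^ 19 + (q ^ 20 + q ^ 21))))))))))))))))))))))) *
      ((1 + (q ^ 1 + (q ^ 3 + (q ^ 4 + (q ^ 5 + (q ^ 6 + (q ^ 8 + q ^ 9))))))) *
      ((1 + (q ^ 2 + q ^ 4)) * (1 + q ^ 2)))) =
    (q ^ 2 - 1) * (q ^ 5 + 1) * (q ^ 6 - 1) * (q ^ 8 - 1) * (q ^ 9 + 1) * (q ^ 12 - 1) := by ring

/-- weighted Poincaré series of type F4 with weights `q, q, q², q²` -/
theorem F4_wsum {W : Type*} [Group W] (f : Fin 4 → W) (hinv : ∀ i, f i * f i = 1)
    (hgen : ∀ w, ∃ L, wp f L = w) (hex : ExCond f)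
    (hM : ∀ i j, orderOf (f i * f j) = CoxeterMatrix.F₄ i j) (q : ℕ) (hq : 1 ≤ q) (c : W → ℕ)
    (hcw : ∀ i L, Red f (i :: L) → c (wp f (i :: L)) = q ^ (![1, 1, 2, 2] i : ℕ) * c (wp f L)) :
    (q - 1) ^ 4 * (q + 1) ^ 2 * ∑ᶠ w, c w = c 1 *
      ((q ^ 2 - 1) * (q ^ 5 + 1) * (q ^ 6 - 1) * (q ^ 8 - 1) * (q ^ 9 + 1) * (q ^ 12 - 1)) := by
  rw [F4X.wsum_eq F4_rs F4_m F4_chain ![1, 1, 2, 2] F4_wchain rfl f hinv hgen hex hM q c hcw]
  simp only [F4flat, List.map_cons, List.map_nil, List.prod_cons, List.prod_nil, List.sum_cons,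
    List.sum_nil, mul_one, add_zero]
  have hp : ∀ k : ℕ, 1 ≤ q ^ k := fun k => Nat.one_le_pow _ _ hq
  zify [hq, hp]
  have := F4_wpoly (q : ℤ)
  linear_combination (c 1 : ℤ) * this

/-- weighted depths in the orbits of the chain of type G2 -/
def G2flat : List (List (ℕ × ℕ)) := [[(8385, 1), (8257, 4), (8255, 5), (8127, 8), (8126, 9)], [(8387, 3)]]

set_option maxRecDepth 100000 in
theorem G2_wchain : G2X.WChainCheck ![1, 3] (List.finRange 2) G2chain G2flat := by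
  decide +kernel

theorem G2_wpoly (q : ℤ) : (q - 1) ^ 2 * (q ^ 2 + q + 1) *
    ((1 + (q ^ 1 + (q ^ 4 + (q ^ 5 + (q ^ 8 + q ^ 9))))) * (1 + q ^ 3)) =
    (q ^ 2 - 1) * (q ^ 6 - 1) * (q ^ 8 + q ^ 4 + 1) := by ring

/-- weighted Poincaré series of type G2 with weights `q, q³` -/
theorem G2_wsum {W : Type*} [Group W] (f : Fin 2 → W) (hinv : ∀ i, f i * f i = 1)
    (hgen : ∀ w, ∃ L, wp f L = w) (hex : ExCond f)
    (hM : ∀ i j, orderOf (f i * f j) = CoxeterMatrix.G₂ i j) (q : ℕ) (hq : 1 ≤ q) (c : W → ℕ)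
    (hcw : ∀ i L, Red f (i :: L) → c (wp f (i :: L)) = q ^ (![1, 3] i : ℕ) * c (wp f L)) :
    (q - 1) ^ 2 * (q ^ 2 + q + 1) * ∑ᶠ w, c w = c 1 *
      ((q ^ 2 - 1) * (q ^ 6 - 1) * (q ^ 8 + q ^ 4 + 1)) := by
  rw [G2X.wsum_eq G2_rs G2_m G2_chain ![1, 3] G2_wchain rfl f hinv hgen hex hM q c hcw]
  simp only [G2flat, List.map_cons, List.map_nil, List.prod_cons, List.prod_nil, List.sum_cons,
    List.sum_nil, mul_one, add_zero]
  have hp : ∀ k : ℕ, 1 ≤ q ^ k := fun k => Nat.one_le_pow _ _ hq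
  zify [hq, hp]
  have := G2_wpoly (q : ℤ)
  linear_combination (c 1 : ℤ) * this

end Cfsg.Agent.Lib.Helper45
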