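import Cfsg.Agent.Lib.Helper45.TwistCount4
import Cfsg.Agent.Lib.Helper45.TwistE6Main

/-!
# `²E₆(q)`: the parameters of the (B,N)-pair and `|U¹|`
-/

set_option autoImplicit false

namespace Cfsg.Agent.Lib.Helper45

open Cfsg.Lie Matrix Cfsg.Agent.Lib.Helper23 Cfsg.Agent.Lib.Helper22 Cfsg.Agent.Lib.Helper8

set_option maxRecDepth 100000 in
theorem onlyE6 : ∀ ω ∈ orbsE6, ∀ r < chevE6.nroots, chevE6.IsPosRoot r →
    chevE6.IsNegRoot (wact chevE6 ω r) → r ∈ ω.map chevE6.simple := by decide +kernel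

/-- a reduced word of the longest element in the orbit generators -/
def longE6 : List (List ℕ) := [[2, 4], [0, 5], [3], [2, 4], [0, 5], [1], [3], [2, 4], [0, 5], [1],
  [3], [2, 4], [0, 5], [1], [3], [2, 4], [0, 5], [1], [3], [2, 4], [0, 5], [1], [3], [1]]

theorem longE6_mem : ∀ ω ∈ longE6, ω ∈ orbsE6 := by decide +kernel

set_option maxRecDepth 100000 in
theorem longE6_red : RedW chevE6 longE6.flatten := by decide +kernel

set_option maxRecDepth 100000 in
theorem longE6_all : ∀ r < chevE6.nroots, chevE6.IsPosRoot r →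
    chevE6.IsNegRoot (wact chevE6 longE6.flatten r) := by decide +kernel

variable {K : Type*} [Field K] [Fintype K]

theorem e6_card_Umin {q : ℕ} (hq : IsPrimePow q) (hK : Fintype.card K = q ^ 2)
    {σ : GL chevE6.Idx K → GL chevE6.Idx K} {φ : K →+* K} (hφ : ∀ t, φ t = t ^ q)
    (X : TwSetup chevE6 K (bundle_of_mem K memE6) σ rhoE6 rhoInvE6
      (fun r t => (gamE6 r : K) * φ t) orbsE6 certE6 (twistedE6 K q)) :
    ∀ ω ∈ orbsE6, Nat.card ↥(Umin chevE6 K ((bundle_of_mem K memE6).hA.nword ω) ⊓ twistedE6 K q) =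
      q ^ ω.length := by
  have hqq : ∀ t : K, (t ^ q) ^ q = t := by
    intro t
    rw [← pow_mul, ← sq, ← hK, FiniteField.pow_card]
  have hs : ∀ r, rhoInvE6 r = r → gamE6 r = 1 → ∀ τ : ℕ → K,
      Compat (fun r t => (gamE6 r : K) * φ t) rhoInvE6 [r] τ ↔ τ r ^ q = τ r := by
    intro r h1 h2 τ
    rw [compat_single h1]
    simp only [h2, hφ, Int.cast_one, one_mul]
    exact eq_comm
  have hp : ∀ r₁ r₂, rhoInvE6 r₁ = r₂ → rhoInvE6 r₂ = r₁ → gamE6 r₁ = 1 → gamE6 r₂ = 1 →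
      ∀ τ : ℕ → K, Compat (fun r t => (gamE6 r : K) * φ t) rhoInvE6 [r₁, r₂] τ ↔
        τ r₂ = τ r₁ ^ q := by
    intro r₁ r₂ h1 h2 h3 h4 τ
    rw [compat_pair h1 h2]
    simp only [h3, h4, hφ, Int.cast_one, one_mul]
    constructor
    · exact fun h => h.2
    · intro h
      exact ⟨by rw [h, hqq], h⟩
  have hsingle : ∀ i r, [i] ∈ orbsE6 → [i].map chevE6.simple = [r] → rhoInvE6 r = r →
      gamE6 r = 1 →
      Nat.card ↥(Umin chevE6 K ((bundle_of_mem K memE6).hA.nword [i]) ⊓ twistedE6 K q) = q := by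
    intro i r hi hr h1 h2
    rw [X.card_Umin_of_param hi (onlyE6 _ hi) (T := {t : K // t ^ q = t}) (fun t _ => t.1),
      card_fix_frob hq.one_lt (by norm_num : 0 < 2) hK]
    · intro t; rw [hr]; exact (hs r h1 h2 _).2 t.2
    · intro τ hτ
      rw [hr] at hτ ⊢
      exact ⟨⟨τ r, (hs r h1 h2 _).1 hτ⟩, by simp⟩
    · intro x y h
      rw [hr] at h
      exact Subtype.ext (h r (by simp))
  have hpair : ∀ i j r₁ r₂, [i, j] ∈ orbsE6 → [i, j].map chevE6.simple = [r₁, r₂] → r₁ ≠ r₂ →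
      rhoInvE6 r₁ = r₂ → rhoInvE6 r₂ = r₁ → gamE6 r₁ = 1 → gamE6 r₂ = 1 →
      Nat.card ↥(Umin chevE6 K ((bundle_of_mem K memE6).hA.nword [i, j]) ⊓ twistedE6 K q) =
        q ^ 2 := by
    intro i j r₁ r₂ hi hr hne h1 h2 h3 h4
    rw [X.card_Umin_of_param hi (onlyE6 _ hi) (T := K) (fun t a => if a = r₁ then t else t ^ q),
      Nat.card_eq_fintype_card, hK]
    · intro t; rw [hr]; exact (hp r₁ r₂ h1 h2 h3 h4 _).2 (by simp [hne.symm])
    · intro τ hτ
      rw [hr] at hτ ⊢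
      refine ⟨τ r₁, ?_⟩
      intro a ha
      simp only [List.mem_cons, List.not_mem_nil, or_false] at ha
      rcases ha with rfl | rfl
      · simp
      · simp [hne.symm, (hp r₁ a h1 h2 h3 h4 _).1 hτ]
    · intro x y h
      rw [hr] at h
      simpa using h r₁ (by simp)
  intro ω hω
  simp only [orbsE6, List.mem_cons, List.not_mem_nil, or_false] at hω
  rcases hω with rfl | rfl | rfl | rfl
  · simpa using hsingle 1 46 (by decide) rfl rfl rfl
  · simpa using hsingle 3 39 (by decide) rfl rfl rfl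
  · simpa using hpair 0 5 56 36 (by decide) rfl (by decide) rfl rfl rfl rfl
  · simpa using hpair 2 4 42 37 (by decide) rfl (by decide) rfl rfl rfl rfl

theorem e6_card_U1 {q : ℕ} (hq : IsPrimePow q) (hK : Fintype.card K = q ^ 2) :
    Nat.card ↥(chevE6.posUnipotent K ⊓ twistedE6 K q) = q ^ 36 := by
  obtain ⟨σ, φ, hφ, X⟩ := e6_setup hq hK
  rw [X.card_U1 (fun ω => q ^ ω.length) (e6_card_Umin hq hK hφ X) longE6 longE6_mem longE6_red
    longE6_all]
  simp only [longE6, List.map_cons, List.map_nil, List.prod_cons, List.prod_nil, List.length_cons,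
    List.length_nil]
  ring

end Cfsg.Agent.Lib.Helper45
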