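import Cfsg.Agent.S1066
import Cfsg.Agent.S1067
import Cfsg.Agent.S1086
import Cfsg.Agent.S1088

/-!
# `U¹` is a Sylow `p`-subgroup of the twisted groups `³D₄(q)`, `²E₆(q)`
-/

set_option autoImplicit false

namespace Cfsg.Agent.Lib.Helper45

theorem sylow_of_card_mul {G : Type*} [Group G] [Finite G] (p : ℕ) [Fact p.Prime] (U : Subgroup G)
    (k m d : ℕ) (hU : Nat.card U = p ^ k) (hG : d * Nat.card G = p ^ k * m) (hm : ¬ p ∣ m) :
    ∃ P : Sylow p G, (P : Subgroup G) = U := by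
  have hp : p.Prime := Fact.out
  have hUp : IsPGroup p U := IsPGroup.of_card hU
  obtain ⟨Q, hQ⟩ := hUp.exists_le_sylow
  refine ⟨Q, ?_⟩
  symm
  apply Subgroup.eq_of_le_of_card_ge hQ
  obtain ⟨j, hj⟩ := (IsPGroup.iff_card.1 Q.2)
  have h1 : Nat.card (Q : Subgroup G) ∣ d * Nat.card G :=
    Dvd.dvd.mul_left (Subgroup.card_subgroup_dvd_card _) d
  rw [hG] at h1
  have hcop : Nat.Coprime (Nat.card (Q : Subgroup G)) m := by
    rw [hj]
    exact Nat.Coprime.pow_left _ ((Nat.Prime.coprime_iff_not_dvd hp).2 hm)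
  have h2 := hcop.dvd_of_dvd_mul_right h1
  rw [hU]
  exact Nat.le_of_dvd (pow_pos hp.pos _) h2

theorem card_subgroupOf_eq_inf {A : Type*} [Group A] (H K : Subgroup A) :
    Nat.card (H.subgroupOf K) = Nat.card ↥(H ⊓ K) := by
  rw [← Subgroup.inf_subgroupOf_right]
  exact Nat.card_congr (Subgroup.subgroupOfEquivOfLe inf_le_right).toEquiv

theorem not_dvd_pow_sub_one {p q : ℕ} (hp : p.Prime) (hq : p ∣ q) (hq0 : 0 < q) {a : ℕ} (ha : a ≠ 0) :
    ¬ p ∣ q ^ a - 1 := by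
  intro h
  have h1 : p ∣ q ^ a := dvd_pow hq ha
  have h2 : 1 ≤ q ^ a := Nat.one_le_pow _ _ hq0
  have h3 : p ∣ q ^ a - (q ^ a - 1) := Nat.dvd_sub h1 h
  have h4 : q ^ a - (q ^ a - 1) = 1 := by omega
  rw [h4] at h3
  exact hp.one_lt.ne' (Nat.dvd_one.1 h3)

theorem not_dvd_pow_add_one {p q : ℕ} (hp : p.Prime) (hq : p ∣ q) {a : ℕ} (ha : a ≠ 0) :
    ¬ p ∣ q ^ a + 1 := by
  intro h
  have h1 : p ∣ q ^ a := dvd_pow hq ha
  have h3 : p ∣ 1 := (Nat.dvd_add_right h1).1 h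
  exact hp.one_lt.ne' (Nat.dvd_one.1 h3)

theorem sylow_twD4 {K : Type*} [Field K] [Fintype K] (p f : ℕ) [Fact p.Prime]
    (hK : Fintype.card K = p ^ (3 * f)) (hf : 1 ≤ f) :
    ∃ P : Sylow p ↥(Cfsg.Lie.twistedD4 K (p ^ f)),
      (P : Subgroup ↥(Cfsg.Lie.twistedD4 K (p ^ f))) =
        (Cfsg.Lie.chevD4.posUnipotent K).subgroupOf (Cfsg.Lie.twistedD4 K (p ^ f)) := by
  have hp : p.Prime := Fact.out
  set q := p ^ f with hq
  have hqpp : IsPrimePow q := ⟨p, f, hp.prime, hf, rfl⟩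
  have hK' : Fintype.card K = q ^ 3 := by rw [hK, hq, ← pow_mul, mul_comm]
  have hpq : p ∣ q := dvd_pow_self p (by omega)
  have hq0 : 0 < q := pow_pos hp.pos _
  apply sylow_of_card_mul p _ (f * 12) ((q ^ 2 - 1) * (q ^ 6 - 1) * (q ^ 8 + q ^ 4 + 1)) 1
  · rw [card_subgroupOf_eq_inf, Cfsg.Agent.S1088.result hqpp hK', hq, ← pow_mul]
  · rw [one_mul, Cfsg.Agent.S1067.result hqpp hK', pow_mul, ← hq]
    ring
  · intro h
    rcases (Nat.Prime.dvd_mul hp).1 h with h | h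
    · rcases (Nat.Prime.dvd_mul hp).1 h with h | h
      · exact not_dvd_pow_sub_one hp hpq hq0 (by norm_num) h
      · exact not_dvd_pow_sub_one hp hpq hq0 (by norm_num) h
    · have h1 : p ∣ q ^ 8 + q ^ 4 := dvd_add (dvd_pow hpq (by norm_num)) (dvd_pow hpq (by norm_num))
      have h3 : p ∣ 1 := (Nat.dvd_add_right h1).1 h
      exact hp.one_lt.ne' (Nat.dvd_one.1 h3)

theorem sylow_twE6 {K : Type*} [Field K] [Fintype K] (p f : ℕ) [Fact p.Prime]
    (hK : Fintype.card K = p ^ (2 * f)) (hf : 1 ≤ f) :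
    ∃ P : Sylow p ↥(Cfsg.Lie.twistedE6 K (p ^ f)),
      (P : Subgroup ↥(Cfsg.Lie.twistedE6 K (p ^ f))) =
        (Cfsg.Lie.chevE6.posUnipotent K).subgroupOf (Cfsg.Lie.twistedE6 K (p ^ f)) := by
  have hp : p.Prime := Fact.out
  set q := p ^ f with hq
  have hqpp : IsPrimePow q := ⟨p, f, hp.prime, hf, rfl⟩
  have hK' : Fintype.card K = q ^ 2 := by rw [hK, hq, ← pow_mul, mul_comm]
  have hpq : p ∣ q := dvd_pow_self p (by omega)
  have hq0 : 0 < q := pow_pos hp.pos _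
  apply sylow_of_card_mul p _ (f * 36)
    ((q ^ 2 - 1) * (q ^ 5 + 1) * (q ^ 6 - 1) * (q ^ 8 - 1) * (q ^ 9 + 1) * (q ^ 12 - 1)) (Nat.gcd 3 (q + 1))
  · rw [card_subgroupOf_eq_inf, Cfsg.Agent.S1086.result hqpp hK', hq, ← pow_mul]
  · rw [Cfsg.Agent.S1066.result hqpp hK', pow_mul, ← hq]
    ring
  · intro h
    rcases (Nat.Prime.dvd_mul hp).1 h with h | h
    · rcases (Nat.Prime.dvd_mul hp).1 h with h | h
      · rcases (Nat.Prime.dvd_mul hp).1 h with h | h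
        · rcases (Nat.Prime.dvd_mul hp).1 h with h | h
          · rcases (Nat.Prime.dvd_mul hp).1 h with h | h
            · exact not_dvd_pow_sub_one hp hpq hq0 (by norm_num) h
            · exact not_dvd_pow_add_one hp hpq (by norm_num) h
          · exact not_dvd_pow_sub_one hp hpq hq0 (by norm_num) h
        · exact not_dvd_pow_sub_one hp hpq hq0 (by norm_num) h
      · exact not_dvd_pow_add_one hp hpq (by norm_num) h
    · exact not_dvd_pow_sub_one hp hpq hq0 (by norm_num) h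

end Cfsg.Agent.Lib.Helper45
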