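import Cfsg.Agent.Lib.Helper45.TwistCount3

/-!
# Counting `U_{n_J}⁻ ∩ G¹` through a parametrisation
-/

set_option autoImplicit false

namespace Cfsg.Agent.Lib.Helper45

open Cfsg.Lie Matrix Cfsg.Agent.Lib.Helper23 Cfsg.Agent.Lib.Helper22 Cfsg.Agent.Lib.Helper8

variable {D : ChevalleyDatum} {F : Type*} [Field F]

namespace TwSetup

variable {b : Bundle D F}
  {σ : GL D.Idx F → GL D.Idx F} {ρ ρ' : ℕ → ℕ} {c : ℕ → F → F} {orbs : List (List ℕ)}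
  {cert : List (List ℕ × List (List ℕ))} {G1 : Subgroup (GL D.Idx F)}
  (X : TwSetup D F b σ ρ ρ' c orbs cert G1)
include X

theorem card_Umin_of_param {ω : List ℕ} (hω : ω ∈ orbs)
    (honly : ∀ r < D.nroots, D.IsPosRoot r → D.IsNegRoot (wact D ω r) → r ∈ ω.map D.simple)
    {T : Type*} (Pm : T → ℕ → F) (h1 : ∀ x, Compat c ρ' (ω.map D.simple) (Pm x))
    (h2 : ∀ τ, Compat c ρ' (ω.map D.simple) τ → ∃ x, ∀ a ∈ ω.map D.simple, Pm x a = τ a)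
    (h3 : ∀ x y, (∀ a ∈ ω.map D.simple, Pm x a = Pm y a) → x = y) :
    Nat.card ↥(Umin D F (b.hA.nword ω) ⊓ G1) = Nat.card T := by
  have P := bruhatPack_of_mem F X.hD
  have hpos : ∀ a ∈ ω.map D.simple, D.IsPosRoot a := by
    intro a ha
    obtain ⟨i, hi, rfl⟩ := List.mem_map.1 ha
    exact b.hR.simple_pos (X.hT.orb.rank ω hω i hi)
  symm
  let Ψ : T → ↥(Umin D F (b.hA.nword ω) ⊓ G1) := fun x =>
    ⟨b.hA.W (wL (ω.map D.simple) (Pm x)), (X.mem_Umin_inf_iff hω honly _).2 ⟨_, h1 x, rfl⟩⟩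
  apply Nat.card_congr (Equiv.ofBijective Ψ ⟨?_, ?_⟩)
  · intro x y h
    exact h3 x y (factor_unique b.hA P.hC P.hS (X.hT.posB ω hω).nodup hpos
      (congrArg Subtype.val h))
  · rintro ⟨g, hg⟩
    obtain ⟨τ, hτ, rfl⟩ := (X.mem_Umin_inf_iff hω honly _).1 hg
    obtain ⟨x, hx⟩ := h2 τ hτ
    exact ⟨x, Subtype.ext (congrArg b.hA.W (wL_congr hx))⟩

end TwSetup

end Cfsg.Agent.Lib.Helper45
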