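import Cfsg.Agent.Lib.Helper45.TwistWeyl2
import Cfsg.Agent.Lib.Helper45.TwistTabE6

/-! Table facts on rank two words in the orbit generators for the twisted group of type E6. -/

set_option autoImplicit false

namespace Cfsg.Agent.Lib.Helper45

open Cfsg.Lie Cfsg.Agent.Lib.Helper23

/-- the orbits in the order of the Coxeter diagram -/
def orbFE6 : Fin 4 → List ℕ := ![[1], [3], [2, 4], [0, 5]]

/-- the entries of the Coxeter matrix as natural numbers -/
def cmTwE6 (i j : Fin 4) : ℕ := CoxeterMatrix.F₄ i j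

set_option maxRecDepth 100000 in
theorem twCoxE6_one : ∀ i j : Fin 4, ∀ r < chevE6.nroots, chevE6.IsPosRoot r →
    chevE6.IsPosRoot (wact chevE6 (List.replicate (CoxeterMatrix.F₄ i j) (orbFE6 i ++ orbFE6 j)).flatten r) := by
  decide +kernel

set_option maxRecDepth 100000 in
theorem twCoxE6_ne : ∀ i j : Fin 4, ∀ t : Fin (cmTwE6 i j), 0 < t.val → ∃ r < chevE6.nroots,
    chevE6.IsPosRoot r ∧
    chevE6.IsNegRoot (wact chevE6 (List.replicate t.val (orbFE6 i ++ orbFE6 j)).flatten r) := by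
  decide +kernel

theorem twCoxE6 : TwCox chevE6 orbFE6 CoxeterMatrix.F₄ :=
  ⟨(by decide +kernel : ∀ i j : Fin 4, 0 < cmTwE6 i j), twCoxE6_one, twCoxE6_ne⟩

theorem orbFE6_mem : ∀ i, orbFE6 i ∈ orbsE6 := by decide +kernel

theorem orbFE6_surj : ∀ ω ∈ orbsE6, ∃ i, orbFE6 i = ω := by decide +kernel

end Cfsg.Agent.Lib.Helper45
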